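import Mathlib
import Cfsg.Prelude.Def_GeometricClasses
import Cfsg.Prelude.Def_LieClassical

set_option autoImplicit false

namespace Cfsg.Agent.Lib.Helper75.SPPEVEN

open Matrix Cfsg.Geo

variable {n : ℕ} {F : Type*} [Field F] [Fintype F]

theorem even_aux (f : (Fin n → F) → (Fin n → F) → F) (hb : IsBilinearForm f)
    (halt : ∀ v, f v v = 0) :
    ∀ (d : ℕ) (W : Submodule F (Fin n → F)), IsNondegenerateOn f W →
      Module.finrank F W = d → Even d := by
  have hskew : ∀ u v, f u v = - f v u := by
    intro u v
    have h := halt (u + v)
    rw [hb.add_left, hb.add_right, hb.add_right, halt, halt] at h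
    linear_combination h
  have hsub_left : ∀ x y v, f (x - y) v = f x v - f y v := by
    intro x y v
    have h := hb.add_left (x - y) y v
    rw [sub_add_cancel] at h
    linear_combination -h
  intro d
  induction d using Nat.strong_induction_on with
  | _ d ih =>
    intro W hW hd
    by_cases hbot : W = ⊥
    · subst hbot
      rw [finrank_bot] at hd
      rw [← hd]
      exact Even.zero
    · obtain ⟨w, hwW, hw0⟩ := (Submodule.ne_bot_iff W).mp hbot
      obtain ⟨x₀, hx₀W, hx₀⟩ := (hW w hwW hw0).1
      obtain ⟨x, hx⟩ : ∃ x, x = (f x₀ w)⁻¹ • x₀ := ⟨_, rfl⟩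
      have hxW : x ∈ W := by rw [hx]; exact W.smul_mem _ hx₀W
      have hxw : f x w = 1 := by
        rw [hx, hb.smul_left, inv_mul_cancel₀ hx₀]
      have hwx : f w x = -1 := by rw [hskew, hxw]
      have hxx : f x x = 0 := halt x
      have hww : f w w = 0 := halt w
      -- the orthogonal complement of the hyperbolic pair inside W
      let W' : Submodule F (Fin n → F) :=
        { carrier := {v | v ∈ W ∧ f v x = 0 ∧ f v w = 0}
          add_mem' := by
            rintro a b ⟨ha, ha1, ha2⟩ ⟨hb', hb1, hb2⟩
            refine ⟨W.add_mem ha hb', ?_, ?_⟩
            · rw [hb.add_left, ha1, hb1, add_zero]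
            · rw [hb.add_left, ha2, hb2, add_zero]
          zero_mem' := by
            refine ⟨W.zero_mem, ?_, ?_⟩
            · have := hb.smul_left 0 0 x
              simpa using this
            · have := hb.smul_left 0 0 w
              simpa using this
          smul_mem' := by
            rintro c a ⟨ha, ha1, ha2⟩
            refine ⟨W.smul_mem c ha, ?_, ?_⟩
            · rw [hb.smul_left, ha1, mul_zero]
            · rw [hb.smul_left, ha2, mul_zero] }
      have hW'mem : ∀ v, v ∈ W' ↔ v ∈ W ∧ f v x = 0 ∧ f v w = 0 := fun v => Iff.rfl
      -- projection to W'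
      have hproj : ∀ v ∈ W, v - ((f v w) • x - (f v x) • w) ∈ W' := by
        intro v hv
        rw [hW'mem]
        refine ⟨W.sub_mem hv (W.sub_mem (W.smul_mem _ hxW) (W.smul_mem _ hwW)), ?_, ?_⟩
        · rw [hsub_left, hsub_left, hb.smul_left, hb.smul_left, hxx, hwx]
          ring
        · rw [hsub_left, hsub_left, hb.smul_left, hb.smul_left, hxw, hww]
          ring
      -- W' is non-degenerate
      have hW' : IsNondegenerateOn f W' := by
        intro v' hv' hv'0
        obtain ⟨hv'W, hv'x, hv'w⟩ := (hW'mem v').mp hv'
        obtain ⟨y, hyW, hy⟩ := (hW v' hv'W hv'0).1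
        have hxv' : f x v' = 0 := by rw [hskew, hv'x, neg_zero]
        have hwv' : f w v' = 0 := by rw [hskew, hv'w, neg_zero]
        have hval : f (y - ((f y w) • x - (f y x) • w)) v' = f y v' := by
          rw [hsub_left, hsub_left, hb.smul_left, hb.smul_left, hxv', hwv']
          ring
        refine ⟨⟨_, hproj y hyW, ?_⟩, ⟨_, hproj y hyW, ?_⟩⟩
        · rw [hval]; exact hy
        · rw [hskew, hval]; exact neg_ne_zero.mpr hy
      -- the plane
      have hli : LinearIndependent F ![x, w] := by
        rw [LinearIndependent.pair_iff]
        intro s t hst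
        have h1 : f (s • x + t • w) w = 0 := by
          rw [hst]
          have := hb.smul_left 0 0 w
          simpa using this
        have h2 : f (s • x + t • w) x = 0 := by
          rw [hst]
          have := hb.smul_left 0 0 x
          simpa using this
        rw [hb.add_left, hb.smul_left, hb.smul_left, hxw, hww] at h1
        rw [hb.add_left, hb.smul_left, hb.smul_left, hxx, hwx] at h2
        constructor
        · linear_combination h1
        · linear_combination -h2
      have hP : Module.finrank F (Submodule.span F ({x, w} : Set (Fin n → F))) = 2 := by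
        have h := finrank_span_eq_card hli
        rw [Matrix.range_cons_cons_empty] at h
        simpa using h
      have hinf : W' ⊓ Submodule.span F ({x, w} : Set (Fin n → F)) = ⊥ := by
        rw [eq_bot_iff]
        rintro v ⟨hv1, hv2⟩
        obtain ⟨-, hvx, hvw⟩ := (hW'mem v).mp hv1
        obtain ⟨s, t, rfl⟩ := Submodule.mem_span_pair.mp hv2
        rw [hb.add_left, hb.smul_left, hb.smul_left, hxw, hww] at hvw
        rw [hb.add_left, hb.smul_left, hb.smul_left, hxx, hwx] at hvx
        have hs : s = 0 := by linear_combination hvw
        have ht : t = 0 := by linear_combination -hvx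
        rw [hs, ht]
        simp
      have hsup : W' ⊔ Submodule.span F ({x, w} : Set (Fin n → F)) = W := by
        apply le_antisymm
        · apply sup_le
          · intro v hv
            exact ((hW'mem v).mp hv).1
          · rw [Submodule.span_le]
            rintro v (rfl | rfl)
            · exact hxW
            · exact hwW
        · intro v hv
          have h1 := hproj v hv
          have h2 : (f v w) • x - (f v x) • w ∈ Submodule.span F ({x, w} : Set (Fin n → F)) := by
            apply Submodule.sub_mem
            · exact Submodule.smul_mem _ _ (Submodule.subset_span (by simp))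
            · exact Submodule.smul_mem _ _ (Submodule.subset_span (by simp))
          have h3 : v = (v - ((f v w) • x - (f v x) • w)) + ((f v w) • x - (f v x) • w) := by
            rw [sub_add_cancel]
          rw [h3]
          exact Submodule.add_mem_sup h1 h2
      have hdim := Submodule.finrank_sup_add_finrank_inf_eq W'
        (Submodule.span F ({x, w} : Set (Fin n → F)))
      rw [hinf, hsup, finrank_bot, hP, hd] at hdim
      have hlt : Module.finrank F W' < d := by omega
      have hev := ih _ hlt W' hW' rfl
      have hd2 : d = Module.finrank F W' + 2 := by omega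
      rw [hd2]
      exact Even.add hev even_two

/-- EVEN: a subspace on which an alternating bilinear form is non-degenerate has even dimension. -/
theorem EVEN (f : (Fin n → F) → (Fin n → F) → F) (hb : IsBilinearForm f) (halt : ∀ v, f v v = 0)
    (W : Submodule F (Fin n → F)) (hW : IsNondegenerateOn f W) : Even (Module.finrank F W) :=
  even_aux f hb halt _ W hW rfl

end Cfsg.Agent.Lib.Helper75.SPPEVEN
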