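import Mathlib
import Cfsg.Prelude.Def_GeometricClasses
import Cfsg.Agent.Lib.Helper71.Asch0

/-!
# S5630 (Aschbacher for `GL_n`), pieces SM and E4

Finite field arithmetic: the subfield dichotomy for the `z`-th roots of unity, and `e ∈ {1, 2}`
for `z = 4`.
-/

set_option autoImplicit false

namespace Cfsg.Agent.Lib.Helper75.ASSM

open Matrix Cfsg.Geo Cfsg.Agent.Lib.Helper71.Asch
open scoped Kronecker

variable {n : ℕ} {F : Type*} [Field F] [Fintype F]

/-- SM -/
theorem SM (z : ℕ) (hroot : ∃ ζ : F, IsPrimitiveRoot ζ z) (hz : 0 < z) :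
    (∃ F₁ : Subfield F, F₁ ≠ ⊤ ∧ ∀ c : F, c ^ z = 1 → c ∈ F₁) ∨
    (∃ p e : ℕ, IsMinimalFieldFor z p e F) := by
  classical
  obtain ⟨ζ, hζ⟩ := hroot
  obtain ⟨p, hcharP⟩ := CharP.exists F
  obtain ⟨e, hp, hcard⟩ := FiniteField.card F p
  have : Fact p.Prime := ⟨hp⟩
  have hζ0 : ζ ≠ 0 := hζ.ne_zero hz.ne'
  have hdvd : z ∣ p ^ (e : ℕ) - 1 := by
    apply hζ.dvd_of_pow_eq_one
    rw [← hcard]
    exact FiniteField.pow_card_sub_one_eq_one ζ hζ0
  by_cases hmin : ∀ d : ℕ, 0 < d → d < (e : ℕ) → ¬ z ∣ p ^ d - 1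
  · right
    exact ⟨p, e, hp, hcharP, hcard, hdvd, hmin⟩
  · left
    push Not at hmin
    obtain ⟨d, hd0, hde, hzd⟩ := hmin
    have hpd : 2 ≤ p ^ d := le_trans hp.two_le (Nat.le_self_pow hd0.ne' p)
    have hpde : p ^ d < p ^ (e : ℕ) := Nat.pow_lt_pow_right hp.one_lt hde
    refine ⟨(iterateFrobenius F p d).eqLocusField (RingHom.id F), ?_, ?_⟩
    · intro htop
      obtain ⟨g, hg⟩ := IsCyclic.exists_generator (α := Fˣ)
      have hord : orderOf g = Nat.card Fˣ := orderOf_eq_card_of_forall_mem_zpowers hg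
      have hcu : Nat.card Fˣ = p ^ (e : ℕ) - 1 := by
        rw [Nat.card_eq_fintype_card, Fintype.card_units, hcard]
      have hmem : (g : F) ∈ (iterateFrobenius F p d).eqLocusField (RingHom.id F) := by
        rw [htop]
        exact Subfield.mem_top _
      have h1 : (g : F) ^ p ^ d = (g : F) := by
        have h2 : iterateFrobenius F p d (g : F) = RingHom.id F (g : F) := hmem
        rwa [iterateFrobenius_def, RingHom.id_apply] at h2
      have h3 : g ^ (p ^ d - 1) = 1 := by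
        apply Units.ext
        rw [Units.val_pow_eq_pow_val, Units.val_one]
        have h4 : (g : F) ^ (p ^ d - 1) * (g : F) = (g : F) := by
          rw [← pow_succ, Nat.sub_add_cancel (by omega), h1]
        have h5 : (g : F) ≠ 0 := g.ne_zero
        exact mul_right_cancel₀ h5 (by rw [h4, one_mul])
      have h6 := orderOf_dvd_of_pow_eq_one h3
      rw [hord, hcu] at h6
      have h7 := Nat.le_of_dvd (by omega) h6
      omega
    · intro c hc
      show iterateFrobenius F p d c = RingHom.id F c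
      rw [iterateFrobenius_def, RingHom.id_apply]
      obtain ⟨m, hm⟩ := hzd
      have h1 : c ^ (p ^ d - 1) = 1 := by rw [hm, pow_mul, hc, one_pow]
      calc c ^ p ^ d = c ^ (p ^ d - 1 + 1) := by rw [Nat.sub_add_cancel (by omega)]
        _ = c := by rw [pow_succ, h1, one_mul]

/-- E4 -/
theorem E4 (p e : ℕ) (hmin : IsMinimalFieldFor 4 p e F) : e = 1 ∨ e = 2 := by
  obtain ⟨hp, hchar, hcard, hdvd, hno⟩ := hmin
  have he0 : e ≠ 0 := by
    rintro rfl
    have h1 : 1 < Fintype.card F := Fintype.one_lt_card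
    rw [hcard, pow_zero] at h1
    exact lt_irrefl _ h1
  have hp2 : p ≠ 2 := by
    rintro rfl
    obtain ⟨e', rfl⟩ := Nat.exists_eq_succ_of_ne_zero he0
    have h1 : 2 ^ (e' + 1) = 2 * 2 ^ e' := pow_succ' 2 e'
    have h2 : 0 < 2 ^ e' := Nat.two_pow_pos e'
    rw [h1] at hdvd
    omega
  have hodd : Odd p := hp.odd_of_ne_two hp2
  have h4 : 4 ∣ p ^ 2 - 1 := by
    obtain ⟨t, rfl⟩ := hodd
    have h1 : (2 * t + 1) ^ 2 - 1 = 4 * (t * (t + 1)) := by
      have h2 : (2 * t + 1) ^ 2 = 4 * (t * (t + 1)) + 1 := by ring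
      omega
    rw [h1]
    exact Dvd.intro _ rfl
  by_contra hcon
  push Not at hcon
  have he3 : 2 < e := by omega
  exact hno 2 (by norm_num) he3 h4

end Cfsg.Agent.Lib.Helper75.ASSM
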