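import Mathlib
import Cfsg.Prelude.Def_GeometricClasses
import Cfsg.Agent.Lib.Helper97.Transv
import Cfsg.Agent.Lib.Helper97.TransvM
import Cfsg.Agent.Lib.Helper71.TP0
import Cfsg.Agent.Lib.Helper71.TP1

/-!
# S5637, piece L3: an element stabilising a fibre acts on it by an invertible matrix
-/

set_option autoImplicit false

namespace Cfsg.Agent.Lib.Helper75.TPL3

open Matrix Cfsg.Agent.Lib.Helper71.TP Cfsg.Agent.Lib.Helper97
open scoped Kronecker

variable {a b : ℕ} {F : Type*} [Field F]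

/-- L3 -/
theorem exists_xi (x : GL (Fin a × Fin b) F) (w : Fin b → F) (hw : w ≠ 0)
    (hx : ∀ v ∈ fib (a := a) w, act x v ∈ fib (a := a) w) :
    ∃ ξ : GL (Fin a) F, ∀ u : Fin a → F, act x (pt u w) = pt (ξ.1 *ᵥ u) w := by
  classical
  obtain ⟨j₀, hj₀⟩ : ∃ j, w j ≠ 0 := by
    by_contra hcon
    push Not at hcon
    exact hw (funext hcon)
  have hψw : ((w j₀)⁻¹ • (Pi.single j₀ 1 : Fin b → F)) ⬝ᵥ w = 1 := by
    rw [smul_dotProduct, single_dotProduct, one_mul, smul_eq_mul, inv_mul_cancel₀ hj₀]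
  have hctr : ∀ u : Fin a → F,
      ctr ((w j₀)⁻¹ • (Pi.single j₀ 1 : Fin b → F)) (pt u w) = u := by
    intro u
    rw [ctr_pt, hψw, one_smul]
  let T : (Fin a → F) →ₗ[F] (Fin a → F) :=
    (ctrL ((w j₀)⁻¹ • (Pi.single j₀ 1 : Fin b → F))).comp
      ((Matrix.toLin' x.1).comp (ptL w))
  have hTdef : ∀ u, T u = ctr ((w j₀)⁻¹ • (Pi.single j₀ 1 : Fin b → F)) (act x (pt u w)) := by
    intro u
    rfl
  have hT : ∀ u, act x (pt u w) = pt (T u) w := by
    intro u
    obtain ⟨u', hu'⟩ := mem_fib.1 (hx _ (pt_mem_fib u w))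
    have h1 : T u = u' := by
      rw [hTdef, hu', hctr]
    rw [h1, hu']
  have hTinj : Function.Injective T := by
    rw [← LinearMap.ker_eq_bot, LinearMap.ker_eq_bot']
    intro u hu
    have h1 := hT u
    rw [hu, pt_zero_left] at h1
    have h2 : pt u w = 0 := act_injective x (by rw [h1, act_zero])
    funext i
    have h3 := congrFun h2 (i, j₀)
    simp only [pt_apply, Pi.zero_apply] at h3
    exact (mul_eq_zero.1 h3).resolve_right hj₀
  have hTsurj : Function.Surjective T := LinearMap.injective_iff_surjective.1 hTinj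
  obtain ⟨S, hS1, hS2⟩ : ∃ S : (Fin a → F) →ₗ[F] (Fin a → F),
      T.comp S = LinearMap.id ∧ S.comp T = LinearMap.id := by
    refine ⟨((LinearEquiv.ofBijective T ⟨hTinj, hTsurj⟩).symm : (Fin a → F) →ₗ[F] (Fin a → F)),
      ?_, ?_⟩
    · apply LinearMap.ext
      intro u
      exact (LinearEquiv.ofBijective T ⟨hTinj, hTsurj⟩).apply_symm_apply u
    · apply LinearMap.ext
      intro u
      exact (LinearEquiv.ofBijective T ⟨hTinj, hTsurj⟩).symm_apply_apply u
  refine ⟨⟨LinearMap.toMatrix' T, LinearMap.toMatrix' S, ?_, ?_⟩, ?_⟩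
  · rw [← LinearMap.toMatrix'_comp, hS1, LinearMap.toMatrix'_id]
  · rw [← LinearMap.toMatrix'_comp, hS2, LinearMap.toMatrix'_id]
  · intro u
    rw [hT u]
    congr 1
    show T u = (LinearMap.toMatrix' T) *ᵥ u
    rw [← Matrix.toLin'_apply, Matrix.toLin'_toMatrix']

end Cfsg.Agent.Lib.Helper75.TPL3
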