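import Mathlib
import Cfsg.Agent.Lib.Helper15.FH0

/-!
# Feit–Higman, piece R2b: traces of the alternating products of the two real 2×2 matrices
-/

set_option autoImplicit false

namespace Cfsg.Agent.Lib.Helper75.FH

open Cfsg Cfsg.Agent.Lib.Helper8 Cfsg.Agent.Lib.Helper15.FH

/-- Cayley–Hamilton for a real 2×2 matrix -/
theorem cayley_two (M : Matrix (Fin 2) (Fin 2) ℝ) : M * M = M.trace • M - M.det • 1 := by
  ext i j
  fin_cases i <;> fin_cases j <;>
    simp [Matrix.mul_apply, Fin.sum_univ_two, Matrix.trace_fin_two, Matrix.det_fin_two] <;> ring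

/-- the Chebyshev recursion for the powers of a matrix with `Z² = 2 r cos θ Z - r²` -/
theorem cheb_pow (Z : Matrix (Fin 2) (Fin 2) ℝ) (r θ : ℝ)
    (hZ : Z * Z = (2 * r * Real.cos θ) • Z - (r ^ 2) • 1) (k : ℕ) :
    (Real.sin θ * r) • Z ^ k =
      r ^ k • (Real.sin (k * θ) • Z - (r * Real.sin ((k - 1 : ℝ) * θ)) • (1 : Matrix (Fin 2) (Fin 2) ℝ)) := by
  induction k with
  | zero =>
    have e : ((0 : ℕ) - 1 : ℝ) * θ = -θ := by push_cast; ring
    rw [e, Real.sin_neg]
    simp only [pow_zero, Nat.cast_zero, zero_mul, Real.sin_zero, zero_smul, zero_sub, one_smul]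
    rw [← neg_smul]
    congr 1
    ring
  | succ k ih =>
    have e1 : ((k + 1 : ℕ) : ℝ) * θ = k * θ + θ := by push_cast; ring
    have e2 : (((k + 1 : ℕ) : ℝ) - 1) * θ = k * θ := by push_cast; ring
    have e3 : ((k : ℝ) - 1) * θ = k * θ - θ := by ring
    rw [e3] at ih
    rw [pow_succ, ← Matrix.smul_mul, ih, e1, e2, Real.sin_add]
    rw [Real.sin_sub]
    simp only [Matrix.smul_mul, Matrix.sub_mul, Matrix.one_mul, hZ]
    module

/-- the trace of `A` -/
theorem trace_matA (u : ℝ) : (matA u).trace = u - 1 := by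
  rw [matA_def, Matrix.trace_fin_two_of]
  ring

/-- the trace of `B` -/
theorem trace_matB (u v θ : ℝ) : (matB u v θ).trace = v - 1 := by
  rw [matB_def, Matrix.trace_fin_two_of]
  ring

theorem det_matA (u : ℝ) : (matA u).det = -u := by
  rw [matA_def, Matrix.det_fin_two_of]
  ring

theorem det_matB (u v θ : ℝ) : (matB u v θ).det = -v := by
  rw [matB_def, Matrix.det_fin_two_of]
  ring

theorem fhA_mul (u v θ : ℝ) (hu : 0 < u) :
    (u + 1) * fhA u v θ = v - 1 + 2 * Real.sqrt (u * v) * Real.cos θ := by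
  have h : u + 1 ≠ 0 := by positivity
  rw [fhA_def]
  field_simp

/-- the trace of `A B` -/
theorem trace_matAB (u v θ : ℝ) (hu : 0 < u) :
    (matA u * matB u v θ).trace = 2 * Real.sqrt (u * v) * Real.cos θ := by
  have h := fhA_mul u v θ hu
  rw [matA_def, matB_def, Matrix.mul_fin_two, Matrix.trace_fin_two_of]
  linear_combination h

/-- the trace of `B A` -/
theorem trace_matBA (u v θ : ℝ) (hu : 0 < u) :
    (matB u v θ * matA u).trace = 2 * Real.sqrt (u * v) * Real.cos θ := by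
  rw [Matrix.trace_mul_comm, trace_matAB u v θ hu]

/-- the trace of `A B A` -/
theorem trace_matABA (u v θ : ℝ) (hu : 0 < u) :
    (matA u * matB u v θ * matA u).trace =
      (u - 1) * (2 * Real.sqrt (u * v) * Real.cos θ) + u * (v - 1) := by
  have h := fhA_mul u v θ hu
  rw [matA_def, matB_def, Matrix.mul_fin_two, Matrix.mul_fin_two, Matrix.trace_fin_two_of]
  linear_combination (u - 1) * h

/-- the trace of `B A B` -/
theorem trace_matBAB (u v θ : ℝ) (hu : 0 < u) :
    (matB u v θ * matA u * matB u v θ).trace =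
      (v - 1) * (2 * Real.sqrt (u * v) * Real.cos θ) + v * (u - 1) := by
  have h := fhA_mul u v θ hu
  rw [matA_def, matB_def, Matrix.mul_fin_two, Matrix.mul_fin_two, Matrix.trace_fin_two_of]
  linear_combination (v - 1) * h

theorem sq_matAB (u v θ : ℝ) (hu : 0 < u) (hv : 0 < v) :
    (matA u * matB u v θ) * (matA u * matB u v θ) =
      (2 * Real.sqrt (u * v) * Real.cos θ) • (matA u * matB u v θ) -
        (Real.sqrt (u * v) ^ 2) • (1 : Matrix (Fin 2) (Fin 2) ℝ) := by
  rw [cayley_two, trace_matAB u v θ hu, Matrix.det_mul, det_matA, det_matB,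
    Real.sq_sqrt (mul_pos hu hv).le]
  congr 2
  ring

theorem sq_matBA (u v θ : ℝ) (hu : 0 < u) (hv : 0 < v) :
    (matB u v θ * matA u) * (matB u v θ * matA u) =
      (2 * Real.sqrt (u * v) * Real.cos θ) • (matB u v θ * matA u) -
        (Real.sqrt (u * v) ^ 2) • (1 : Matrix (Fin 2) (Fin 2) ℝ) := by
  rw [cayley_two, trace_matBA u v θ hu, Matrix.det_mul, det_matA, det_matB,
    Real.sq_sqrt (mul_pos hu hv).le]
  congr 2
  ring

/-- the common computation: the traces of `Z^i` and `Z^i * C` -/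
theorem trace_pow_aux (Z C : Matrix (Fin 2) (Fin 2) ℝ) (r θ : ℝ) (hr : 0 < r)
    (hθ : Real.sin θ ≠ 0) (hZ : Z * Z = (2 * r * Real.cos θ) • Z - (r ^ 2) • 1)
    (hZt : Z.trace = 2 * r * Real.cos θ) (i : ℕ) :
    (Z ^ i).trace = 2 * r ^ i * Real.cos (i * θ) ∧
    (Z ^ i * C).trace = (r ^ i * (Z * C).trace * Real.sin (i * θ) -
        r ^ i * r * C.trace * Real.sin ((i - 1 : ℝ) * θ)) / (Real.sin θ * r) := by
  have h := cheb_pow Z r θ hZ i
  have hsr : Real.sin θ * r ≠ 0 := mul_ne_zero hθ hr.ne'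
  have e3 : ((i : ℝ) - 1) * θ = i * θ - θ := by ring
  constructor
  · have h1 := congrArg Matrix.trace h
    simp only [Matrix.trace_smul, Matrix.trace_sub, Matrix.trace_one, Fintype.card_fin, hZt,
      smul_eq_mul] at h1
    rw [e3, Real.sin_sub] at h1
    have h2 : Real.sin θ * r * (Z ^ i).trace = Real.sin θ * r * (2 * r ^ i * Real.cos (i * θ)) := by
      rw [h1]
      push_cast
      ring
    exact mul_left_cancel₀ hsr h2
  · have h1 := congrArg (fun M => (M * C).trace) h
    simp only [Matrix.smul_mul, Matrix.sub_mul, Matrix.one_mul, Matrix.trace_smul,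
      Matrix.trace_sub, smul_eq_mul] at h1
    rw [eq_div_iff hsr]
    rw [mul_comm, h1]
    ring

theorem trace_altP_A (u v θ : ℝ) (hu : 0 < u) (hv : 0 < v) (hθ : Real.sin θ ≠ 0) (k : ℕ) :
    (altP (matA u) (matB u v θ) k).trace = fhTrA u v θ k := by
  have hr : 0 < Real.sqrt (u * v) := Real.sqrt_pos.2 (mul_pos hu hv)
  rw [fhTrA_def]
  generalize hr_def : Real.sqrt (u * v) = r at hr ⊢
  obtain ⟨i, rfl | rfl⟩ := Nat.even_or_odd' k
  · have hev : Even (2 * i) := even_two_mul i
    have hdiv : 2 * i / 2 = i := by omega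
    rw [if_pos hev, hdiv, altP_two_mul]
    exact (trace_pow_aux _ 1 r θ hr hθ (hr_def ▸ sq_matAB u v θ hu hv)
      (hr_def ▸ trace_matAB u v θ hu) i).1
  · have hodd : ¬ Even (2 * i + 1) := by
      rw [Nat.not_even_iff_odd]
      exact odd_two_mul_add_one i
    have hdiv : (2 * i + 1) / 2 = i := by omega
    rw [if_neg hodd, hdiv, altP_two_mul_add_one]
    rw [(trace_pow_aux _ (matA u) r θ hr hθ (hr_def ▸ sq_matAB u v θ hu hv)
      (hr_def ▸ trace_matAB u v θ hu) i).2, trace_matABA u v θ hu, trace_matA, hr_def]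
    have e3 : ((i : ℝ) - 1) * θ = i * θ - θ := by ring
    have e4 : ((i : ℝ) + 1) * θ = i * θ + θ := by ring
    rw [e3, e4, Real.sin_sub, Real.sin_add]
    field_simp
    ring

theorem trace_altP_B (u v θ : ℝ) (hu : 0 < u) (hv : 0 < v) (hθ : Real.sin θ ≠ 0) (k : ℕ) :
    (altP (matB u v θ) (matA u) k).trace = fhTrB u v θ k := by
  have hr : 0 < Real.sqrt (u * v) := Real.sqrt_pos.2 (mul_pos hu hv)
  rw [fhTrB_def]
  generalize hr_def : Real.sqrt (u * v) = r at hr ⊢
  obtain ⟨i, rfl | rfl⟩ := Nat.even_or_odd' k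
  · have hev : Even (2 * i) := even_two_mul i
    have hdiv : 2 * i / 2 = i := by omega
    rw [if_pos hev, hdiv, altP_two_mul]
    exact (trace_pow_aux _ 1 r θ hr hθ (hr_def ▸ sq_matBA u v θ hu hv)
      (hr_def ▸ trace_matBA u v θ hu) i).1
  · have hodd : ¬ Even (2 * i + 1) := by
      rw [Nat.not_even_iff_odd]
      exact odd_two_mul_add_one i
    have hdiv : (2 * i + 1) / 2 = i := by omega
    rw [if_neg hodd, hdiv, altP_two_mul_add_one]
    rw [(trace_pow_aux _ (matB u v θ) r θ hr hθ (hr_def ▸ sq_matBA u v θ hu hv)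
      (hr_def ▸ trace_matBA u v θ hu) i).2, trace_matBAB u v θ hu, trace_matB, hr_def]
    have e3 : ((i : ℝ) - 1) * θ = i * θ - θ := by ring
    have e4 : ((i : ℝ) + 1) * θ = i * θ + θ := by ring
    rw [e3, e4, Real.sin_sub, Real.sin_add]
    field_simp
    ring

end Cfsg.Agent.Lib.Helper75.FH
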