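import Mathlib
import Cfsg.Agent.Lib.Helper18.CTDefs

/-! Project CT (helper18; S4699): piece `RNG`. A nilpotent endomorphism `y` with
`range (y ^ e) ≤ range (y ^ (e + 1))` satisfies `y ^ e = 0`. -/

set_option autoImplicit false

namespace Cfsg.Agent.Lib.Helper18.CT

variable {G : Type*} [Group G] {F : Type*} [Field F] {V : Type*} [AddCommGroup V] [Module F V]

-- piece RNG
theorem range_stable_zero (y : Module.End F V) (hy : IsNilpotent y) (e : ℕ)
    (h : LinearMap.range (y ^ e) ≤ LinearMap.range (y ^ (e + 1))) : y ^ e = 0 := by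
  have key : ∀ j : ℕ, ∀ v : V, ∃ u : V, (y ^ e) v = (y ^ (e + j)) u := by
    intro j
    induction j with
    | zero =>
      intro v
      exact ⟨v, rfl⟩
    | succ j ih =>
      intro v
      obtain ⟨v', hv'⟩ := h (LinearMap.mem_range_self (y ^ e) v)
      obtain ⟨u, hu⟩ := ih v'
      refine ⟨u, ?_⟩
      rw [← hv', pow_succ', Module.End.mul_apply, hu, ← Module.End.mul_apply, ← pow_succ',
        add_assoc]
  obtain ⟨k, hk⟩ := hy
  apply LinearMap.ext
  intro v
  obtain ⟨u, hu⟩ := key k v
  rw [hu, pow_add, hk, mul_zero, LinearMap.zero_apply, LinearMap.zero_apply]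

end Cfsg.Agent.Lib.Helper18.CT
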