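import Mathlib
import Cfsg.Agent.Lib.Helper81.BrPairs
import Cfsg.Agent.Lib.Helper81.BrAct
import Cfsg.Agent.Lib.Helper82.Major

/-!
# DG project (general defect one, block side), piece STAB: the stabilizer of a maximal pair
-/

set_option autoImplicit false
set_option linter.style.haveILetI false

namespace Cfsg.Agent.Lib.Helper75.DG

open Cfsg Cfsg.Agent.Lib.Helper4 Cfsg.Agent.Lib.Helper21 Cfsg.Agent.Lib.Helper22
open Cfsg.Agent.Lib.Helper81
open scoped ComplexConjugate

variable {G : Type*} [Group G] [Fintype G] {p : ℕ} [Fact p.Prime] {M : Ideal AlgInt}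

omit [Fintype G] in
private theorem h75_norm_cent (P : Subgroup G) :
    Subgroup.normalizer (P : Set G) ≤
      Subgroup.normalizer ((Subgroup.centralizer (P : Set G) : Subgroup G) : Set G) := by
  have key : ∀ (g : G), g ∈ Subgroup.normalizer (P : Set G) → ∀ c,
      c ∈ Subgroup.centralizer (P : Set G) → g * c * g⁻¹ ∈ Subgroup.centralizer (P : Set G) := by
    intro g hg c hc
    rw [Subgroup.mem_centralizer_iff] at hc ⊢
    intro h hh
    have h1 : g⁻¹ * h * g ∈ P := by
      have := (Subgroup.mem_normalizer_iff.1 (inv_mem hg) h).1 hh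
      simpa using this
    have h2 := hc _ h1
    calc h * (g * c * g⁻¹) = g * ((g⁻¹ * h * g) * c) * g⁻¹ := by group
      _ = g * (c * (g⁻¹ * h * g)) * g⁻¹ := by rw [h2]
      _ = g * c * g⁻¹ * h := by group
  intro g hg
  rw [Subgroup.mem_normalizer_iff]
  intro c
  constructor
  · exact key g hg c
  · intro hc
    have := key g⁻¹ (inv_mem hg) _ hc
    have e : g⁻¹ * (g * c * g⁻¹) * g⁻¹⁻¹ = c := by group
    rwa [e] at this

/-- PIECE STAB -/
theorem stab_iff (hM : IsPModular p M) (P : Subgroup G)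
    (c : Set (IrrCharacter (Subgroup.centralizer (P : Set G)))) (hc : IsPBlock M c)
    (θ : IrrCharacter (Subgroup.centralizer (P : Set G))) (hθ : θ ∈ c)
    (hθP : ∀ x : Subgroup.centralizer (P : Set G), (x : G) ∈ P → θ.1 x = θ.1 1)
    (huniq : ∀ ξ ∈ c,
      (∀ x : Subgroup.centralizer (P : Set G), (x : G) ∈ P → ξ.1 x = ξ.1 1) → ξ = θ)
    (g : G) :
    conjPair g (⟨P, c⟩ : BrauerPairIdx G) = ⟨P, c⟩ ↔
      (g ∈ Subgroup.normalizer (P : Set G) ∧
        ∀ k k' : Subgroup.centralizer (P : Set G), (k' : G) = g * k * g⁻¹ →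
          θ.1 k' = θ.1 k) := by
  classical
  letI : Fintype (Subgroup.centralizer (P : Set G)) := Fintype.ofFinite _
  rw [conjPair_eq_self_iff]
  constructor
  · rintro ⟨hg, hgC, hst⟩
    refine ⟨hg, ?_⟩
    obtain ⟨χ', hχ', hconj⟩ := hst θ hθ
    have hχ1 : χ'.1 1 = θ.1 1 := by
      refine hconj 1 1 ?_
      simp
    have hχ'θ : χ' = θ := by
      refine huniq χ' hχ' ?_
      intro x hx
      have hk : g⁻¹ * (x : G) * g ∈ Subgroup.centralizer (P : Set G) := by
        have := (Subgroup.mem_normalizer_iff.1 (inv_mem hgC) (x : G)).1 x.2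
        simpa using this
      have hkP : g⁻¹ * (x : G) * g ∈ P := by
        have := (Subgroup.mem_normalizer_iff.1 (inv_mem hg) (x : G)).1 hx
        simpa using this
      have h1 := hconj ⟨g⁻¹ * (x : G) * g, hk⟩ x (by simp only; group)
      rw [h1, hχ1]
      exact hθP ⟨g⁻¹ * (x : G) * g, hk⟩ hkP
    rw [hχ'θ] at hconj
    exact hconj
  · rintro ⟨hg, hθg⟩
    refine ⟨hg, ?_⟩
    have hgC := h75_norm_cent P hg
    rw [stabilizesBlock_iff]
    refine ⟨hgC, ?_⟩
    have hblk : IsPBlock M (conjSet (Subgroup.centralizer (P : Set G)) g hgC c) :=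
      isPBlock_conjSet _ g hgC hc
    have hθmem : θ ∈ conjSet (Subgroup.centralizer (P : Set G)) g hgC c := by
      have h1 : θ = irrMap (normConj (Subgroup.centralizer (P : Set G)) g hgC) θ :=
        (isConjCharOf_iff _ g hgC θ θ).1 hθg
      rw [h1]
      exact ⟨θ, hθ, rfl⟩
    have := Cfsg.Agent.Lib.Helper82.block_eq_of_mem hM hblk hc θ hθmem hθ
    rw [this]

end Cfsg.Agent.Lib.Helper75.DG
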