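import Mathlib
import Cfsg.Prelude.Def_GeometricClasses
import Cfsg.Prelude.Def_LieClassical

set_option autoImplicit false

namespace Cfsg.Agent.Lib.Helper75.OMPT5

open Matrix Cfsg.Geo

variable {n : ℕ} {F : Type*} [Field F] [Fintype F]
variable {κ : Type} [Fintype κ] [DecidableEq κ]

/-- transport of vectors: `v ↦ v ∘ e.symm` -/
def tv (e : κ ≃ Fin n) : (κ → F) ≃ₗ[F] (Fin n → F) := LinearEquiv.funCongrLeft F F e.symm

/-- the transported quadratic form on `Fin n → F` -/
def tQ (e : κ ≃ Fin n) (Q : (κ → F) → F) : (Fin n → F) → F := fun v => Q (v ∘ e)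

theorem glReindex_symm_val {K : Type*} [Field K] (e : κ ≃ Fin n) (y : GL (Fin n) K) :
    (((glReindex e).symm y : GL κ K) : Matrix κ κ K) = (y : Matrix (Fin n) (Fin n) K).submatrix e e := by
  rfl

theorem symm_mem_S (e : κ ≃ Fin n) (F₀ : Subfield F) (y : GL (Fin n) F)
    (hy : y ∈ (Matrix.GeneralLinearGroup.map (F₀.subtype : F₀ →+* F)).range ⊔ scalars (Fin n) F) :
    (glReindex e).symm y ∈
      (Matrix.GeneralLinearGroup.map (F₀.subtype : F₀ →+* F)).range ⊔ scalars κ F := by
  have hle : (Matrix.GeneralLinearGroup.map (F₀.subtype : F₀ →+* F)).range ⊔ scalars (Fin n) F ≤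
      ((Matrix.GeneralLinearGroup.map (F₀.subtype : F₀ →+* F)).range ⊔ scalars κ F).comap
        (glReindex (F := F) e).symm.toMonoidHom := by
    apply sup_le
    · rintro _ ⟨y₀, rfl⟩
      rw [Subgroup.mem_comap]
      apply Subgroup.mem_sup_left
      refine ⟨(glReindex (F := F₀) e).symm y₀, ?_⟩
      apply Units.ext
      ext i j
      rfl
    · intro z hz
      rw [Subgroup.mem_comap]
      apply Subgroup.mem_sup_right
      rw [mem_scalars_iff] at hz ⊢
      obtain ⟨c, hc⟩ := hz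
      refine ⟨c, ?_⟩
      change ((glReindex e).symm z : Matrix κ κ F) = _
      rw [glReindex_symm_val, hc]
      ext i j
      simp [Matrix.one_apply]
  exact hle hy

/-- T5 -/
theorem T5 (e : κ ≃ Fin n) (Q : (κ → F) → F) (H : Subgroup (GL κ F)) (F₀ : Subfield F)
    (P' : GL (Fin n) F) :
    (H.map (glReindex e).toMonoidHom ≤ subfieldSubgroup F₀ P' →
      H ≤ subfieldSubgroup F₀ ((glReindex e).symm P')) ∧
    (IsQuadFormRationalStructure (tQ e Q) F₀ P' →
      IsQuadFormRationalStructure Q F₀ ((glReindex e).symm P')) := by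
  refine ⟨?_, ?_⟩
  · intro h g hg
    have h1 : (glReindex e) g ∈ subfieldSubgroup F₀ P' := h ⟨g, hg, rfl⟩
    obtain ⟨y, hy, hyg⟩ := h1
    refine ⟨(glReindex e).symm y, symm_mem_S e F₀ y hy, ?_⟩
    have h2 : g = (glReindex e).symm ((glReindex e) g) := by simp
    rw [h2, ← hyg]
    simp [MulAut.conj_apply]
  · intro hQ u hu
    have h1 := hQ (u ∘ e.symm) (fun i => hu _)
    have h2 : ((P' : Matrix (Fin n) (Fin n) F) *ᵥ (u ∘ e.symm)) ∘ e =
        (((glReindex e).symm P' : GL κ F) : Matrix κ κ F) *ᵥ u := by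
      rw [glReindex_symm_val, Matrix.submatrix_mulVec_equiv]
    unfold tQ at h1
    rw [h2] at h1
    exact h1

end Cfsg.Agent.Lib.Helper75.OMPT5
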