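import Cfsg.Agent.Lib.Helper29.TGMFLD
import Cfsg.Agent.Lib.Helper29.TGMMAS
import Cfsg.Agent.Lib.Helper82.TGMFMAIN

/-!
# TG-MOD, piece GLUE: `mod_main` from `mas`, `fld_card` and `f_main`
-/

set_option autoImplicit false

namespace Cfsg.Agent.Lib.Helper75.TG

open Cfsg Cfsg.Agent.Lib.Helper82.TGM
open Cfsg.Agent.Lib.Helper29.TGM (fld_card mas)

/-- the kernel of `φ` is a prime ideal when `W` is simple. -/
private theorem glue_ker_prime {H : Type*} [Group H]
    {W : Type*} [AddCommGroup W] [Nontrivial W]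
    (ρ : H →* (W →ₗ[ℤ] W))
    {O : Type*} [CommRing O]
    (φ : O →+* (W →ₗ[ℤ] W))
    (hφρ : ∀ a h, φ a ∘ₗ ρ h = ρ h ∘ₗ φ a)
    (hirr : ∀ U : Submodule ℤ W, (∀ h, ∀ u ∈ U, ρ h u ∈ U) → (∀ a, ∀ u ∈ U, φ a u ∈ U) →
      U = ⊥ ∨ U = ⊤) :
    (RingHom.ker φ).IsPrime := by
  refine ⟨?_, ?_⟩
  · intro h
    have h1 : (1 : O) ∈ RingHom.ker φ := by rw [h]; trivial
    rw [RingHom.mem_ker, map_one] at h1
    obtain ⟨w, hw⟩ := exists_ne (0 : W)
    apply hw
    have := congrArg (fun f : W →ₗ[ℤ] W => f w) h1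
    simpa using this
  · intro a b hab
    rw [RingHom.mem_ker, map_mul] at hab
    have hst1 : ∀ h, ∀ u ∈ LinearMap.ker (φ a), ρ h u ∈ LinearMap.ker (φ a) := by
      intro h u hu
      rw [LinearMap.mem_ker] at hu ⊢
      have := congrArg (fun f : W →ₗ[ℤ] W => f u) (hφρ a h)
      simp only [LinearMap.comp_apply] at this
      rw [this, hu, map_zero]
    have hst2 : ∀ c, ∀ u ∈ LinearMap.ker (φ a), φ c u ∈ LinearMap.ker (φ a) := by
      intro c u hu
      rw [LinearMap.mem_ker] at hu ⊢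
      have h1 : φ a (φ c u) = (φ a * φ c) u := rfl
      rw [h1, ← map_mul, mul_comm, map_mul]
      change φ c (φ a u) = 0
      rw [hu, map_zero]
    rcases hirr _ hst1 hst2 with h | h
    · right
      rw [RingHom.mem_ker]
      apply LinearMap.ext
      intro w
      have h2 : φ b w ∈ LinearMap.ker (φ a) := by
        rw [LinearMap.mem_ker]
        have := congrArg (fun f : W →ₗ[ℤ] W => f w) hab
        simpa using this
      rw [h] at h2
      simpa using h2
    · left
      rw [RingHom.mem_ker]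
      apply LinearMap.ext
      intro w
      have h2 : w ∈ LinearMap.ker (φ a) := by rw [h]; trivial
      simpa using h2

/-- The simple case, with the field abstract. -/
private theorem glue_field {H : Type*} [Group H] [Fintype H] (p : ℕ) [Fact p.Prime]
    (hpH : ¬ p ∣ Nat.card H)
    {W : Type*} [AddCommGroup W] [Finite W] [Nontrivial W] (hW : ∀ v : W, (p : ℤ) • v = 0)
    (ρ : H →* (W →ₗ[ℤ] W))
    (m : ℕ) (hm0 : 0 < m) (hpm : ¬ p ∣ m)
    (ω : ℂ) (hω : IsPrimitiveRoot ω m)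
    (φ : Subring.closure ({ω} : Set ℂ) →+* (W →ₗ[ℤ] W))
    (hφρ : ∀ a h, φ a ∘ₗ ρ h = ρ h ∘ₗ φ a)
    (hval : ∀ (ξ : IrrCharacter H) (h : H), (ξ : H → ℂ) h ∈ Subring.closure ({ω} : Set ℂ))
    (hirr : ∀ U : Submodule ℤ W, (∀ h, ∀ u ∈ U, ρ h u ∈ U) → (∀ a, ∀ u ∈ U, φ a u ∈ U) →
      U = ⊥ ∨ U = ⊤)
    {F : Type*} [Field F] [Finite F] [Module F W]
    (f : Subring.closure ({ω} : Set ℂ) →+* F) (hf : Function.Surjective f)
    (hsmul : ∀ (a : Subring.closure ({ω} : Set ℂ)) (w : W), f a • w = φ a w) :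
    ∃ ξ : IrrCharacter H,
      Nat.card W = p ^ (orderOf ((p : ZMod m)) * charDegree (ξ : H → ℂ)) ∧
      ∀ v : W, (charDegree (ξ : H → ℂ) : ℤ) •
          (∑ h : H, φ ⟨(ξ : H → ℂ) h⁻¹, hval ξ h⁻¹⟩ (ρ h v)) = (Nat.card H : ℤ) • v := by
  classical
  have hp : p.Prime := Fact.out
  have hpF : ((p : ℕ) : F) = 0 := by
    obtain ⟨w, hw⟩ := exists_ne (0 : W)
    by_contra hne
    have h1 : ((p : ℕ) : F) • w = 0 := by
      rw [Nat.cast_smul_eq_nsmul]
      have := hW w
      rwa [natCast_zsmul] at this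
    exact hw ((smul_eq_zero.1 h1).resolve_left hne)
  have : CharP F p := (CharP.charP_iff_prime_eq_zero hp).2 hpF
  have hH : (Nat.card H : F) ≠ 0 := by
    rw [Ne, CharP.cast_eq_zero_iff F p]; exact hpH
  have hmF : ((m : ℕ) : F) ≠ 0 := by
    rw [Ne, CharP.cast_eq_zero_iff F p]; exact hpm
  have : NeZero ((m : ℕ) : F) := ⟨hmF⟩
  have hroot : (Polynomial.cyclotomic m F).IsRoot
      (f ⟨ω, Subring.subset_closure (Set.mem_singleton ω)⟩) := by
    have h1 : (Polynomial.cyclotomic m (Subring.closure ({ω} : Set ℂ))).eval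
        ⟨ω, Subring.subset_closure (Set.mem_singleton ω)⟩ = 0 := by
      apply Subtype.val_injective
      have h2 := Polynomial.eval₂_at_apply
        (p := Polynomial.cyclotomic m (Subring.closure ({ω} : Set ℂ)))
        (Subring.closure ({ω} : Set ℂ)).subtype
        ⟨ω, Subring.subset_closure (Set.mem_singleton ω)⟩
      have h3 : Polynomial.eval₂ (Subring.closure ({ω} : Set ℂ)).subtype ω
          (Polynomial.cyclotomic m (Subring.closure ({ω} : Set ℂ))) = 0 := by
        rw [← Polynomial.eval_map, Polynomial.map_cyclotomic]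
        exact hω.isRoot_cyclotomic hm0
      change (Subring.closure ({ω} : Set ℂ)).subtype _ = 0
      rw [← h2]
      exact h3
    rw [Polynomial.IsRoot, ← Polynomial.map_cyclotomic m f, Polynomial.eval_map,
      Polynomial.eval₂_at_apply, h1, map_zero]
  have hw : IsPrimitiveRoot (f ⟨ω, Subring.subset_closure (Set.mem_singleton ω)⟩) m :=
    Polynomial.isRoot_cyclotomic_iff.1 hroot
  have hgen : ∀ x : F, x ∈ Subring.closure
      ({f ⟨ω, Subring.subset_closure (Set.mem_singleton ω)⟩} : Set F) := by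
    intro x
    obtain ⟨a, rfl⟩ := hf x
    obtain ⟨a, ha⟩ := a
    induction ha using Subring.closure_induction with
    | mem x hx =>
      have hx' : x = ω := hx
      subst hx'
      exact Subring.subset_closure rfl
    | zero =>
      have : f ⟨0, zero_mem _⟩ = 0 := map_zero f
      rw [this]; exact zero_mem _
    | one =>
      have : f ⟨1, one_mem _⟩ = 1 := map_one f
      rw [this]; exact one_mem _
    | add x y hx hy ihx ihy =>
      have : f ⟨x + y, add_mem hx hy⟩ = f ⟨x, hx⟩ + f ⟨y, hy⟩ := map_add f ⟨x, hx⟩ ⟨y, hy⟩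
      rw [this]; exact add_mem ihx ihy
    | neg x hx ihx =>
      have : f ⟨-x, neg_mem hx⟩ = - f ⟨x, hx⟩ := map_neg f ⟨x, hx⟩
      rw [this]; exact neg_mem ihx
    | mul x y hx hy ihx ihy =>
      have : f ⟨x * y, mul_mem hx hy⟩ = f ⟨x, hx⟩ * f ⟨y, hy⟩ := map_mul f ⟨x, hx⟩ ⟨y, hy⟩
      rw [this]; exact mul_mem ihx ihy
  have hcardF := fld_card p m hm0 hpm _ hw hgen
  let ρF : H →* (W →ₗ[F] W) :=
    { toFun := fun h =>
        { toFun := fun w => ρ h w
          map_add' := fun x y => map_add _ x y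
          map_smul' := by
            intro c w
            obtain ⟨a, rfl⟩ := hf c
            simp only [RingHom.id_apply]
            rw [hsmul, hsmul]
            have := congrArg (fun g : W →ₗ[ℤ] W => g w) (hφρ a h)
            simp only [LinearMap.comp_apply] at this
            exact this.symm }
      map_one' := by ext w; simp
      map_mul' := by intro a b; ext w; simp }
  have hρF : ∀ h w, ρF h w = ρ h w := fun h w => rfl
  have hirrF : ∀ U : Submodule F W, (∀ h, ∀ u ∈ U, ρF h u ∈ U) → U = ⊥ ∨ U = ⊤ := by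
    intro U hU
    rcases hirr (AddSubgroup.toIntSubmodule U.toAddSubgroup) (fun h u hu => hU h u hu)
      (fun a u hu => by
        have : f a • u ∈ U := U.smul_mem _ hu
        rw [hsmul] at this
        exact this) with h | h
    · left
      rw [eq_bot_iff]
      intro x hx
      have : x ∈ AddSubgroup.toIntSubmodule U.toAddSubgroup := hx
      rw [h] at this
      exact this
    · right
      rw [eq_top_iff]
      intro x _
      have : x ∈ AddSubgroup.toIntSubmodule U.toAddSubgroup := by rw [h]; trivial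
      exact this
  obtain ⟨ξ, hfin, hsum⟩ := f_main hH ρF hirrF (Subring.closure ({ω} : Set ℂ)) f hval
  refine ⟨ξ, ?_, ?_⟩
  · have : Module.Finite F W := Module.Finite.of_finite
    rw [Module.natCard_eq_pow_finrank (K := F) (V := W), hcardF, hfin, pow_mul]
  · intro v
    have h1 := congrArg (fun g : W →ₗ[F] W => g v) hsum
    simp only [LinearMap.sum_apply, LinearMap.smul_apply, hρF, Module.End.one_apply] at h1
    have h2 : ∀ h : H, (Nat.card H : F) •
        (Ecoef (Subring.closure ({ω} : Set ℂ)) f ξ (hval ξ) h • ρ h v) =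
        (charDegree (ξ : H → ℂ)) • φ ⟨(ξ : H → ℂ) h⁻¹, hval ξ h⁻¹⟩ (ρ h v) := by
      intro h
      rw [smul_smul, Ecoef, ← mul_assoc, mul_div_cancel₀ _ hH, mul_smul, hsmul,
        Nat.cast_smul_eq_nsmul]
    have h3 := congrArg (fun x : W => (Nat.card H : F) • x) h1
    simp only [Finset.smul_sum, h2] at h3
    rw [Nat.cast_smul_eq_nsmul] at h3
    rw [natCast_zsmul, natCast_zsmul, Finset.smul_sum]
    exact h3

/-- The simple case. -/
theorem simple_main {H : Type*} [Group H] [Fintype H] (p : ℕ) [Fact p.Prime]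
    (hpH : ¬ p ∣ Nat.card H)
    {W : Type*} [AddCommGroup W] [Finite W] [Nontrivial W] (hW : ∀ v : W, (p : ℤ) • v = 0)
    (ρ : H →* (W →ₗ[ℤ] W))
    (m : ℕ) (hm0 : 0 < m) (hpm : ¬ p ∣ m)
    (ω : ℂ) (hω : IsPrimitiveRoot ω m)
    (φ : Subring.closure ({ω} : Set ℂ) →+* (W →ₗ[ℤ] W))
    (hφρ : ∀ a h, φ a ∘ₗ ρ h = ρ h ∘ₗ φ a)
    (hval : ∀ (ξ : IrrCharacter H) (h : H), (ξ : H → ℂ) h ∈ Subring.closure ({ω} : Set ℂ))
    (hirr : ∀ U : Submodule ℤ W, (∀ h, ∀ u ∈ U, ρ h u ∈ U) → (∀ a, ∀ u ∈ U, φ a u ∈ U) →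
      U = ⊥ ∨ U = ⊤) :
    ∃ ξ : IrrCharacter H,
      Nat.card W = p ^ (orderOf ((p : ZMod m)) * charDegree (ξ : H → ℂ)) ∧
      ∀ v : W, (charDegree (ξ : H → ℂ) : ℤ) •
          (∑ h : H, φ ⟨(ξ : H → ℂ) h⁻¹, hval ξ h⁻¹⟩ (ρ h v)) = (Nat.card H : ℤ) • v := by
  classical
  have hprime : (RingHom.ker φ).IsPrime := glue_ker_prime ρ φ hφρ hirr
  have hfinEnd : Finite (W →ₗ[ℤ] W) :=
    Finite.of_injective (fun f : W →ₗ[ℤ] W => (f : W → W)) DFunLike.coe_injective
  have hfinQ : Finite (Subring.closure ({ω} : Set ℂ) ⧸ RingHom.ker φ) :=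
    Finite.of_injective _ (RingHom.kerLift_injective φ)
  have hmax : (RingHom.ker φ).IsMaximal :=
    Ideal.Quotient.maximal_of_isField _ (Finite.isField_of_domain _)
  let _ : Field (Subring.closure ({ω} : Set ℂ) ⧸ RingHom.ker φ) := Ideal.Quotient.field _
  let _ : Module (Subring.closure ({ω} : Set ℂ) ⧸ RingHom.ker φ) W :=
    Module.compHom W (RingHom.kerLift φ)
  exact glue_field p hpH hW ρ m hm0 hpm ω hω φ hφρ hval hirr
    (Ideal.Quotient.mk (RingHom.ker φ)) Ideal.Quotient.mk_surjective (fun a w => rfl)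

/-- PIECE MOD of the TG project (statement of `tools/helper22/TGSkel.lean.txt`). -/
theorem mod_main {H : Type*} [Group H] [Fintype H] (p : ℕ) [Fact p.Prime]
    (hpH : ¬ p ∣ Nat.card H)
    {V : Type*} [AddCommGroup V] [Finite V] [Nontrivial V] (hV : ∀ v : V, (p : ℤ) • v = 0)
    (ρ : H →* (V →ₗ[ℤ] V))
    (m : ℕ) (hm0 : 0 < m) (hpm : ¬ p ∣ m) (hexp : ∀ h : H, h ^ m = 1)
    (ω : ℂ) (hω : IsPrimitiveRoot ω m)
    (φ : Subring.closure ({ω} : Set ℂ) →+* (V →ₗ[ℤ] V))
    (hφρ : ∀ a h, φ a ∘ₗ ρ h = ρ h ∘ₗ φ a)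
    (hval : ∀ (ξ : IrrCharacter H) (h : H), (ξ : H → ℂ) h ∈ Subring.closure ({ω} : Set ℂ)) :
    ∃ (ξ : IrrCharacter H) (π : V →ₗ[ℤ] V), π ∘ₗ π = π ∧ π ≠ 0 ∧
      (∀ h, π ∘ₗ ρ h = ρ h ∘ₗ π) ∧ (∀ a, π ∘ₗ φ a = φ a ∘ₗ π) ∧
      Nat.card (LinearMap.range π) =
        p ^ (orderOf ((p : ZMod m)) * charDegree (ξ : H → ℂ)) ∧
      ∀ v ∈ LinearMap.range π,
        (charDegree (ξ : H → ℂ) : ℤ) •
          (∑ h : H, φ ⟨(ξ : H → ℂ) h⁻¹, hval ξ h⁻¹⟩ (ρ h v)) = (Nat.card H : ℤ) • v := by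
  classical
  have _ := hexp
  obtain ⟨π, hππ, hπ0, hπρ, hπφ, hmin⟩ := mas p hpH hV ρ m hm0 hpm ω hω φ hφρ
  have hρW : ∀ h, ∀ x ∈ LinearMap.range π, ρ h x ∈ LinearMap.range π := by
    rintro h x ⟨y, rfl⟩
    refine ⟨ρ h y, ?_⟩
    have := congrArg (fun g : V →ₗ[ℤ] V => g y) (hπρ h)
    simpa using this
  have hφW : ∀ a, ∀ x ∈ LinearMap.range π, φ a x ∈ LinearMap.range π := by
    rintro a x ⟨y, rfl⟩
    refine ⟨φ a y, ?_⟩
    have := congrArg (fun g : V →ₗ[ℤ] V => g y) (hπφ a)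
    simpa using this
  let ρW : H →* (LinearMap.range π →ₗ[ℤ] LinearMap.range π) :=
    { toFun := fun h => (ρ h).restrict (hρW h)
      map_one' := by
        apply LinearMap.ext; intro w; apply Subtype.ext
        simp
      map_mul' := by
        intro a b
        apply LinearMap.ext; intro w; apply Subtype.ext
        simp }
  let φW : Subring.closure ({ω} : Set ℂ) →+* (LinearMap.range π →ₗ[ℤ] LinearMap.range π) :=
    { toFun := fun a => (φ a).restrict (hφW a)
      map_one' := by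
        apply LinearMap.ext; intro w; apply Subtype.ext
        simp
      map_mul' := by
        intro a b
        apply LinearMap.ext; intro w; apply Subtype.ext
        simp
      map_zero' := by
        apply LinearMap.ext; intro w; apply Subtype.ext
        simp
      map_add' := by
        intro a b
        apply LinearMap.ext; intro w; apply Subtype.ext
        simp }
  have hρWv : ∀ h (w : LinearMap.range π), ((ρW h w : LinearMap.range π) : V) = ρ h w :=
    fun h w => rfl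
  have hφWv : ∀ a (w : LinearMap.range π), ((φW a w : LinearMap.range π) : V) = φ a w :=
    fun a w => rfl
  have hnt : Nontrivial (LinearMap.range π) := by
    have : ∃ v, π v ≠ 0 := by
      by_contra hcon
      push Not at hcon
      exact hπ0 (LinearMap.ext hcon)
    obtain ⟨v, hv⟩ := this
    exact ⟨⟨⟨π v, v, rfl⟩, 0, fun h => hv (congrArg Subtype.val h)⟩⟩
  have hWp : ∀ w : LinearMap.range π, (p : ℤ) • w = 0 := fun w => Subtype.ext (hV w)
  have hφρW : ∀ a h, φW a ∘ₗ ρW h = ρW h ∘ₗ φW a := by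
    intro a h
    apply LinearMap.ext; intro w; apply Subtype.ext
    have := congrArg (fun g : V →ₗ[ℤ] V => g (w : V)) (hφρ a h)
    simp only [LinearMap.comp_apply] at this
    change φ a (ρ h (w : V)) = ρ h (φ a (w : V))
    exact this
  have hirrW : ∀ U : Submodule ℤ (LinearMap.range π), (∀ h, ∀ u ∈ U, ρW h u ∈ U) →
      (∀ a, ∀ u ∈ U, φW a u ∈ U) → U = ⊥ ∨ U = ⊤ := by
    intro U hU1 hU2
    have hle : U.map (LinearMap.range π).subtype ≤ LinearMap.range π := by
      rintro x ⟨u, _, rfl⟩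
      exact u.2
    rcases hmin (U.map (LinearMap.range π).subtype) hle
      (by
        rintro h x ⟨u, hu, rfl⟩
        exact ⟨ρW h u, hU1 h u hu, rfl⟩)
      (by
        rintro a x ⟨u, hu, rfl⟩
        exact ⟨φW a u, hU2 a u hu, rfl⟩) with h | h
    · left
      rw [eq_bot_iff]
      intro u hu
      have h1 : (u : V) ∈ U.map (LinearMap.range π).subtype := ⟨u, hu, rfl⟩
      rw [h] at h1
      exact Subtype.ext h1
    · right
      rw [eq_top_iff]
      intro u _
      have h1 : (u : V) ∈ U.map (LinearMap.range π).subtype := by rw [h]; exact u.2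
      obtain ⟨u', hu', he⟩ := h1
      have : u' = u := Subtype.ext he
      rw [← this]; exact hu'
  obtain ⟨ξ, hcard, hsum⟩ := simple_main p hpH hWp ρW m hm0 hpm ω hω φW hφρW hval hirrW
  refine ⟨ξ, π, hππ, hπ0, hπρ, hπφ, hcard, ?_⟩
  intro v hv
  have h1 := congrArg Subtype.val (hsum ⟨v, hv⟩)
  simpa [hρWv, hφWv] using h1

end Cfsg.Agent.Lib.Helper75.TG
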