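import Mathlib
import Cfsg.Agent.S3794
import Cfsg.Agent.Lib.Helper26.Gross2DefsA
import Cfsg.Agent.Lib.Helper26.FpfBasic
import Cfsg.Agent.Lib.Helper30.Basic
import Cfsg.Agent.Lib.Helper31.GrossChain

/-!
# S3795 (Gross, `p = 2`), piece CHAIN2

`T2Stmt` and `S3794.result` give the chain of length `2 n - 2`.
-/

set_option autoImplicit false

universe u

namespace Cfsg.Agent.Lib.Helper75.Gross2CHAIN2

open Cfsg.Agent.Lib.Helper26 Cfsg.Agent.Lib.Helper26.Gross2

/-- a normal series of length `m` from `B` to `⊤` with nilpotent factors -/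
def NChainFrom (G : Type u) [Group G] (B : Subgroup G) (m : ℕ) : Prop :=
  ∃ F : Fin (m + 1) → Subgroup G, F 0 = B ∧ F (Fin.last m) = ⊤ ∧ Monotone F ∧
    (∀ i, (F i).Normal) ∧
    ∀ i : Fin m, ∃ k : ℕ, (F i.succ).lowerCentralSeries k ≤ F i.castSucc

/-- a normal series of length `m` with nilpotent factors -/
def NChain (G : Type u) [Group G] (m : ℕ) : Prop := NChainFrom G ⊥ m

/-- one more step below a chain -/
theorem nchainFrom_cons {G : Type u} [Group G] (B C : Subgroup G) (hC : C.Normal)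
    (hCB : C ≤ B) (hstep : ∃ k : ℕ, B.lowerCentralSeries k ≤ C) (m : ℕ)
    (h : NChainFrom G B m) : NChainFrom G C (m + 1) := by
  obtain ⟨F', hF0, hFl, hFm, hFnorm, hFstep⟩ := h
  refine ⟨Fin.cons C F', ?_, ?_, ?_, ?_, ?_⟩
  · rfl
  · rw [← Fin.succ_last, Fin.cons_succ, hFl]
  · intro i j hij
    induction i using Fin.cases with
    | zero =>
      rw [Fin.cons_zero]
      induction j using Fin.cases with
      | zero => rw [Fin.cons_zero]
      | succ j =>
        rw [Fin.cons_succ]
        exact hCB.trans (hF0 ▸ hFm (Fin.zero_le j))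
    | succ i =>
      induction j using Fin.cases with
      | zero => exact absurd hij (by simp)
      | succ j =>
        rw [Fin.cons_succ, Fin.cons_succ]
        exact hFm (Fin.succ_le_succ_iff.mp hij)
  · intro i
    induction i using Fin.cases with
    | zero => rw [Fin.cons_zero]; exact hC
    | succ i => rw [Fin.cons_succ]; exact hFnorm i
  · intro i
    induction i using Fin.cases with
    | zero =>
      obtain ⟨k, hk⟩ := hstep
      refine ⟨k, ?_⟩
      rw [Fin.castSucc_zero, Fin.cons_zero, Fin.cons_succ, hF0]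
      exact hk
    | succ j =>
      obtain ⟨k, hk⟩ := hFstep j
      refine ⟨k, ?_⟩
      rw [← Fin.succ_castSucc, Fin.cons_succ, Fin.cons_succ]
      exact hk

/-- pulling back a chain from a quotient -/
theorem nchainFrom_comap {G : Type u} [Group G] (A : Subgroup G) [hA : A.Normal] (m : ℕ)
    (h : NChain (G ⧸ A) m) : NChainFrom G A m := by
  obtain ⟨F', hF0, hFl, hFm, hFnorm, hFstep⟩ := h
  refine ⟨fun i => (F' i).comap (QuotientGroup.mk' A), ?_, ?_, ?_, ?_, ?_⟩
  · simp only
    rw [hF0, MonoidHom.comap_bot, QuotientGroup.ker_mk']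
  · simp only
    rw [hFl, Subgroup.comap_top]
  · intro i j hij
    exact Subgroup.comap_mono (hFm hij)
  · intro i
    have := hFnorm i
    infer_instance
  · intro l
    obtain ⟨k, hk⟩ := hFstep l
    refine ⟨k, ?_⟩
    simp only
    rw [← Subgroup.map_le_iff_le_comap, Subgroup.map_lowerCentralSeries,
      Subgroup.map_comap_eq_self_of_surjective (QuotientGroup.mk'_surjective A)]
    exact hk

/-- two more steps below a chain in a quotient -/
theorem nchain_add_two {G : Type u} [Group G] (A B : Subgroup G) [hA : A.Normal]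
    (hB : B.Normal) (hBA : B ≤ A) (hBnil : ∃ k : ℕ, B.lowerCentralSeries k ≤ ⊥)
    (hAB : ∃ k : ℕ, A.lowerCentralSeries k ≤ B) (m : ℕ) (h : NChain (G ⧸ A) m) :
    NChain G (m + 2) :=
  nchainFrom_cons B ⊥ inferInstance bot_le hBnil (m + 1)
    (nchainFrom_cons A B hB hBA hAB m (nchainFrom_comap A m h))

/-- the chain of length `0` in a trivial group -/
theorem nchain_zero {G : Type u} [Group G] [Subsingleton G] : NChain G 0 := by
  refine ⟨fun _ => ⊥, rfl, ?_, fun _ _ _ => le_rfl, fun _ => inferInstance, fun i => i.elim0⟩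
  exact (Subgroup.eq_bot_of_subsingleton ⊤).symm

theorem gross2_nchain (hT : T2Stmt.{u}) (n : ℕ) (hn : 2 ≤ n) :
    ∀ (G : Type u) [Group G] [Finite G], Group.IsSolvable G → ∀ σ : MulAut G,
      σ ^ 2 ^ n = 1 → (∀ g : G, σ g = g → g = 1) → NChain G (2 * n - 2) := by
  induction n, hn using Nat.le_induction with
  | base =>
    intro G _ _ hG σ hσ hfpf
    have hnil : Group.IsNilpotent (commutator G) :=
      Cfsg.Agent.S3794.result hG σ (by simpa using hσ) hfpf
    obtain ⟨k0, hk0⟩ := (Subgroup.isNilpotent_iff_lowerCentralSeries _).mp hnil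
    have : Subsingleton (G ⧸ (⊤ : Subgroup G)) := QuotientGroup.subsingleton_quotient_top
    have h := nchain_add_two (⊤ : Subgroup G) (commutator G) inferInstance le_top
      ⟨k0, hk0.le⟩ ⟨1, (Subgroup.top_lowerCentralSeries_one (G := G)).le⟩ 0 nchain_zero
    exact h
  | succ n hn ih =>
    intro G _ _ hG σ hσ hfpf
    obtain ⟨A, hAn, hAσ, hFA, hk, hcomm⟩ := hT G hG σ n hσ hfpf
    have := hAn
    have := hG
    have hmap : A.map (σ : G →* G) = A := map_eq_of_forall_mem σ A hAσ
    have hfpf' : ∀ x : G ⧸ A, (quotAut σ A hmap : MulAut (G ⧸ A)) x = x → x = 1 :=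
      quotAut_fpf σ A hmap hfpf
    have hpow : (quotAut σ A hmap : MulAut (G ⧸ A)) ^ 2 ^ n = 1 := by
      apply MulEquiv.ext
      intro x
      induction x using QuotientGroup.induction_on with
      | H g =>
        rw [Cfsg.Agent.Lib.Helper31.gross_quotAut_pow_mk, MulAut.one_apply]
        symm
        rw [QuotientGroup.eq]
        exact hcomm g
    have hsolv : Group.IsSolvable (G ⧸ A) := inferInstance
    have hch := ih (G ⧸ A) hsolv (quotAut σ A hmap) hpow hfpf'
    have hnil : Group.IsNilpotent (Cfsg.fittingSubgroup G) :=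
      Cfsg.Agent.Lib.Helper30.fitting_nilpotent
    obtain ⟨k0, hk0⟩ := (Subgroup.isNilpotent_iff_lowerCentralSeries _).mp hnil
    have h := nchain_add_two A (Cfsg.fittingSubgroup G) Cfsg.Agent.Lib.Helper30.fitting_normal
      hFA ⟨k0, hk0.le⟩ hk (2 * n - 2) hch
    have e : 2 * (n + 1) - 2 = 2 * n - 2 + 2 := by omega
    rw [e]
    exact h

/-- piece CHAIN2 -/
theorem gross2_chain (hT : T2Stmt.{u}) {G : Type u} [Group G] [Finite G]
    (hG : Group.IsSolvable G) (σ : MulAut G) (n : ℕ) (hn : 1 < n) (hσ : σ ^ 2 ^ n = 1)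
    (hfpf : ∀ g : G, σ g = g → g = 1) :
    ∃ F : Fin ((2 * n - 2) + 1) → Subgroup G, F 0 = ⊥ ∧ F (Fin.last (2 * n - 2)) = ⊤ ∧
      Monotone F ∧ (∀ i, (F i).Normal) ∧
      ∀ i : Fin (2 * n - 2), ∃ k : ℕ, (F i.succ).lowerCentralSeries k ≤ F i.castSucc :=
  gross2_nchain hT n hn G hG σ hσ hfpf

end Cfsg.Agent.Lib.Helper75.Gross2CHAIN2
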