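import Mathlib
import Cfsg.Agent.Lib.Helper26.Gross2DefsB
import Cfsg.Agent.Lib.Helper26.GrossLin
import Cfsg.Agent.Lib.Helper26.GrossIrr1
import Cfsg.Agent.Lib.Helper26.GrossIrr2

/-!
# S3795 (Gross, `p = 2`), piece ABW

If `P` acts commutatively on a `P`-invariant subspace `U`, then `y` and `ψ y ψ⁻¹` agree on `U`.
-/

set_option autoImplicit false

universe u

namespace Cfsg.Agent.Lib.Helper75.Gross2ABW

open Cfsg.Agent.Lib.Helper26 Cfsg.Agent.Lib.Helper26.Gross2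

/-- inverse conjugation by powers of an element of finite order preserves a normalised
subgroup -/
theorem abw_inv_conj_mem {Γ : Type*} [Group Γ] (P : Subgroup Γ) (φ : Γ) (N : ℕ) (hN : 0 < N)
    (hφ : φ ^ N = 1) (hnorm : ∀ x ∈ P, φ * x * φ⁻¹ ∈ P) (j : ℕ) :
    ∀ x ∈ P, (φ ^ j)⁻¹ * x * φ ^ j ∈ P := by
  intro x hx
  have e : (φ ^ j)⁻¹ = φ ^ (j * (N - 1)) := by
    apply inv_eq_of_mul_eq_one_right
    rw [← pow_add]
    have e3 : j + j * (N - 1) = N * j := by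
      obtain ⟨c, hc⟩ : ∃ c, N = c + 1 := ⟨N - 1, by omega⟩
      rw [hc, Nat.add_sub_cancel]
      ring
    rw [e3, pow_mul, hφ, one_pow]
  have h1 := gross_pow_conj_mem P hnorm (j * (N - 1)) x hx
  rw [← e, inv_inv] at h1
  exact h1

/-- piece ABW -/
theorem gross2_abw : AbwStmt.{u} := by
  intro k _ _ M₀ n hD V _ _ _ P φ hcard hφ hnorm hCV U hPU hcomm y hy u₀ hu₀
  classical
  by_contra hne
  haveI : Finite (Module.End k V)ˣ := gross_finite_units
  haveI : Fintype ↥P := Fintype.ofFinite _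
  have hy'P : φ ^ 2 ^ n * y * (φ ^ 2 ^ n)⁻¹ ∈ P := gross_pow_conj_mem P hnorm (2 ^ n) y hy
  obtain ⟨y', hy'def⟩ : ∃ y' : (Module.End k V)ˣ, y' = φ ^ 2 ^ n * y * (φ ^ 2 ^ n)⁻¹ :=
    ⟨_, rfl⟩
  rw [← hy'def] at hy'P hne
  obtain ⟨D, hDdef⟩ : ∃ D : Module.End k V, D = y'.1 - y.1 := ⟨_, rfl⟩
  have hD_apply : ∀ v, D v = y'.1 v - y.1 v := by
    intro v
    rw [hDdef]
    rfl
  have hDcomm : ∀ x ∈ P, ∀ u ∈ U, x.1 (D u) = D (x.1 u) := by
    intro x hx u hu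
    rw [hD_apply, hD_apply, map_sub, hcomm x hx y' hy'P u hu, hcomm x hx y hy u hu]
  have hDU : ∀ u ∈ U, D u ∈ U := by
    intro u hu
    rw [hD_apply]
    exact U.sub_mem (hPU y' hy'P u hu) (hPU y hy u hu)
  have hU₁0 : Submodule.map D U ≠ ⊥ := by
    intro h0
    have h1 : D u₀ ∈ Submodule.map D U := Submodule.mem_map_of_mem hu₀
    rw [h0, Submodule.mem_bot, hD_apply, sub_eq_zero] at h1
    exact hne h1
  have hU₁P : ∀ x ∈ P, ∀ v ∈ Submodule.map D U, x.1 v ∈ Submodule.map D U := by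
    intro x hx v hv
    obtain ⟨u, hu, rfl⟩ := Submodule.mem_map.1 hv
    rw [hDcomm x hx u hu]
    exact Submodule.mem_map_of_mem (hPU x hx u hu)
  have hU₁U : ∀ v ∈ Submodule.map D U, v ∈ U := by
    intro v hv
    obtain ⟨u, hu, rfl⟩ := Submodule.mem_map.1 hv
    exact hDU u hu
  have hcardpos : 0 < Nat.card P := Nat.pos_of_dvd_of_pos hcard hD.hM0
  have hroot : ∀ b ∈ P, ∃ m : ℕ, 0 < m ∧ b ^ m = 1 ∧ ∃ ζ : k, IsPrimitiveRoot ζ m := by
    intro b hb
    refine ⟨Nat.card P, hcardpos, ?_, ?_⟩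
    · have h1 : (⟨b, hb⟩ : ↥P) ^ Nat.card P = 1 := pow_card_eq_one'
      exact congrArg (fun z : ↥P => (z : (Module.End k V)ˣ)) h1
    · obtain ⟨ζ, hζ⟩ := hD.hroot
      obtain ⟨c, hc⟩ := hcard
      exact ⟨ζ ^ c, hζ.pow hD.hM0 (by rw [hc, mul_comm])⟩
  obtain ⟨w, hwU₁, hw0, hw'⟩ := gross_common_eig (Units.coeHom (Module.End k V)) P hroot _
    (Submodule.map D U) rfl hU₁0
    (fun b hb v hv => hU₁P b hb v hv)
    (fun b hb b' hb' v hv => hcomm b hb b' hb' v (hU₁U v hv))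
  have hwP : ∀ x ∈ P, ∃ c : k, x.1 w = c • w := hw'
  obtain ⟨θ, hθdef⟩ : ∃ θ : (Module.End k V)ˣ → k, θ = grossChar w := ⟨_, rfl⟩
  have hθspec : ∀ x ∈ P, x.1 w = θ x • w := by
    intro x hx
    rw [hθdef]
    exact grossChar_spec (hwP x hx)
  have hθmul : ∀ x ∈ P, ∀ x' ∈ P, θ (x * x') = θ x * θ x' := by
    intro x hx x' hx'
    rw [hθdef]
    exact grossChar_mul hw0 (hwP x hx) (hwP x' hx')
  have hθne0 : ∀ x ∈ P, θ x ≠ 0 := by
    intro x hx
    rw [hθdef]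
    exact grossChar_ne_zero hw0 (hwP x hx)
  obtain ⟨act, hact⟩ : ∃ act : ↥P →* Module.End k V,
      ∀ (z : ↥P) (v : V), act z v = (z : (Module.End k V)ˣ).1 v :=
    ⟨(Units.coeHom (Module.End k V)).comp P.subtype, fun _ _ => rfl⟩
  have hmul' : ∀ z z' : ↥P, θ ((z * z' : ↥P) : (Module.End k V)ˣ) =
      θ (z : (Module.End k V)ˣ) * θ (z' : (Module.End k V)ˣ) :=
    fun z z' => hθmul _ z.2 _ z'.2
  have hne' : ∀ z : ↥P, θ (z : (Module.End k V)ˣ) ≠ 0 := fun z => hθne0 _ z.2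
  have hcardP : (Fintype.card ↥P : k) ≠ 0 := by
    rw [← Nat.card_eq_fintype_card]
    exact gross_cast_ne_zero (Nat.Coprime.coprime_dvd_left hcard hD.hcop)
  obtain ⟨e, hedef⟩ : ∃ e : Module.End k V,
      e = grossProj act (fun z : ↥P => θ (z : (Module.End k V)ˣ)) := ⟨_, rfl⟩
  have hE1 : e w = w := by
    rw [hedef]
    apply grossProj_of_mem act _ hne' hcardP
    intro z
    show act z w = θ (z : (Module.End k V)ˣ) • w
    rw [hact]
    exact hθspec _ z.2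
  obtain ⟨u₁, hu₁, hu₁w⟩ := Submodule.mem_map.1 hwU₁
  have heD : e (D u₁) = D (e u₁) := by
    rw [hedef, grossProj_apply, grossProj_apply, map_smul, map_sum]
    congr 1
    refine Finset.sum_congr rfl (fun z _ => ?_)
    rw [map_smul, hact, hact]
    congr 1
    exact hDcomm z.1 z.2 u₁ hu₁
  have heu : ∀ x ∈ P, x.1 (e u₁) = θ x • e u₁ := by
    intro x hx
    have h1 := grossProj_mem act (fun z : ↥P => θ (z : (Module.End k V)ˣ)) hmul' hne' u₁
    have h2 := h1 ⟨x, hx⟩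
    rw [← hedef] at h2
    rw [← hact ⟨x, hx⟩]
    exact h2
  have hwform : w = θ y' • e u₁ - θ y • e u₁ := by
    calc w = e w := hE1.symm
      _ = e (D u₁) := by rw [hu₁w]
      _ = D (e u₁) := heD
      _ = y'.1 (e u₁) - y.1 (e u₁) := hD_apply _
      _ = θ y' • e u₁ - θ y • e u₁ := by rw [heu y' hy'P, heu y hy]
  have hθne : θ y' ≠ θ y := by
    intro heq
    apply hw0
    rw [hwform, heq, sub_self]
  have hinvP := abw_inv_conj_mem P φ (2 ^ (n + 1)) (by positivity) hφ hnorm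
  have h4 : ∀ i, 0 < i → i < 2 ^ (n + 1) →
      ∃ x ∈ P, θ ((φ ^ i)⁻¹ * x * φ ^ i) ≠ θ x := by
    intro i hi hiN
    by_contra hcon
    push Not at hcon
    have hmul : ∀ m : ℕ, ∀ x ∈ P, θ ((φ ^ (m * i))⁻¹ * x * φ ^ (m * i)) = θ x := by
      intro m
      induction m with
      | zero =>
        intro x hx
        simp
      | succ m ih =>
        intro x hx
        have e1 : (φ ^ ((m + 1) * i))⁻¹ * x * φ ^ ((m + 1) * i) =
            (φ ^ i)⁻¹ * ((φ ^ (m * i))⁻¹ * x * φ ^ (m * i)) * φ ^ i := by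
          rw [Nat.succ_mul, pow_add]
          simp only [mul_inv_rev, mul_assoc]
        rw [e1, hcon _ (hinvP (m * i) x hx), ih x hx]
    obtain ⟨e', o, ho, hio⟩ := Nat.exists_eq_two_pow_mul_odd hi.ne'
    have he'n : e' ≤ n := by
      by_contra hlt
      push Not at hlt
      have h1 : 2 ^ (n + 1) ≤ 2 ^ e' := Nat.pow_le_pow_right (by norm_num) hlt
      have h2 : 2 ^ e' ≤ i := by
        rw [hio]
        exact Nat.le_mul_of_pos_right _ ho.pos
      omega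
    obtain ⟨t, ht⟩ := ho
    have hpow : φ ^ (2 ^ (n - e') * i) = φ ^ 2 ^ n := by
      have e2 : 2 ^ (n - e') * i = 2 ^ n + 2 ^ (n + 1) * t := by
        rw [hio, ht, ← mul_assoc, ← pow_add, Nat.sub_add_cancel he'n]
        ring
      rw [e2, pow_add, pow_mul, hφ, one_pow, mul_one]
    have h5 := hmul (2 ^ (n - e')) y' hy'P
    rw [hpow] at h5
    have e3 : (φ ^ 2 ^ n)⁻¹ * y' * φ ^ 2 ^ n = y := by
      rw [hy'def]
      simp [mul_assoc]
    rw [e3] at h5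
    exact hθne h5.symm
  have hE2 : ∀ i, 0 < i → i < 2 ^ (n + 1) → e ((φ ^ i).1 w) = 0 := by
    intro i hi hiN
    obtain ⟨x, hx, hxne⟩ := h4 i hi hiN
    rw [hedef]
    apply grossProj_of_ne act _ hmul' hne' ⟨x, hx⟩ (θ ((φ ^ i)⁻¹ * x * φ ^ i)) hxne
    rw [hact]
    show x.1 ((φ ^ i).1 w) = θ ((φ ^ i)⁻¹ * x * φ ^ i) • (φ ^ i).1 w
    rw [gross_act_conj (φ ^ i) x w, hθspec _ (hinvP i x hx), map_smul]
  have hu : φ.1 (∑ i ∈ Finset.range (2 ^ (n + 1)), (φ ^ i).1 w) =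
      ∑ i ∈ Finset.range (2 ^ (n + 1)), (φ ^ i).1 w := by
    rw [map_sum]
    have e1 : ∀ i ∈ Finset.range (2 ^ (n + 1)), φ.1 ((φ ^ i).1 w) = (φ ^ (i + 1)).1 w := by
      intro i _
      rw [← gross_act_mul, ← pow_succ']
    rw [Finset.sum_congr rfl e1]
    have e2 := Finset.sum_range_succ' (fun i => (φ ^ i).1 w) (2 ^ (n + 1))
    have e3 := Finset.sum_range_succ (fun i => (φ ^ i).1 w) (2 ^ (n + 1))
    rw [e3] at e2
    have e4 : (φ ^ 2 ^ (n + 1)).1 w = (φ ^ 0).1 w := by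
      rw [hφ, pow_zero]
    rw [e4] at e2
    exact (add_right_cancel e2).symm
  have hs0 := hCV _ hu
  have hPs : e (∑ i ∈ Finset.range (2 ^ (n + 1)), (φ ^ i).1 w) = w := by
    rw [map_sum, Finset.sum_eq_single 0]
    · rw [pow_zero]
      exact hE1
    · intro i hi hi0
      exact hE2 i (Nat.pos_of_ne_zero hi0) (Finset.mem_range.mp hi)
    · intro h0
      exact absurd (Finset.mem_range.mpr (by positivity)) h0
  rw [hs0, map_zero] at hPs
  exact hw0 hPs.symm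

end Cfsg.Agent.Lib.Helper75.Gross2ABW
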