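import Cfsg.Agent.Lib.Helper27.ChevDyn
import Cfsg.Agent.S1031
import Cfsg.Agent.S1032
import Cfsg.Agent.Lib.Helper25.ChevLin
import Cfsg.Agent.Lib.Helper25.ChevBnB
import Cfsg.Agent.Lib.Helper25.ChevNH
import Cfsg.Agent.Lib.Helper24.ChevBorel
import Cfsg.Agent.Lib.Helper24.ChevGL

/-!
# Weyl-word facts for the simple root elements of a Chevalley group (piece `G`)

For two distinct nodes `i`, `j` of the Dynkin diagram the element `n_i(c) n_j(d)` conjugates the
root group `X_{p_i}` onto `X_{p_j}` exactly when the nodes are joined by a single bond, and its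
square conjugates `X_{p_i}` onto `X_{-p_i}` exactly when they are joined by a double bond (among
double and triple bonds).
-/

set_option autoImplicit false

namespace Cfsg.Agent.Lib.Helper75.ChevDynP

open Cfsg.Lie Cfsg.Agent.Lib.Helper27.PslnOut Cfsg.Agent.Lib.Helper27.DynOut
  Cfsg.Agent.Lib.Helper27.ChevDyn

/-- the facts on Weyl words in two fundamental reflections, for one datum -/
def weylChk (D : ChevalleyDatum) : Prop :=
  (∀ i j : Fin D.rank, i ≠ j → bondD D i j = 1 →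
    D.reflectRoot i.val (D.reflectRoot j.val (D.simple i.val)) = D.simple j.val) ∧
  (∀ i j : Fin D.rank, i ≠ j → 2 ≤ bondD D i j →
    D.IsPosRoot (D.reflectRoot i.val (D.reflectRoot j.val (D.simple i.val))) ∧
    D.reflectRoot i.val (D.reflectRoot j.val (D.simple i.val)) ≠ D.simple j.val) ∧
  (∀ i j : Fin D.rank, i ≠ j → bondD D i j = 2 →
    D.reflectRoot i.val (D.reflectRoot j.val (D.reflectRoot i.val (D.reflectRoot j.val
      (D.simple i.val)))) = D.neg (D.simple i.val)) ∧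
  (∀ i j : Fin D.rank, i ≠ j → bondD D i j = 3 →
    D.IsPosRoot (D.reflectRoot i.val (D.reflectRoot j.val (D.reflectRoot i.val
      (D.reflectRoot j.val (D.simple i.val))))))

instance (D : ChevalleyDatum) : Decidable (weylChk D) := by
  unfold weylChk
  infer_instance

theorem weyl_G2 : weylChk chevG2 := by decide +kernel
theorem weyl_B2 : weylChk chevB2 := by decide +kernel
theorem weyl_D4 : weylChk chevD4 := by decide +kernel
theorem weyl_F4 : weylChk chevF4 := by decide +kernel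
theorem weyl_E6 : weylChk chevE6 := by decide +kernel
theorem weyl_E7 : weylChk chevE7 := by decide +kernel
theorem weyl_E8 : weylChk chevE8 := by decide +kernel

theorem weyl_all (D : ChevalleyDatum) (hD : D ∈ lst) : weylChk D := by
  simp only [lst, List.mem_cons, List.not_mem_nil, or_false] at hD
  rcases hD with rfl | rfl | rfl | rfl | rfl | rfl | rfl
  · exact weyl_G2
  · exact weyl_B2
  · exact weyl_D4
  · exact weyl_F4
  · exact weyl_E6
  · exact weyl_E7
  · exact weyl_E8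

variable {F : Type*} [Field F] (D : ChevalleyDatum)

open Cfsg.Agent.Lib.Helper24 Cfsg.Agent.Lib.Helper25

/-- the matrix of a root element of the group -/
theorem xg_mat (hD : D ∈ lst) (r : ℕ) (a : F) :
    ((xg D r a : GL D.Idx F) : Matrix D.Idx D.Idx F) = D.x F r a := by
  have h : ∃ g : ↥(D.group F), ((g : GL D.Idx F) : Matrix D.Idx D.Idx F) = D.x F r a :=
    ⟨⟨xGL D hD r a, xGL_mem_group D hD r a⟩, rfl⟩
  unfold xg
  rw [dif_pos h]
  exact h.choose_spec

/-- the matrix of `n_i(c)` -/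
theorem nn_mat (hD : D ∈ lst) (i : Fin D.rank) (c : F) :
    (((nn (xs D) (ys D) i c : ↥(D.group F)) : GL D.Idx F) : Matrix D.Idx D.Idx F) =
      D.nMat F (D.simple i.val) c := by
  unfold nn xs ys
  rw [Subgroup.coe_mul, Subgroup.coe_mul, Units.val_mul, Units.val_mul, xg_mat D hD,
    xg_mat D hD, nMat_eq, Matrix.mul_assoc]

/-- `n_p(c) x_s(t) = x_{w_p s}(κ t) n_p(c)` with `κ ≠ 0` independent of `t` -/
theorem nMat_conj (hD : D ∈ lst) (i : ℕ) (hi : i < D.rank) (s : ℕ) (hs : s < D.nroots) (c : F)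
    (hc : c ≠ 0) :
    ∃ κ : F, κ ≠ 0 ∧ ∀ t : F, D.nMat F (D.simple i) c * D.x F s t =
      D.x F (D.reflectRoot i s) (κ * t) * D.nMat F (D.simple i) c := by
  obtain ⟨η, hη, h1⟩ := Cfsg.Agent.S1031.result (F := F) D hD i s hi hs
  have hrl : D.reflectRoot i s < D.nroots := reflectRoot_lt D hD i hi s hs
  have hsl : D.simple i < D.nroots := simple_lt D hD i hi
  refine ⟨c ^ (D.cartan i (D.reflectRoot i s)) * (η : F), ?_, fun t => ?_⟩
  · apply mul_ne_zero (zpow_ne_zero _ hc)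
    rcases hη with rfl | rfl <;> simp
  · rw [nMat_eq_hMat_mul D hD (D.simple i) hsl c, Matrix.mul_assoc, h1 t, ← Matrix.mul_assoc,
      Cfsg.Agent.S1032.result D hD i _ hi hrl c hc, Matrix.mul_assoc, mul_assoc]

/-- conjugation of a root element by `n_i(c)` -/
theorem conj1 (hD : D ∈ lst) (i : Fin D.rank) (c : F) (hc : c ≠ 0) (s : ℕ) (hs : s < D.nroots) :
    ∃ κ : F, κ ≠ 0 ∧ ∀ t : F, nn (xs D) (ys D) i c * xg D s t * (nn (xs D) (ys D) i c)⁻¹ =
      xg D (D.reflectRoot i.val s) (κ * t) := by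
  obtain ⟨κ, hκ, h⟩ := nMat_conj (F := F) D hD i.val i.isLt s hs c hc
  refine ⟨κ, hκ, fun t => ?_⟩
  rw [mul_inv_eq_iff_eq_mul]
  apply Subtype.ext
  apply Units.ext
  rw [Subgroup.coe_mul, Subgroup.coe_mul, Units.val_mul, Units.val_mul, nn_mat D hD, xg_mat D hD,
    xg_mat D hD, h t]

/-- conjugation of a root element by `n_i(c) n_j(d)` -/
theorem conj2 (hD : D ∈ lst) (i j : Fin D.rank) (c d : F) (hc : c ≠ 0) (hd : d ≠ 0) (s : ℕ)
    (hs : s < D.nroots) :
    ∃ κ : F, κ ≠ 0 ∧ ∀ t : F, (nn (xs D) (ys D) i c * nn (xs D) (ys D) j d) * xg D s t *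
      (nn (xs D) (ys D) i c * nn (xs D) (ys D) j d)⁻¹ =
      xg D (D.reflectRoot i.val (D.reflectRoot j.val s)) (κ * t) := by
  obtain ⟨κ1, hκ1, h1⟩ := conj1 (F := F) D hD j d hd s hs
  obtain ⟨κ2, hκ2, h2⟩ := conj1 (F := F) D hD i c hc (D.reflectRoot j.val s)
    (reflectRoot_lt D hD j.val j.isLt s hs)
  refine ⟨κ2 * κ1, mul_ne_zero hκ2 hκ1, fun t => ?_⟩
  have e : ∀ a b x : ↥(D.group F), (a * b) * x * (a * b)⁻¹ = a * (b * x * b⁻¹) * a⁻¹ := by
    intro a b x
    group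
  rw [e, h1, h2, mul_assoc]

/-- conjugation of a root element by `(n_i(c) n_j(d))²` -/
theorem conj4 (hD : D ∈ lst) (i j : Fin D.rank) (c d : F) (hc : c ≠ 0) (hd : d ≠ 0) (s : ℕ)
    (hs : s < D.nroots) :
    ∃ κ : F, κ ≠ 0 ∧ ∀ t : F, (nn (xs D) (ys D) i c * nn (xs D) (ys D) j d) ^ 2 * xg D s t *
      ((nn (xs D) (ys D) i c * nn (xs D) (ys D) j d) ^ 2)⁻¹ =
      xg D (D.reflectRoot i.val (D.reflectRoot j.val (D.reflectRoot i.val
        (D.reflectRoot j.val s)))) (κ * t) := by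
  obtain ⟨κ1, hκ1, h1⟩ := conj2 (F := F) D hD i j c d hc hd s hs
  obtain ⟨κ2, hκ2, h2⟩ := conj2 (F := F) D hD i j c d hc hd
    (D.reflectRoot i.val (D.reflectRoot j.val s))
    (reflectRoot_lt D hD i.val i.isLt _ (reflectRoot_lt D hD j.val j.isLt s hs))
  refine ⟨κ2 * κ1, mul_ne_zero hκ2 hκ1, fun t => ?_⟩
  have e : ∀ g x : ↥(D.group F), g ^ 2 * x * (g ^ 2)⁻¹ = g * (g * x * g⁻¹) * g⁻¹ := by
    intro g x
    rw [pow_two, mul_inv_rev]
    simp only [mul_assoc]
  rw [e, h1, h2, mul_assoc]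

/-- a non-trivial positive root element is not a negative root element -/
theorem x_pos_ne_neg (hD : D ∈ lst) (r s : ℕ) (hr : D.IsPosRoot r) (hs : D.IsNegRoot s) (t u : F)
    (ht : t ≠ 0) : D.x F r t ≠ D.x F s u := by
  intro h
  have hD' : D ∈ chevList := hD
  have e : xGL D hD' r t = xGL D hD' s u := Units.ext h
  have h1 : xGL D hD' r t ∈ D.borelSubgroup F := by
    apply (le_sup_left : D.posUnipotent F ≤ D.borelSubgroup F)
    exact Subgroup.subset_closure ⟨r, t, hr, rfl⟩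
  have h2 : xGL D hD' r t ∈ D.negUnipotent F := by
    rw [e]
    exact Subgroup.subset_closure ⟨s, u, hs, rfl⟩
  have h3 : xGL D hD' r t ∈ D.borelSubgroup F ⊓ D.negUnipotent F := ⟨h1, h2⟩
  rw [borel_inf_negUnipotent D hD', Subgroup.mem_bot] at h3
  have h4 : D.x F r t = 1 := by
    rw [← xGL_val D hD' r t, h3, Units.val_one]
  exact x_ne_one D hD r hr.1 t ht h4

/-- a non-trivial root element for a positive root other than `p_j` is not in `X_{p_j}` -/
theorem x_ne_simple (hD : D ∈ lst) (j : ℕ) (hj : j < D.rank) (r : ℕ) (hr : D.IsPosRoot r)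
    (hne : r ≠ D.simple j) (t u : F) (ht : t ≠ 0) : D.x F r t ≠ D.x F (D.simple j) u := by
  intro h
  have hD' : D ∈ chevList := hD
  have hsl : D.simple j < D.nroots := simple_lt D hD' j hj
  obtain ⟨κ1, hκ1, h1⟩ := nMat_conj (F := F) D hD j hj r hr.1 1 one_ne_zero
  obtain ⟨κ2, -, h2⟩ := nMat_conj (F := F) D hD j hj (D.simple j) hsl 1 one_ne_zero
  have hrefl : D.reflectRoot j (D.simple j) = D.neg (D.simple j) := by
    unfold ChevalleyDatum.reflectRoot
    simp
  have e1 : D.x F (D.reflectRoot j r) (κ1 * t) * D.nMat F (D.simple j) 1 =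
      D.x F (D.neg (D.simple j)) (κ2 * u) * D.nMat F (D.simple j) 1 := by
    rw [← h1, ← hrefl, ← h2, h]
  have e2 : D.x F (D.reflectRoot j r) (κ1 * t) = D.x F (D.neg (D.simple j)) (κ2 * u) := by
    have := congrArg (fun M => M * D.nMat F (D.simple j) (-1)) e1
    simp only [Matrix.mul_assoc] at this
    rwa [nMat_one_mul_nMat_neg_one D hD' (D.simple j) hsl, Matrix.mul_one, Matrix.mul_one] at this
  have hpos : D.IsPosRoot (D.reflectRoot j r) := (reflect_pos D hD j hj r hr hne).1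
  have hspos : D.IsPosRoot (D.simple j) := (upChk_all D hD j hj).1
  have hneg : D.IsNegRoot (D.neg (D.simple j)) := (sign_facts D hD (D.simple j) hsl).2.2.2.1 hspos
  exact x_pos_ne_neg D hD _ _ hpos hneg _ _ (mul_ne_zero hκ1 ht) e2

/-- piece `G` of the `OkD` instance -/
theorem pieceG (hD : D ∈ lst) :
    (∀ i j : Fin D.rank, i ≠ j → bondD D i j = 1 → ∀ c d a : F, c ≠ 0 → d ≠ 0 →
      ∃ a' : F, (nn (xs D) (ys D) i c * nn (xs D) (ys D) j d) * xs D i a *
        (nn (xs D) (ys D) i c * nn (xs D) (ys D) j d)⁻¹ = xs D j a') ∧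
    (∀ i j : Fin D.rank, i ≠ j → 2 ≤ bondD D i j → ∀ a' : F,
      (nn (xs D) (ys D) i (1 : F) * nn (xs D) (ys D) j 1) * xs D i 1 *
        (nn (xs D) (ys D) i (1 : F) * nn (xs D) (ys D) j 1)⁻¹ ≠ xs D j a') ∧
    (∀ i j : Fin D.rank, i ≠ j → bondD D i j = 2 → ∀ c d a : F, c ≠ 0 → d ≠ 0 →
      ∃ a' : F, (nn (xs D) (ys D) i c * nn (xs D) (ys D) j d) ^ 2 * xs D i a *
        ((nn (xs D) (ys D) i c * nn (xs D) (ys D) j d) ^ 2)⁻¹ = ys D i a') ∧
    (∀ i j : Fin D.rank, i ≠ j → bondD D i j = 3 → ∀ a' : F,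
      (nn (xs D) (ys D) i (1 : F) * nn (xs D) (ys D) j 1) ^ 2 * xs D i 1 *
        ((nn (xs D) (ys D) i (1 : F) * nn (xs D) (ys D) j 1) ^ 2)⁻¹ ≠ ys D i a') := by
  have hD' : D ∈ chevList := hD
  obtain ⟨w1, w2, w3, w4⟩ := weyl_all D hD
  have hsl : ∀ i : Fin D.rank, D.simple i.val < D.nroots := fun i => simple_lt D hD' i.val i.isLt
  refine ⟨?_, ?_, ?_, ?_⟩
  · intro i j hij hb c d a hc hd
    obtain ⟨κ, -, h⟩ := conj2 (F := F) D hD i j c d hc hd (D.simple i.val) (hsl i)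
    refine ⟨κ * a, ?_⟩
    show _ * xg D (D.simple i.val) a * _ = xg D (D.simple j.val) (κ * a)
    rw [h a, w1 i j hij hb]
  · intro i j hij hb a' h'
    obtain ⟨κ, hκ, h⟩ := conj2 (F := F) D hD i j 1 1 one_ne_zero one_ne_zero (D.simple i.val) (hsl i)
    have h'' : xg D (D.reflectRoot i.val (D.reflectRoot j.val (D.simple i.val))) (κ * 1) =
        xg D (D.simple j.val) a' := by
      rw [← h 1]
      exact h'
    have hm := congrArg (fun g : ↥(D.group F) => ((g : GL D.Idx F) : Matrix D.Idx D.Idx F)) h''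
    simp only [xg_mat D hD] at hm
    obtain ⟨hp, hn⟩ := w2 i j hij hb
    exact x_ne_simple D hD j.val j.isLt _ hp hn _ _ (mul_ne_zero hκ one_ne_zero) hm
  · intro i j hij hb c d a hc hd
    obtain ⟨κ, -, h⟩ := conj4 (F := F) D hD i j c d hc hd (D.simple i.val) (hsl i)
    refine ⟨κ * a, ?_⟩
    show _ * xg D (D.simple i.val) a * _ = xg D (D.neg (D.simple i.val)) (κ * a)
    rw [h a, w3 i j hij hb]
  · intro i j hij hb a' h'
    obtain ⟨κ, hκ, h⟩ := conj4 (F := F) D hD i j 1 1 one_ne_zero one_ne_zero (D.simple i.val) (hsl i)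
    have h'' : xg D (D.reflectRoot i.val (D.reflectRoot j.val (D.reflectRoot i.val
        (D.reflectRoot j.val (D.simple i.val))))) (κ * 1) = xg D (D.neg (D.simple i.val)) a' := by
      rw [← h 1]
      exact h'
    have hm := congrArg (fun g : ↥(D.group F) => ((g : GL D.Idx F) : Matrix D.Idx D.Idx F)) h''
    simp only [xg_mat D hD] at hm
    have hspos : D.IsPosRoot (D.simple i.val) := (upChk_all D hD i.val i.isLt).1
    have hneg : D.IsNegRoot (D.neg (D.simple i.val)) :=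
      (sign_facts D hD (D.simple i.val) (hsl i)).2.2.2.1 hspos
    exact x_pos_ne_neg D hD _ _ (w4 i j hij hb) hneg _ _ (mul_ne_zero hκ one_ne_zero) hm

end Cfsg.Agent.Lib.Helper75.ChevDynP
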