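import Mathlib
import Cfsg.Prelude.Def_GeometricClasses
import Cfsg.Prelude.Def_LieClassical
import Cfsg.Agent.Lib.Helper71.Asch5
import Cfsg.Agent.Lib.Helper82.ASB8UNITS
import Cfsg.Agent.Lib.Helper44.BADDefs

/-! Project BAD (helper44; sub-project of S5663): piece `EGRP`. The matrices `P (a ⊗ b) P⁻¹`,
`a, b ∈ bS`, form a subgroup of `GL (Fin n) F`. -/

set_option autoImplicit false

namespace Cfsg.Agent.Lib.Helper44.BAD

open Matrix Cfsg.Geo Cfsg.Agent.Lib.Helper71.Asch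
open scoped Kronecker

variable {n : ℕ} {F : Type*} [Field F] [Fintype F] {q : ℕ}

/-- EGRP: the `P (a ⊗ b) P⁻¹`, `a, b ∈ bS`, form a subgroup. -/
theorem EGRP (e : Fin n ≃ Fin 3 × Fin 3) (P : GL (Fin n) F) (hS : SMULp F) :
    ∃ E : Subgroup (GL (Fin n) F), EIs e P E ∧
      ∀ a ∈ bS F, ∀ b ∈ bS F, ∃ g ∈ E, g.1 = tmat e P a b := by
  obtain ⟨h1, hmul, hinv⟩ := hS
  have hprod : ∀ a a' b b' : Matrix (Fin 3) (Fin 3) F, a * a' = 1 → b * b' = 1 →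
      tmat e P a b * tmat e P a' b' = 1 := by
    intro a a' b b' ha hb
    rw [Cfsg.Agent.Lib.Helper82.ASB8UNITS.tmat_mul, ha, hb,
      Cfsg.Agent.Lib.Helper82.ASB8UNITS.tmat_one]
  refine ⟨{ carrier := {g | ∃ a ∈ bS F, ∃ b ∈ bS F, g.1 = tmat e P a b}
            mul_mem' := ?_
            one_mem' := ?_
            inv_mem' := ?_ }, fun g => Iff.rfl, ?_⟩
  · rintro g g' ⟨a, ha, b, hb, hg⟩ ⟨a', ha', b', hb', hg'⟩
    refine ⟨a * a', hmul a ha a' ha', b * b', hmul b hb b' hb', ?_⟩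
    rw [Units.val_mul, hg, hg', Cfsg.Agent.Lib.Helper82.ASB8UNITS.tmat_mul]
  · exact ⟨1, h1, 1, h1, by rw [Units.val_one, Cfsg.Agent.Lib.Helper82.ASB8UNITS.tmat_one]⟩
  · rintro g ⟨a, ha, b, hb, hg⟩
    obtain ⟨a', ha', haa', ha'a⟩ := hinv a ha
    obtain ⟨b', hb', hbb', hb'b⟩ := hinv b hb
    refine ⟨a', ha', b', hb', ?_⟩
    apply Units.inv_eq_of_mul_eq_one_right
    rw [hg]
    exact hprod a a' b b' haa' hbb'
  · intro a ha b hb
    obtain ⟨a', ha', haa', ha'a⟩ := hinv a ha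
    obtain ⟨b', hb', hbb', hb'b⟩ := hinv b hb
    exact ⟨⟨tmat e P a b, tmat e P a' b', hprod a a' b b' haa' hbb', hprod a' a b' b ha'a hb'b⟩,
      ⟨a, ha, b, hb, rfl⟩, rfl⟩

end Cfsg.Agent.Lib.Helper44.BAD
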