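import Mathlib
import Cfsg.Agent.Lib.Helper45.MinIdxA

/-!
# S2140, piece GEN: a subgroup of `SL` with the dichotomy for centres and axes and one
transvection is everything
-/

set_option autoImplicit false

namespace Cfsg.Agent.Lib.Helper75.MinIdx

open Matrix Cfsg.Agent.Lib.Helper50 Cfsg.Agent.Lib.Helper45.MinIdx

/-- in dimension at least three two vectors have a common non-zero annihilating functional -/
theorem exists_common_axis {ι : Type} [Fintype ι] [DecidableEq ι] {F : Type*} [Field F]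
    (hι : 3 ≤ Fintype.card ι) (a b : ι → F) :
    ∃ φ : ι → F, φ ≠ 0 ∧ φ ⬝ᵥ a = 0 ∧ φ ⬝ᵥ b = 0 := by
  classical
  set P : Submodule F (ι → F) :=
    Submodule.span F (({a, b} : Finset (ι → F)) : Set (ι → F)) with hP
  have h1 : Module.finrank F P ≤ 2 := (finrank_span_finset_le_card _).trans Finset.card_le_two
  have h2 : ∃ x, x ∉ P := by
    by_contra hcon
    push Not at hcon
    have htop : P = ⊤ := Submodule.eq_top_iff'.2 hcon
    rw [htop, finrank_top, Module.finrank_fintype_fun_eq_card] at h1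
    omega
  obtain ⟨x, hx⟩ := h2
  obtain ⟨φ, hφ0, hφ1⟩ := Cfsg.Agent.Lib.Helper97.exists_dot P x hx
  refine ⟨φ, ?_, hφ0 a (Submodule.subset_span (by simp)),
    hφ0 b (Submodule.subset_span (by simp))⟩
  rintro rfl
  rw [zero_dotProduct] at hφ1
  exact zero_ne_one hφ1

theorem gen_top {ι : Type} [Fintype ι] [DecidableEq ι] {F : Type*} [Field F]
    (hι : 3 ≤ Fintype.card ι) (H : Subgroup (Matrix.SpecialLinearGroup ι F))
    (hU : ∀ a : ι → F, a ≠ 0 → (∀ φ : ι → F, φ ⬝ᵥ a = 0 → tL a φ 1 ∈ H) ∨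
      (∀ φ : ι → F, φ ⬝ᵥ a = 0 → tL a φ 1 ∈ H → φ = 0))
    (hA : ∀ φ : ι → F, φ ≠ 0 → (∀ a : ι → F, φ ⬝ᵥ a = 0 → tL a φ 1 ∈ H) ∨
      (∀ a : ι → F, φ ⬝ᵥ a = 0 → tL a φ 1 ∈ H → a = 0))
    (a φ : ι → F) (ha : a ≠ 0) (hφ : φ ≠ 0) (h : φ ⬝ᵥ a = 0) (hm : tL a φ 1 ∈ H) : H = ⊤ := by
  have hafull : ∀ ψ : ι → F, ψ ⬝ᵥ a = 0 → tL a ψ 1 ∈ H := by
    rcases hU a ha with h1 | h1
    · exact h1
    · exact absurd (h1 φ h hm) hφ
  have hbfull : ∀ b : ι → F, b ≠ 0 → ∀ ψ : ι → F, ψ ⬝ᵥ b = 0 → tL b ψ 1 ∈ H := by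
    intro b hb
    obtain ⟨χ, hχ, hχa, hχb⟩ := exists_common_axis hι a b
    have hχfull : ∀ c : ι → F, χ ⬝ᵥ c = 0 → tL c χ 1 ∈ H := by
      rcases hA χ hχ with h1 | h1
      · exact h1
      · exact absurd (h1 a hχa (hafull χ hχa)) ha
    rcases hU b hb with h1 | h1
    · exact h1
    · exact absurd (h1 χ hχb (hχfull b hχb)) hχ
  have hnt : Nontrivial ι := Fintype.one_lt_card_iff_nontrivial.1 (by omega)
  rw [eq_top_iff, ← Cfsg.Agent.Lib.Helper87.closure_tvSet (ι := ι) (F := F), Subgroup.closure_le]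
  rintro t ⟨w, χ, hw, hχ, hχw, ht⟩
  have e : t = tL w χ 1 := by
    apply sl_ext
    rw [ht, tL_coe hχw, one_smul]
  rw [SetLike.mem_coe, e]
  exact hbfull w hw χ hχw

end Cfsg.Agent.Lib.Helper75.MinIdx
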