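import Cfsg.Agent.Lib.Helper52.PN4Defs

/-!
Project PN4 (S2715, helper52), piece INN: the automorphism induced by the diagonal similarity
`dsim d` lies in `Inndiag(PΩ⁺₈(F))`; `Inn ≤ Inndiag`; `|Inndiag| = 4 |Inn|`.
-/

set_option autoImplicit false
set_option linter.unusedSectionVars false
set_option linter.unusedVariables false

namespace Cfsg.Agent.Lib.Helper52.PN4

open Cfsg Cfsg.Lie Matrix Cfsg.Agent.Lib.Helper99 Cfsg.Agent.Lib.Helper99.D4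
open Cfsg.Agent.Lib.Helper27.PslnOut Cfsg.Agent.Lib.Helper27.DynOut
  Cfsg.Agent.Lib.Helper27.ChevDyn Cfsg.Agent.Lib.Helper27.ChevDynI
  Cfsg.Agent.Lib.Helper27.ChevDynW Cfsg.Agent.Lib.Helper27.ChevDynExt
  Cfsg.Agent.Lib.Helper27.ChevDynStr Cfsg.Agent.Lib.Helper27.ChevDynD4
open Cfsg.Agent.Lib.Helper54 Cfsg.Agent.Lib.Helper51

variable {F : Type*} [Field F]

private theorem pn4inn_pair (d : Fin 4 → Fˣ) (i : Fin 4) :
    ((dl d (e8.symm (Sum.inl i)) : Fˣ) : F) * ((dl d (e8.symm (Sum.inr i)) : Fˣ) : F) =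
      ((mu d : Fˣ) : F) := by
  have h0 := (d 0).ne_zero
  have h1 := (d 1).ne_zero
  have h2 := (d 2).ne_zero
  have h3 := (d 3).ne_zero
  have e0 : dl d (e8.symm (Sum.inl (0 : Fin 4))) = d 0 * d 1 * d 2 := rfl
  have e1 : dl d (e8.symm (Sum.inl (1 : Fin 4))) = d 1 * d 2 := rfl
  have e2 : dl d (e8.symm (Sum.inl (2 : Fin 4))) = d 2 := rfl
  have e3 : dl d (e8.symm (Sum.inl (3 : Fin 4))) = 1 := rfl
  have e4 : dl d (e8.symm (Sum.inr (0 : Fin 4))) = (d 3)⁻¹ * (d 0)⁻¹ * (d 1)⁻¹ := rfl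
  have e5 : dl d (e8.symm (Sum.inr (1 : Fin 4))) = (d 3)⁻¹ * (d 1)⁻¹ := rfl
  have e6 : dl d (e8.symm (Sum.inr (2 : Fin 4))) = (d 3)⁻¹ := rfl
  have e7 : dl d (e8.symm (Sum.inr (3 : Fin 4))) = d 2 * (d 3)⁻¹ := rfl
  have hmu : mu d = d 2 * (d 3)⁻¹ := rfl
  fin_cases i
  · show ((dl d (e8.symm (Sum.inl (0 : Fin 4))) : Fˣ) : F) *
      ((dl d (e8.symm (Sum.inr (0 : Fin 4))) : Fˣ) : F) = _
    rw [e0, e4, hmu]
    simp only [Units.val_mul, Units.val_inv_eq_inv_val]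
    field_simp
  · show ((dl d (e8.symm (Sum.inl (1 : Fin 4))) : Fˣ) : F) *
      ((dl d (e8.symm (Sum.inr (1 : Fin 4))) : Fˣ) : F) = _
    rw [e1, e5, hmu]
    simp only [Units.val_mul, Units.val_inv_eq_inv_val]
    field_simp
  · show ((dl d (e8.symm (Sum.inl (2 : Fin 4))) : Fˣ) : F) *
      ((dl d (e8.symm (Sum.inr (2 : Fin 4))) : Fˣ) : F) = _
    rw [e2, e6, hmu]
    simp only [Units.val_mul, Units.val_inv_eq_inv_val]
  · show ((dl d (e8.symm (Sum.inl (3 : Fin 4))) : Fˣ) : F) *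
      ((dl d (e8.symm (Sum.inr (3 : Fin 4))) : Fˣ) : F) = _
    rw [e3, e7, hmu]
    simp only [Units.val_mul, Units.val_inv_eq_inv_val, Units.val_one, one_mul]

private theorem pn4inn_val (d : Fin 4 → Fˣ) :
    ((dsim d : GL (Fin 4 ⊕ Fin 4) F) : Matrix (Fin 4 ⊕ Fin 4) (Fin 4 ⊕ Fin 4) F) =
      diagonal fun j => ((dl d (e8.symm j) : Fˣ) : F) := rfl

private theorem pn4inn_sim (d : Fin 4 → Fˣ) (v : Fin 4 ⊕ Fin 4 → F) :
    quadFormPlus 4 F (((dsim d : GL (Fin 4 ⊕ Fin 4) F) :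
      Matrix (Fin 4 ⊕ Fin 4) (Fin 4 ⊕ Fin 4) F) *ᵥ v) = ((mu d : Fˣ) : F) * quadFormPlus 4 F v := by
  unfold quadFormPlus
  rw [Finset.mul_sum]
  refine Finset.sum_congr rfl (fun i _ => ?_)
  rw [pn4inn_val, mulVec_diagonal, mulVec_diagonal, ← pn4inn_pair d i]
  ring

private theorem pn4inn_det (d : Fin 4 → Fˣ) :
    ((dsim d : GL (Fin 4 ⊕ Fin 4) F) : Matrix (Fin 4 ⊕ Fin 4) (Fin 4 ⊕ Fin 4) F).det =
      ((mu d : Fˣ) : F) ^ 4 := by
  rw [pn4inn_val, det_diagonal, Fintype.prod_sum_type, ← Finset.prod_mul_distrib,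
    Finset.prod_congr rfl (fun i _ => pn4inn_pair d i), Finset.prod_const, Finset.card_univ,
    Fintype.card_fin]

/-- the diagonal matrix `dsim d` is a similarity of `quadFormPlus 4 F` (multiplier `mu d`) -/
private theorem dsim_mem (d : Fin 4 → Fˣ) :
    dsim d ∈ Geo.quadSimilarityGroup (F := F) (quadFormPlus 4 F) :=
  ⟨mu d, pn4inn_sim d⟩

private theorem pn4inn_gen1 [Fintype F] (hF : ringChar F ≠ 2) (q : (Fin 4 ⊕ Fin 4 → F) → F)
    (hq : q = ⇑(QPlus 4 F)) (d : Fin 4 → Fˣ)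
    (h : dsim d ∈ Geo.quadSimilarityGroup (F := F) q) :
    simAut q ⟨dsim d, h⟩ ∈ inndiagOf q := by
  subst hq
  unfold inndiagOf
  rw [inndiagPlus_eq hF (by norm_num : 1 ≤ 4)]
  refine Subgroup.mem_map_of_mem _ ?_
  rw [MonoidHom.mem_ker, simSgn_apply, mul_inv_eq_one]
  apply Units.ext
  rw [Matrix.GeneralLinearGroup.val_det_apply, Units.val_pow_eq_pow_val]
  have hmul : ((simMul (QPlus 4 F) (hv_plus (by norm_num : 1 ≤ 4)) ⟨dsim d, h⟩ : Fˣ) : F) =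
      ((mu d : Fˣ) : F) := by
    apply simMul_eq
    intro v
    have e1 := congrFun (coe_QPlus 4 F) (((dsim d : GL (Fin 4 ⊕ Fin 4) F) :
      Matrix (Fin 4 ⊕ Fin 4) (Fin 4 ⊕ Fin 4) F) *ᵥ v)
    have e2 := congrFun (coe_QPlus 4 F) v
    exact e1.trans ((pn4inn_sim d v).trans (by rw [e2]))
  rw [hmul]
  exact pn4inn_det d

private theorem pn4inn_gen2 [Fintype F] (hF : ringChar F ≠ 2) (q : (Fin 4 ⊕ Fin 4 → F) → F)
    (hq : q = ⇑(QPlus 4 F)) : Inn (POmega F q) ≤ inndiagOf q := by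
  subst hq
  unfold inndiagOf
  rw [inndiagPlus_eq hF (by norm_num : 1 ≤ 4), inn_eq]
  exact Subgroup.map_mono (omega_le_sgnKer (QPlus 4 F) (hv_plus (by norm_num : 1 ≤ 4)) 4)

private theorem pn4inn_gen3 [Fintype F] (hF : ringChar F ≠ 2) (q : (Fin 4 ⊕ Fin 4 → F) → F)
    (hq : q = ⇑(QPlus 4 F)) :
    Nat.card ↥(inndiagOf q) = 4 * Nat.card ↥(Inn (POmega F q)) := by
  have hodd : Odd (Fintype.card F) := by
    rw [Nat.odd_iff]
    have h0 := (FiniteField.even_card_iff_char_two (F := F)).not.mp hF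
    omega
  obtain ⟨φ, hφ, hker⟩ :=
    (plus_inndiag_gen hodd (by norm_num : 3 ≤ 4) q hq).2.2 (by decide : Even 4)
  have hle := pn4inn_gen2 hF q hq
  have h1 := Subgroup.card_eq_card_quotient_mul_card_subgroup φ.ker
  have h2 : Nat.card (↥(inndiagOf q) ⧸ φ.ker) = 4 := by
    rw [Nat.card_congr (QuotientGroup.quotientKerEquivOfSurjective φ hφ).toEquiv,
      Nat.card_congr Multiplicative.toAdd, Nat.card_prod, Nat.card_zmod]
  have h3 : Nat.card ↥φ.ker = Nat.card ↥(Inn (POmega F q)) := by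
    rw [hker]
    exact Nat.card_congr (Subgroup.subgroupOfEquivOfLe hle).toEquiv
  rw [h1, h2, h3]

theorem simAut_dsim_mem [Fintype F] (hF : ringChar F ≠ 2) (d : Fin 4 → Fˣ) :
    simAut (quadFormPlus 4 F) ⟨dsim d, dsim_mem d⟩ ∈ Cfsg.inndiagPOmegaPlus 4 F :=
  pn4inn_gen1 hF (quadFormPlus 4 F) (coe_QPlus 4 F).symm d (dsim_mem d)

theorem inn_le_inndiag [Fintype F] (hF : ringChar F ≠ 2) :
    Cfsg.Inn (POmega F (quadFormPlus 4 F)) ≤ Cfsg.inndiagPOmegaPlus 4 F :=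
  pn4inn_gen2 hF (quadFormPlus 4 F) (coe_QPlus 4 F).symm

theorem card_inndiag [Fintype F] (hF : ringChar F ≠ 2) :
    Nat.card ↥(Cfsg.inndiagPOmegaPlus 4 F) =
      4 * Nat.card ↥(Cfsg.Inn (POmega F (quadFormPlus 4 F))) :=
  pn4inn_gen3 hF (quadFormPlus 4 F) (coe_QPlus 4 F).symm

end Cfsg.Agent.Lib.Helper52.PN4
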