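import Mathlib
import Cfsg.Prelude.Def_GeometricClasses
import Cfsg.Agent.Lib.Helper71.SLP0

/-! SLP piece N2 (helper75 for helper71): `SL_n(F)` is not contained in the stabiliser of a
decomposition. -/

set_option autoImplicit false

namespace Cfsg.Agent.Lib.Helper75.SLPN2

open Matrix Cfsg.Geo Cfsg.Agent.Lib.Helper71.SLP

variable {n : ℕ} {F : Type*} [Field F] [Fintype F]

/-- N2 -/
theorem N2 (hn : 2 ≤ n) {t m : ℕ} (D : Fin t → Submodule F (Fin n → F))
    (hD : IsMDecomposition m D) : ¬ specialLinear (Fin n) F ≤ decompositionStabilizer D := by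
  intro hle
  have ht := hD.two_le
  obtain ⟨i₀, hi₀⟩ : ∃ i₀ : Fin t, i₀ = ⟨0, by omega⟩ := ⟨_, rfl⟩
  obtain ⟨i₁, hi₁⟩ : ∃ i₁ : Fin t, i₁ = ⟨1, by omega⟩ := ⟨_, rfl⟩
  have hne : i₀ ≠ i₁ := by
    rw [hi₀, hi₁]
    intro h
    have h' := congrArg Fin.val h
    simp at h'
  have hnb : ∀ i, D i ≠ ⊥ := by
    intro i hbot
    have h1 := hD.finrank_eq i
    rw [hbot, finrank_bot] at h1
    have h2 := hD.pos
    omega
  obtain ⟨w, hw, hw0⟩ := (Submodule.ne_bot_iff _).mp (hnb i₀)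
  obtain ⟨u, hu, hu0⟩ := (Submodule.ne_bot_iff _).mp (hnb i₁)
  have hdisj : Disjoint (D i₀) (D i₁) := hD.indep.pairwiseDisjoint hne
  have hinf : ∀ x, x ∈ D i₀ → x ∈ D i₁ → x = 0 := fun x h0 h1 =>
    (Submodule.disjoint_def.mp hdisj) x h0 h1
  have hwu : w ∉ Submodule.span F {u} := by
    intro h
    obtain ⟨c, rfl⟩ := Submodule.mem_span_singleton.mp h
    exact hw0 (hinf _ hw (Submodule.smul_mem _ c hu))
  obtain ⟨φ, hφw, hφE⟩ := exists_dual (Submodule.span F {u}) w hwu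
  have hφu : φ ⬝ᵥ u = 0 := hφE u (Submodule.mem_span_singleton_self u)
  obtain ⟨σ, hσ⟩ := hle (tv_mem_specialLinear u φ hφu)
  have hmem : w + u ∈ D (σ i₀) := by
    rw [← hσ i₀]
    refine ⟨w, hw, ?_⟩
    rw [Matrix.toLin'_apply, tv_mulVec, hφw, one_smul]
  by_cases hj0 : σ i₀ = i₀
  · rw [hj0] at hmem
    have h1 : u ∈ D i₀ := by
      have h2 := (D i₀).sub_mem hmem hw
      rwa [add_sub_cancel_left] at h2
    exact hu0 (hinf u h1 hu)
  · by_cases hj1 : σ i₀ = i₁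
    · rw [hj1] at hmem
      have h1 : w ∈ D i₁ := by
        have h2 := (D i₁).sub_mem hmem hu
        rwa [add_sub_cancel_right] at h2
      exact hw0 (hinf w hw h1)
    · have hd := hD.indep (σ i₀)
      have h1 : w ∈ ⨆ (i) (_ : i ≠ σ i₀), D i :=
        Submodule.mem_iSup_of_mem i₀ (Submodule.mem_iSup_of_mem (Ne.symm hj0) hw)
      have h2 : u ∈ ⨆ (i) (_ : i ≠ σ i₀), D i :=
        Submodule.mem_iSup_of_mem i₁ (Submodule.mem_iSup_of_mem (Ne.symm hj1) hu)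
      have h3 := (Submodule.disjoint_def.mp hd) (w + u) hmem (Submodule.add_mem _ h1 h2)
      have h4 : w = -u := eq_neg_of_add_eq_zero_left h3
      exact hw0 (hinf w hw (by rw [h4]; exact (D i₁).neg_mem hu))

end Cfsg.Agent.Lib.Helper75.SLPN2
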