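import Mathlib
import Cfsg.Prelude.Def_KGroupFacts
import Cfsg.Agent.Lib.Helper70.SchurTwoE
import Cfsg.Agent.Lib.Helper67.J3MRED2

set_option autoImplicit false

/-!
# S2040 piece J2M-RED (helper75 for helper70)

`htwo_of_no_ker_two`: if no stem extension of `G` with kernel of order two has all lifts of the
involution `a₀` squaring to one, then in every stem extension with kernel of exponent two the
kernel is `{1, α * α}` for a lift `α` of `a₀`.
-/

open scoped commutatorElement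

universe u v

namespace Cfsg.Agent.Lib.Helper75.J2MRED

open Cfsg.Agent.Lib.Helper70 Cfsg.Agent.Lib.Helper67.J3MRED2

/-- `Helper67.J3MRED2.exists_stem_ker_two`, also transporting `QOne`. -/
theorem exists_stem_ker_two_q {Γ : Type u} {G : Type v} [Group Γ] [Group G] [Finite Γ] (σ : Γ →* G)
    (hσ : Cfsg.IsStemExtension σ) (h2 : 2 ∣ Nat.card σ.ker) (a₀ : G) (hq : QOne σ a₀) :
    ∃ (Γ₁ : Type u) (_ : Group Γ₁) (_ : Finite Γ₁) (σ₁ : Γ₁ →* G) (z : Γ₁),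
      Cfsg.IsStemExtension σ₁ ∧ z ≠ 1 ∧ z * z = 1 ∧ (∀ k : Γ₁, k ∈ σ₁.ker ↔ (k = 1 ∨ k = z)) ∧
      QOne σ₁ a₀ := by
  classical
  have hc : ∀ a b : ↥σ.ker, a * b = b * a := fun a b => Subtype.ext (by
    have h := Subgroup.mem_center_iff.mp (hσ.2.1 a.2) b.1
    simpa using h.symm)
  obtain ⟨H, hH⟩ := exists_index_two hc h2
  have hZ₀K : H.map σ.ker.subtype ≤ σ.ker := by
    rintro _ ⟨y, -, rfl⟩; exact y.2
  haveI hZ₀n : (H.map σ.ker.subtype).Normal :=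
    normal_of_le_center _ (hZ₀K.trans hσ.2.1)
  have hmem : ∀ (y : Γ) (hy : y ∈ σ.ker), y ∈ H.map σ.ker.subtype ↔ (⟨y, hy⟩ : σ.ker) ∈ H := by
    intro y hy
    constructor
    · rintro ⟨w, hw, hwy⟩
      have h1 : w = ⟨y, hy⟩ := Subtype.ext hwy
      rw [← h1]; exact hw
    · intro h; exact ⟨⟨y, hy⟩, h, rfl⟩
  obtain ⟨x, hx⟩ : ∃ x : σ.ker, x ∉ H := by
    by_contra hcon
    push Not at hcon
    have h1 : H = ⊤ := (Subgroup.eq_top_iff' H).mpr hcon
    rw [h1, Subgroup.index_top] at hH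
    omega
  refine ⟨Γ ⧸ H.map σ.ker.subtype, inferInstance, inferInstance, quotMap σ _ hZ₀K,
    QuotientGroup.mk x.1, isStemExtension_quotMap σ hσ _ hZ₀K, ?_, ?_, ?_, ?_⟩
  · intro h
    have h1 := (QuotientGroup.eq_one_iff (N := H.map σ.ker.subtype) x.1).mp h
    exact hx ((hmem x.1 x.2).mp h1)
  · rw [← QuotientGroup.mk_mul, QuotientGroup.eq_one_iff]
    have h1 := Subgroup.mul_self_mem_of_index_two hH x
    exact (hmem _ (σ.ker.mul_mem x.2 x.2)).mpr h1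
  · intro k
    obtain ⟨y, rfl⟩ := QuotientGroup.mk_surjective k
    rw [mem_ker_quotMap]
    constructor
    · intro hy
      by_cases hyH : (⟨y, hy⟩ : σ.ker) ∈ H
      · left; exact (QuotientGroup.eq_one_iff y).mpr ((hmem y hy).mpr hyH)
      · right
        rw [QuotientGroup.eq]
        have h1 : (⟨y, hy⟩ : σ.ker)⁻¹ * x ∈ H := by
          rw [Subgroup.mul_mem_iff_of_index_two hH, inv_mem_iff]
          exact ⟨fun h => absurd h hyH, fun h => absurd h hx⟩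
        exact (hmem _ (σ.ker.mul_mem (σ.ker.inv_mem hy) x.2)).mpr h1
    · rintro (h | h)
      · have h1 := (QuotientGroup.eq_one_iff (N := H.map σ.ker.subtype) y).mp h
        exact hZ₀K h1
      · rw [QuotientGroup.eq] at h
        have h1 := hZ₀K h
        have h3 : y = x.1 * (y⁻¹ * x.1)⁻¹ := by group
        rw [h3]; exact σ.ker.mul_mem x.2 (σ.ker.inv_mem h1)
  · intro g' hg'
    obtain ⟨g, rfl⟩ := QuotientGroup.mk_surjective g'
    have hg : σ g = a₀ := hg'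
    rw [← QuotientGroup.mk_mul, hq g hg]
    rfl

theorem htwo_of_no_ker_two {G : Type u} [Group G] [Finite G] (a₀ : G) (ha₀ : a₀ * a₀ = 1)
    (hno : ∀ (Γ : Type u) [Group Γ] [Finite Γ] (σ : Γ →* G) (z : Γ), Cfsg.IsStemExtension σ →
      z ≠ 1 → z * z = 1 → (∀ k : Γ, k ∈ σ.ker ↔ (k = 1 ∨ k = z)) → QOne σ a₀ → False) :
    ∀ (Γ : Type u) [Group Γ] [Finite Γ] (σ : Γ →* G), Cfsg.IsStemExtension σ →
      (∀ ζ ∈ σ.ker, ζ ^ 2 = 1) → ∀ α : Γ, σ α = a₀ → ∀ ζ ∈ σ.ker, ζ = 1 ∨ ζ = α * α := by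
  intro Γ _ _ σ hσ hexp α hα
  have hw : α * α ∈ σ.ker := sq_mem_ker ha₀ hα
  have hZ₀K : Subgroup.zpowers (α * α) ≤ σ.ker := by
    rw [Subgroup.zpowers_le]; exact hw
  have hZ₀n : (Subgroup.zpowers (α * α)).Normal :=
    normal_of_le_center _ (hZ₀K.trans hσ.2.1)
  have hσ' := isStemExtension_quotMap σ hσ (Subgroup.zpowers (α * α)) hZ₀K
  have hexp' : ∀ ζ ∈ (quotMap σ (Subgroup.zpowers (α * α)) hZ₀K).ker, ζ ^ 2 = 1 := by
    intro x' hx'
    obtain ⟨x, rfl⟩ := QuotientGroup.mk_surjective x'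
    have hx : x ∈ σ.ker := (mem_ker_quotMap σ _ hZ₀K x).mp hx'
    rw [← QuotientGroup.mk_pow, hexp x hx]
    rfl
  have h2 : ∀ ζ ∈ σ.ker, ζ * ζ = 1 := fun ζ hζ => by rw [← pow_two]; exact hexp ζ hζ
  have hq : QOne (quotMap σ (Subgroup.zpowers (α * α)) hZ₀K) a₀ := by
    intro g' hg'
    obtain ⟨g, rfl⟩ := QuotientGroup.mk_surjective g'
    have hg : σ g = a₀ := hg'
    have e : g * g = α * α := sq_eq_of_map_eq hσ.2.1 h2 (hg.trans hα.symm)
    rw [← QuotientGroup.mk_mul, e]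
    exact (QuotientGroup.eq_one_iff _).mpr (Subgroup.mem_zpowers _)
  have hbot : (quotMap σ (Subgroup.zpowers (α * α)) hZ₀K).ker = ⊥ := by
    by_contra hne
    obtain ⟨x, hx1⟩ := (Subgroup.ne_bot_iff_exists_ne_one).mp hne
    have h2d : 2 ∣ Nat.card (quotMap σ (Subgroup.zpowers (α * α)) hZ₀K).ker := by
      haveI : Fact (Nat.Prime 2) := ⟨Nat.prime_two⟩
      have hx2 : x ^ 2 = 1 := Subtype.ext (by rw [Subgroup.coe_pow]; exact hexp' x.1 x.2)
      have hord : orderOf x = 2 := orderOf_eq_prime hx2 hx1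
      rw [← hord]; exact orderOf_dvd_natCard x
    obtain ⟨Γ₁, _, _, σ₁, z, hs, hz1, hzz, hker, hq1⟩ := exists_stem_ker_two_q _ hσ' h2d a₀ hq
    exact hno Γ₁ σ₁ z hs hz1 hzz hker hq1
  intro ζ hζ
  have hζ' : (QuotientGroup.mk ζ : Γ ⧸ Subgroup.zpowers (α * α)) ∈
      (quotMap σ (Subgroup.zpowers (α * α)) hZ₀K).ker := (mem_ker_quotMap σ _ hZ₀K ζ).mpr hζ
  rw [hbot, Subgroup.mem_bot] at hζ'
  have h6 : ζ ∈ Subgroup.zpowers (α * α) := (QuotientGroup.eq_one_iff ζ).mp hζ'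
  obtain ⟨k, hk⟩ := Subgroup.mem_zpowers_iff.mp h6
  have hw2 : (α * α) ^ 2 = 1 := hexp _ hw
  rcases Int.even_or_odd' k with ⟨m, rfl | rfl⟩
  · left
    rw [← hk, zpow_mul, zpow_ofNat, hw2, one_zpow]
  · right
    rw [← hk, zpow_add, zpow_mul, zpow_ofNat, hw2, one_zpow, one_mul, zpow_one]

end Cfsg.Agent.Lib.Helper75.J2MRED
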