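import Mathlib
import Cfsg.Prelude.Def_GeometricClasses
import Cfsg.Prelude.Def_LieClassical

set_option autoImplicit false

namespace Cfsg.Agent.Lib.Helper75.SPPFLD2b

open Matrix Cfsg.Geo

variable {n : ℕ} {F : Type*} [Field F] [Fintype F]

theorem two_eq_zero_of_not_odd (hq : ¬ Odd (Fintype.card F)) : (2 : F) = 0 := by
  obtain ⟨p, hp⟩ := CharP.exists F
  obtain ⟨k, hpk, hcard⟩ := FiniteField.card F p
  have hev : Even (Fintype.card F) := Nat.not_odd_iff_even.mp hq
  rw [hcard] at hev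
  have hp2 : p = 2 := by
    have := (Nat.even_pow.mp hev).1
    exact (Nat.Prime.even_iff hpk).mp this
  subst hp2
  exact_mod_cast CharP.cast_eq_zero F 2

/-- self-adjoint elements of a non-self-adjoint quadratic field subalgebra are scalar -/
theorem selfadj_scalar (f : (Fin n → F) → (Fin n → F) → F)
    (hf : IsSymplecticForm f) (K : Subalgebra F (Matrix (Fin n) (Fin n) F))
    (hK : IsFieldSubalgebra 2 K) (hns : ¬ IsSelfAdjointFor f K)
    (z : Matrix (Fin n) (Fin n) F) (hz : z ∈ K)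
    (hzs : ∀ u v : Fin n → F, f (z *ᵥ u) v = f u (z *ᵥ v)) :
    ∃ c : F, z = c • (1 : Matrix (Fin n) (Fin n) F) := by
  by_contra hcon
  push Not at hcon
  apply hns
  have hb := hf.bilinear
  -- 1 and z are linearly independent in K
  have hnt : Nontrivial K := by
    apply Module.nontrivial_of_finrank_pos (R := F)
    rw [hK.finrank_eq]; norm_num
  have hli : LinearIndependent F ![(1 : K), (⟨z, hz⟩ : K)] := by
    rw [LinearIndependent.pair_iff]
    intro s t hst
    have ht : t = 0 := by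
      by_contra ht
      apply hcon (-(t⁻¹ * s))
      have h1 := congrArg (fun x : K => (x : Matrix (Fin n) (Fin n) F)) hst
      simp only [Subalgebra.coe_add, Subalgebra.coe_smul, Subalgebra.coe_one,
        Subalgebra.coe_zero] at h1
      have h2 : t • z = -(s • (1 : Matrix (Fin n) (Fin n) F)) := by
        rw [eq_neg_iff_add_eq_zero, add_comm]; exact h1
      have h3 : z = t⁻¹ • (t • z) := by rw [smul_smul, inv_mul_cancel₀ ht, one_smul]
      rw [h3, h2, smul_neg, smul_smul, neg_smul]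
    refine ⟨?_, ht⟩
    rw [ht, zero_smul, add_zero] at hst
    by_contra hs
    have h3 : (1 : K) = s⁻¹ • (s • (1 : K)) := by rw [smul_smul, inv_mul_cancel₀ hs, one_smul]
    rw [hst, smul_zero] at h3
    exact one_ne_zero h3
  have hspan := hli.span_eq_top_of_card_eq_finrank' (by
    rw [hK.finrank_eq]; simp)
  intro k hk u v
  have hmem : (⟨k, hk⟩ : K) ∈ Submodule.span F (Set.range ![(1 : K), (⟨z, hz⟩ : K)]) := by
    rw [hspan]; exact Submodule.mem_top
  rw [Matrix.range_cons_cons_empty] at hmem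
  obtain ⟨a, b, hab⟩ := Submodule.mem_span_pair.mp hmem
  have h1 := congrArg (fun x : K => (x : Matrix (Fin n) (Fin n) F)) hab
  simp only [Subalgebra.coe_add, Subalgebra.coe_smul, Subalgebra.coe_one] at h1
  rw [← h1]
  rw [Matrix.add_mulVec, Matrix.add_mulVec, Matrix.smul_mulVec, Matrix.smul_mulVec,
    Matrix.smul_mulVec, Matrix.smul_mulVec, Matrix.one_mulVec, Matrix.one_mulVec,
    hb.add_left, hb.add_right, hb.smul_left, hb.smul_left, hb.smul_right, hb.smul_right, hzs]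

/-- FLD2b: in characteristic 2 the isometries normalising an adjoint-closed, not self-adjoint field
subalgebra of degree 2 fix a quadratic form with polar form `f`. -/
theorem FLD2b (hq : ¬ Odd (Fintype.card F)) (f : (Fin n → F) → (Fin n → F) → F)
    (hf : IsSymplecticForm f) (K : Subalgebra F (Matrix (Fin n) (Fin n) F))
    (hK : IsFieldSubalgebra 2 K) (hadj : IsAdjointClosedFor f K) (hns : ¬ IsSelfAdjointFor f K)
    (H : Subgroup (GL (Fin n) F)) (hfix : FixesForm (matrixSet H) f)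
    (hHK : H ≤ subalgebraNormalizer K) :
    ∃ Q : (Fin n → F) → F, IsNondegenerateQuadraticForm Q ∧
      (∀ u v : Fin n → F, QuadraticMap.polar Q u v = f u v) ∧ H ≤ quadSimilarityGroup Q := by
  have hb := hf.bilinear
  have h2 : (2 : F) = 0 := two_eq_zero_of_not_odd hq
  have hnegF : ∀ a : F, -a = a := by
    intro a
    rw [neg_eq_iff_add_eq_zero, ← two_mul, h2, zero_mul]
  have hnegM : ∀ M : Matrix (Fin n) (Fin n) F, -M = M := by
    intro M
    rw [neg_eq_iff_add_eq_zero, ← two_smul F M, h2, zero_smul]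
  -- a non-self-adjoint element and its adjoint
  have hns' := hns
  unfold IsSelfAdjointFor at hns'
  push Not at hns'
  obtain ⟨k, hk, u₀, v₀, hkuv⟩ := hns'
  obtain ⟨k', hk', hkk'⟩ := hadj k hk
  -- adjoint of k' is k
  have hk'k : ∀ u v, f (k' *ᵥ u) v = f u (k *ᵥ v) := by
    intro u v
    rw [hf.skew, ← hkk', hf.skew, neg_neg]
  -- e = k + k' is self-adjoint and non-zero
  have he0 : k + k' ≠ 0 := by
    intro h0
    have : k' = k := by
      have h1 : k' = -k := by rw [eq_neg_iff_add_eq_zero, add_comm]; exact h0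
      rw [h1, hnegM]
    apply hkuv
    rw [hkk', this]
  have heK : k + k' ∈ K := K.add_mem hk hk'
  have hes : ∀ u v, f ((k + k') *ᵥ u) v = f u ((k + k') *ᵥ v) := by
    intro u v
    rw [Matrix.add_mulVec, Matrix.add_mulVec, hb.add_left, hb.add_right, hkk', hk'k, add_comm]
  obtain ⟨y, hyK, hey⟩ := hK.inv (k + k') heK he0
  -- y is self-adjoint
  have hys : ∀ u v, f (y *ᵥ u) v = f u (y *ᵥ v) := by
    intro u v
    have h1 : f (y *ᵥ u) v = f (y *ᵥ u) ((k + k') *ᵥ (y *ᵥ v)) := by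
      rw [Matrix.mulVec_mulVec, hey, Matrix.one_mulVec]
    rw [h1, ← hes, Matrix.mulVec_mulVec, hey, Matrix.one_mulVec]
  -- ω and its adjoint ω'
  obtain ⟨ω, hω⟩ : ∃ ω, ω = k * y := ⟨_, rfl⟩
  obtain ⟨ω', hω'⟩ : ∃ ω', ω' = y * k' := ⟨_, rfl⟩
  have hωK : ω ∈ K := by rw [hω]; exact K.mul_mem hk hyK
  have hω'K : ω' ∈ K := by rw [hω']; exact K.mul_mem hyK hk'
  have hsum : ω + ω' = 1 := by
    rw [hω, hω', hK.comm y hyK k' hk', ← add_mul, hey]
  have hωadj : ∀ u v, f (ω *ᵥ u) v = f u (ω' *ᵥ v) := by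
    intro u v
    rw [hω, hω', ← Matrix.mulVec_mulVec, hkk', hys, Matrix.mulVec_mulVec]
  have hω'adj : ∀ u v, f (ω' *ᵥ u) v = f u (ω *ᵥ v) := by
    intro u v
    rw [hf.skew, ← hωadj, hf.skew, neg_neg]
  refine ⟨fun v => f (ω *ᵥ v) v, ?_⟩
  have hpolar : ∀ u v : Fin n → F,
      QuadraticMap.polar (fun v => f (ω *ᵥ v) v) u v = f u v := by
    intro u v
    unfold QuadraticMap.polar
    have h1 : f (ω *ᵥ v) u = f (ω' *ᵥ u) v := by
      rw [hω'adj, hf.skew, hnegF]
    have h3 : f (ω *ᵥ u) v + f (ω' *ᵥ u) v = f u v := by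
      rw [← hb.add_left, ← Matrix.add_mulVec, hsum, Matrix.one_mulVec]
    show f (ω *ᵥ (u + v)) (u + v) - f (ω *ᵥ u) u - f (ω *ᵥ v) v = f u v
    rw [Matrix.mulVec_add, hb.add_left, hb.add_right, hb.add_right, h1, ← h3]
    ring
  have hpf : QuadraticMap.polar (fun v => f (ω *ᵥ v) v) = f := by
    funext u v
    exact hpolar u v
  refine ⟨⟨?_, ?_, ?_⟩, hpolar, ?_⟩
  · intro c v
    show f (ω *ᵥ (c • v)) (c • v) = c ^ 2 * f (ω *ᵥ v) v
    rw [Matrix.mulVec_smul, hb.smul_left, hb.smul_right]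
    ring
  · rw [hpf]; exact hb
  · rw [hpf]; exact hf.nondegenerate
  · intro h hh
    refine ⟨1, fun v => ?_⟩
    show f (ω *ᵥ ((h : Matrix (Fin n) (Fin n) F) *ᵥ v)) ((h : Matrix (Fin n) (Fin n) F) *ᵥ v) =
      ((1 : Fˣ) : F) * f (ω *ᵥ v) v
    rw [Units.val_one, one_mul]
    obtain ⟨g, hg⟩ : ∃ g : Matrix (Fin n) (Fin n) F, g = (h : Matrix (Fin n) (Fin n) F) :=
      ⟨_, rfl⟩
    obtain ⟨gi, hgi⟩ : ∃ gi : Matrix (Fin n) (Fin n) F,
      gi = ((h⁻¹ : GL (Fin n) F) : Matrix (Fin n) (Fin n) F) := ⟨_, rfl⟩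
    have hggi : g * gi = 1 := by rw [hg, hgi]; exact Units.mul_inv h
    have hgig : gi * g = 1 := by rw [hg, hgi]; exact Units.inv_mul h
    have hiso : ∀ u v, f (g *ᵥ u) (g *ᵥ v) = f u v := by
      intro u v
      rw [hg]
      exact hfix _ ⟨h, hh, rfl⟩ u v
    have hmemK : ∀ x ∈ K, gi * x * g ∈ K := by
      intro x hx
      have h1 : x ∈ K ↔ ((h⁻¹ : GL (Fin n) F) : Matrix (Fin n) (Fin n) F) * x *
          (((h⁻¹)⁻¹ : GL (Fin n) F) : Matrix (Fin n) (Fin n) F) ∈ K :=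
        hHK (H.inv_mem hh) x
      rw [inv_inv] at h1
      rw [hg, hgi]
      exact h1.mp hx
    rw [← hg]
    -- ω₁ and ω₁'
    have h1K := hmemK ω hωK
    have h1'K := hmemK ω' hω'K
    have h1adj : ∀ u v, f ((gi * ω * g) *ᵥ u) v = f u ((gi * ω' * g) *ᵥ v) := by
      intro u v
      have e1 : g *ᵥ ((gi * ω * g) *ᵥ u) = ω *ᵥ (g *ᵥ u) := by
        rw [Matrix.mulVec_mulVec, Matrix.mulVec_mulVec, ← mul_assoc, ← mul_assoc, hggi, one_mul]
      have e2 : g *ᵥ ((gi * ω' * g) *ᵥ v) = ω' *ᵥ (g *ᵥ v) := by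
        rw [Matrix.mulVec_mulVec, Matrix.mulVec_mulVec, ← mul_assoc, ← mul_assoc, hggi, one_mul]
      rw [← hiso ((gi * ω * g) *ᵥ u) v, e1, hωadj, ← e2, hiso]
    have h1sum : gi * ω * g + gi * ω' * g = 1 := by
      rw [← add_mul, ← mul_add, hsum, mul_one, hgig]
    -- z = ω₁ + ω is self-adjoint
    have hzK : gi * ω * g + ω ∈ K := K.add_mem h1K hωK
    have hz' : gi * ω' * g + ω' = gi * ω * g + ω := by
      have e1 : (gi * ω' * g + ω') + (gi * ω * g + ω) = 0 := by
        have : (gi * ω' * g + ω') + (gi * ω * g + ω) =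
            (gi * ω * g + gi * ω' * g) + (ω + ω') := by abel
        rw [this, h1sum, hsum, ← two_smul F (1 : Matrix (Fin n) (Fin n) F), h2, zero_smul]
      have e2 : gi * ω' * g + ω' = -(gi * ω * g + ω) := eq_neg_of_add_eq_zero_left e1
      rw [e2, hnegM]
    have hzs : ∀ u v, f ((gi * ω * g + ω) *ᵥ u) v = f u ((gi * ω * g + ω) *ᵥ v) := by
      intro u v
      have e1 : f ((gi * ω * g + ω) *ᵥ u) v = f u ((gi * ω' * g + ω') *ᵥ v) := by
        rw [Matrix.add_mulVec, Matrix.add_mulVec, hb.add_left, hb.add_right, h1adj, hωadj]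
      rw [e1, hz']
    obtain ⟨c, hc⟩ := selfadj_scalar f hf K hK hns _ hzK hzs
    -- conclude
    have hω1 : gi * ω * g = c • (1 : Matrix (Fin n) (Fin n) F) + ω := by
      have e1 : gi * ω * g = c • (1 : Matrix (Fin n) (Fin n) F) + -ω := by
        rw [← hc]; abel
      rw [e1, hnegM]
    have e3 : ω *ᵥ (g *ᵥ v) = g *ᵥ ((gi * ω * g) *ᵥ v) := by
      rw [Matrix.mulVec_mulVec, Matrix.mulVec_mulVec, ← mul_assoc, ← mul_assoc, hggi, one_mul]
    rw [e3, hiso, hω1, Matrix.add_mulVec, Matrix.smul_mulVec, Matrix.one_mulVec, hb.add_left,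
      hb.smul_left, hf.alternating, mul_zero, zero_add]

end Cfsg.Agent.Lib.Helper75.SPPFLD2b
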