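import Mathlib
import Cfsg.Prelude.Def_GeometricClasses
import Cfsg.Prelude.Def_LieClassical

set_option autoImplicit false

namespace Cfsg.Agent.Lib.Helper75.SPPTS2

open Matrix Cfsg.Geo

variable {n : ℕ} {F : Type*} [Field F] [Fintype F]

variable {κ : Type} [Fintype κ] [DecidableEq κ]

/-- transport of vectors: `v ↦ v ∘ e.symm` -/
def tv (e : κ ≃ Fin n) : (κ → F) ≃ₗ[F] (Fin n → F) := LinearEquiv.funCongrLeft F F e.symm

/-- the transported two-argument form on `Fin n → F` -/
def tf (e : κ ≃ Fin n) (f : (κ → F) → (κ → F) → F) : (Fin n → F) → (Fin n → F) → F :=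
  fun u v => f (u ∘ e) (v ∘ e)

/-- the transported subspace -/
def tW (e : κ ≃ Fin n) (W' : Submodule F (Fin n → F)) : Submodule F (κ → F) :=
  W'.comap (tv e).toLinearMap

omit [Fintype F] [Fintype κ] [DecidableEq κ] in
theorem ts2_tv_apply (e : κ ≃ Fin n) (x : κ → F) : tv e x = x ∘ e.symm := rfl

omit [Fintype F] [Fintype κ] [DecidableEq κ] in
theorem ts2_tf_tv (e : κ ≃ Fin n) (f : (κ → F) → (κ → F) → F) (x y : κ → F) :
    tf e f (tv e x) (tv e y) = f x y := by
  unfold tf
  rw [ts2_tv_apply, ts2_tv_apply]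
  congr 1
  · funext a
    simp
  · funext a
    simp

omit [Fintype F] in
theorem ts2_mulVec (e : κ ≃ Fin n) (g : GL κ F) (x : κ → F) :
    tv e (g.1 *ᵥ x) = (glReindex e g).1 *ᵥ (tv e x) := by
  have h1 : (glReindex e g).1 = g.1.submatrix e.symm e.symm := rfl
  rw [h1, ts2_tv_apply, ts2_tv_apply, Matrix.submatrix_mulVec_equiv]
  congr 2
  funext a
  simp

omit [Fintype F] [Fintype κ] [DecidableEq κ] in
theorem ts2_mem_tW (e : κ ≃ Fin n) (W' : Submodule F (Fin n → F)) (x : κ → F) :
    x ∈ tW e W' ↔ tv e x ∈ W' := Iff.rfl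

omit [Fintype F] [Fintype κ] [DecidableEq κ] in
theorem ts2_decomp (e : κ ≃ Fin n) {t m : ℕ} (D' : Fin t → Submodule F (Fin n → F))
    (hdec : IsMDecomposition m D') : IsMDecomposition m (fun i => tW e (D' i)) := by
  refine ⟨hdec.two_le, hdec.pos, ?_, ?_, ?_⟩
  · intro i
    rw [← hdec.finrank_eq i]
    exact LinearEquiv.finrank_eq ((tv (F := F) e).ofSubmodule' (D' i))
  · have h1 := hdec.indep.map_orderIso (Submodule.orderIsoMapComap (tv (F := F) e)).symm
    exact h1
  · have h1 : (⨆ i, tW e (D' i)) =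
        (Submodule.orderIsoMapComap (tv (F := F) e)).symm (⨆ i, D' i) := by
      rw [OrderIso.map_iSup]
      rfl
    show (⨆ i, tW e (D' i)) = ⊤
    rw [h1, hdec.iSup_eq_top, OrderIso.map_top]

/-- TS2 -/
theorem TS2 (e : κ ≃ Fin n) (f : (κ → F) → (κ → F) → F) (H : Subgroup (GL κ F)) {t m : ℕ}
    (D' : Fin t → Submodule F (Fin n → F)) :
    (H.map (glReindex e).toMonoidHom ≤ decompositionStabilizer D' →
      H ≤ decompositionStabilizer (fun i => tW e (D' i))) ∧
    (IsMDecomposition m D' → IsMDecomposition m (fun i => tW e (D' i))) ∧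
    (IsNondegenerateMDecomposition (tf e f) m D' →
      IsNondegenerateMDecomposition f m (fun i => tW e (D' i))) := by
  refine ⟨?_, ?_, ?_⟩
  · intro hle g hg
    have hmem : (glReindex e) g ∈ decompositionStabilizer D' :=
      hle (Subgroup.mem_map_of_mem _ hg)
    obtain ⟨σ, hσ⟩ := hmem
    refine ⟨σ, fun i => ?_⟩
    ext y
    show y ∈ (tW e (D' i)).map (Matrix.toLin' g.1) ↔ y ∈ tW e (D' (σ i))
    rw [ts2_mem_tW, ← hσ i, Submodule.mem_map, Submodule.mem_map]
    constructor
    · rintro ⟨x, hx, rfl⟩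
      refine ⟨tv e x, hx, ?_⟩
      rw [Matrix.toLin'_apply, Matrix.toLin'_apply, ts2_mulVec]
    · rintro ⟨x', hx', hxy⟩
      refine ⟨(tv e).symm x', ?_, ?_⟩
      · rw [ts2_mem_tW, LinearEquiv.apply_symm_apply]
        exact hx'
      · apply (tv (F := F) e).injective
        rw [Matrix.toLin'_apply, ts2_mulVec, LinearEquiv.apply_symm_apply, ← hxy,
          Matrix.toLin'_apply]
  · exact ts2_decomp e D'
  · intro hND
    refine ⟨ts2_decomp e D' hND.decomp, ?_, ?_⟩
    · intro i w hw hw0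
      have hw0' : tv e w ≠ 0 := by
        intro h
        apply hw0
        apply (tv (F := F) e).injective
        rw [h, map_zero]
      obtain ⟨⟨x', hx', hne⟩, ⟨y', hy', hne'⟩⟩ := hND.nondegenerate i (tv e w) hw hw0'
      refine ⟨⟨(tv e).symm x', ?_, ?_⟩, ⟨(tv e).symm y', ?_, ?_⟩⟩
      · rw [ts2_mem_tW, LinearEquiv.apply_symm_apply]
        exact hx'
      · rw [← ts2_tf_tv e f, LinearEquiv.apply_symm_apply]
        exact hne
      · rw [ts2_mem_tW, LinearEquiv.apply_symm_apply]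
        exact hy'
      · rw [← ts2_tf_tv e f, LinearEquiv.apply_symm_apply]
        exact hne'
    · intro i j hij u hu v hv
      rw [← ts2_tf_tv e f]
      exact hND.orthogonal i j hij (tv e u) hu (tv e v) hv

end Cfsg.Agent.Lib.Helper75.SPPTS2
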