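import Mathlib
import Cfsg.Agent.Lib.Helper22.BFDefs

/-!
# S4503 project (helper22), piece COSETS

If `2 |E| + 1 < p` there are three nonzero residues `a b c` such that `z ^ a`, `z ^ b`, `z ^ c`
are pairwise non-conjugate.
-/

set_option autoImplicit false

namespace Cfsg.Agent.Lib.Helper75.BFT

open Cfsg Cfsg.Agent.Lib.Helper22.BFD
open scoped ComplexConjugate

universe u

section

variable {G : Type u} [Group G] [Fintype G]

omit [Fintype G] in
theorem bfc_pow_val_mul (p : ℕ) [Fact p.Prime] (z : G) (hzp : z ^ p = 1) (a b : ZMod p) :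
    (z ^ a.val) ^ b.val = z ^ (a * b).val := by
  rw [← pow_mul, ZMod.val_mul, ← pow_eq_pow_mod _ hzp]

theorem bfc_ratio_mem (p : ℕ) [Fact p.Prime] (z : G) (hzp : z ^ p = 1) (u u' : ZMod p)
    (hu : u ≠ 0) (h : IsConj (z ^ u.val) (z ^ u'.val)) : u' * u⁻¹ ∈ Ef p z := by
  classical
  unfold Ef
  rw [Finset.mem_filter]
  refine ⟨Finset.mem_univ _, ?_⟩
  obtain ⟨g, hg⟩ := isConj_iff.1 h
  have h1 : (z ^ u'.val) ^ (u⁻¹).val = g * (z ^ u.val) ^ (u⁻¹).val * g⁻¹ := by
    rw [← hg, conj_pow]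
  rw [bfc_pow_val_mul p z hzp, bfc_pow_val_mul p z hzp, mul_inv_cancel₀ hu, ZMod.val_one,
    pow_one] at h1
  rw [h1]
  exact (isConj_iff.2 ⟨g, rfl⟩).symm

/-- PIECE COSETS -/
theorem three_classes (p : ℕ) [Fact p.Prime] (z : G) (hz : orderOf z = p)
    (hf : 2 * (Ef p z).card + 1 < p) :
    ∃ a b c : ZMod p, a ≠ 0 ∧ b ≠ 0 ∧ c ≠ 0 ∧ ¬ IsConj (z ^ a.val) (z ^ b.val) ∧
      ¬ IsConj (z ^ b.val) (z ^ c.val) ∧ ¬ IsConj (z ^ a.val) (z ^ c.val) := by
  classical
  have hzp : z ^ p = 1 := by rw [← hz]; exact pow_orderOf_eq_one z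
  let cls : ZMod p → Finset (ZMod p) := fun u =>
    Finset.univ.filter (fun u' => IsConj (z ^ u.val) (z ^ u'.val))
  have hcls : ∀ u : ZMod p, u ≠ 0 → (cls u).card ≤ (Ef p z).card := by
    intro u hu
    have hsub : cls u ⊆ (Ef p z).image (fun k => k * u) := by
      intro u' hu'
      rw [Finset.mem_filter] at hu'
      rw [Finset.mem_image]
      exact ⟨u' * u⁻¹, bfc_ratio_mem p z hzp u u' hu hu'.2, by
        rw [mul_assoc, inv_mul_cancel₀ hu, mul_one]⟩
    exact (Finset.card_le_card hsub).trans Finset.card_image_le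
  have hcard : (Finset.univ : Finset (ZMod p)).card = p := by rw [Finset.card_univ, ZMod.card]
  have h1 : (1 : ZMod p) ≠ 0 := one_ne_zero
  have hb : ∃ b : ZMod p, b ∉ insert 0 (cls 1) := by
    by_contra hcon
    push Not at hcon
    have h0 : (Finset.univ : Finset (ZMod p)) ⊆ insert 0 (cls 1) := fun b _ => hcon b
    have h0' := Finset.card_le_card h0
    rw [hcard] at h0'
    have h2 := Finset.card_insert_le (0 : ZMod p) (cls 1)
    have h3 := hcls 1 h1
    omega
  obtain ⟨b, hb⟩ := hb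
  rw [Finset.mem_insert, not_or] at hb
  have hc : ∃ c : ZMod p, c ∉ insert 0 (cls 1 ∪ cls b) := by
    by_contra hcon
    push Not at hcon
    have h0 : (Finset.univ : Finset (ZMod p)) ⊆ insert 0 (cls 1 ∪ cls b) := fun c _ => hcon c
    have h0' := Finset.card_le_card h0
    rw [hcard] at h0'
    have h2 := Finset.card_insert_le (0 : ZMod p) (cls 1 ∪ cls b)
    have h3 := hcls 1 h1
    have h4 := hcls b hb.1
    have h5 := Finset.card_union_le (cls 1) (cls b)
    omega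
  obtain ⟨c, hc⟩ := hc
  rw [Finset.mem_insert, not_or, Finset.mem_union, not_or] at hc
  refine ⟨1, b, c, h1, hb.1, hc.1, ?_, ?_, ?_⟩
  · intro h
    exact hb.2 (Finset.mem_filter.2 ⟨Finset.mem_univ _, h⟩)
  · intro h
    exact hc.2.2 (Finset.mem_filter.2 ⟨Finset.mem_univ _, h⟩)
  · intro h
    exact hc.2.1 (Finset.mem_filter.2 ⟨Finset.mem_univ _, h⟩)

end

end Cfsg.Agent.Lib.Helper75.BFT
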