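import Mathlib
import Cfsg.Agent.Lib.Helper22.BFDefs
import Cfsg.Agent.Lib.Helper4.CharDecomp
import Cfsg.Agent.Lib.Helper83.IrrBasic

/-!
# S4503 project (helper22), piece PAIR
-/

set_option autoImplicit false
set_option maxHeartbeats 800000

namespace Cfsg.Agent.Lib.Helper75.BFT

open Cfsg Cfsg.Agent.Lib.Helper22.BFD
open scoped ComplexConjugate

universe u

section

variable {G : Type u} [Group G] [Fintype G]

/-- PIECE PAIR -/
theorem pair_step (p : ℕ) [Fact p.Prime] (z : G) (hz : orderOf z = p) (χ : IrrCharacter G)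
    (htri : ∀ φ : IrrCharacter G, Tri p z φ.1)
    (hpos : ∀ φ : IrrCharacter G, ∃ m : ℕ, sP p z φ.1 = (m : ℂ))
    (hfix : ∀ φ : IrrCharacter G, sP p z φ.1 = 0 →
      ∑ t : ZMod p, ∑ y ∈ Kf p z, φ.1 (z ^ t.val * y) = 0)
    (Ξ : G → ℂ) (hΞ : IsCharacter G Ξ) (a b : ZMod p)
    (hΞv : ∀ t : ZMod p, ∀ y ∈ Kf p z,
      Ξ (z ^ t.val * y) = χ.1 (z ^ (a * t).val * y) * conj (χ.1 (z ^ (b * t).val * y)))
    (h0 : ∑ t : ZMod p, χ.1 (z ^ (a * t).val) * conj (χ.1 (z ^ (b * t).val)) = 0) :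
    (∃ ψ : IrrCharacter G, Small p z ψ.1) ∨
    (∃ F : ℝ, 0 < F ∧
      ∑ y ∈ Kf p z, χ.1 (z ^ a.val * y) * conj (χ.1 (z ^ b.val * y)) = -(F : ℂ)) := by
  classical
  have : Finite (IrrCharacter G) := Cfsg.Agent.Lib.Helper83.irr_finite
  let _ : Fintype (IrrCharacter G) := Fintype.ofFinite _
  by_cases hsmall : ∃ ψ : IrrCharacter G, Small p z ψ.1
  · exact Or.inl hsmall
  right
  have hp : p.Prime := Fact.out
  have h1K : (1 : G) ∈ Kf p z := by
    unfold Kf
    rw [Finset.mem_filter]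
    refine ⟨Finset.mem_univ _, by rw [one_mul, mul_one], ?_⟩
    rw [orderOf_one]
    exact fun h => hp.one_lt.ne' (Nat.dvd_one.1 h)
  -- `sP Ξ = 0`
  have hsPΞ : sP p z Ξ = 0 := by
    unfold sP
    rw [← h0]
    refine Finset.sum_congr rfl (fun t _ => ?_)
    have := hΞv t 1 h1K
    simpa only [mul_one] using this
  obtain ⟨m, hm⟩ := Cfsg.Agent.Lib.Helper4.exists_decomp_of_isCharacter Ξ hΞ
  have hΞg : ∀ g : G, Ξ g = ∑ φ : IrrCharacter G, (m φ : ℂ) * φ.1 g := by
    intro g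
    have := congrFun hm g
    simpa only [Finset.sum_apply, Pi.smul_apply, smul_eq_mul] using this
  choose n hn using hpos
  have hsum : ∑ φ : IrrCharacter G, m φ * n φ = 0 := by
    have h1 : sP p z Ξ = ∑ φ : IrrCharacter G, ((m φ * n φ : ℕ) : ℂ) := by
      unfold sP
      simp_rw [hΞg]
      rw [Finset.sum_comm]
      refine Finset.sum_congr rfl (fun φ _ => ?_)
      rw [← Finset.mul_sum]
      have := hn φ
      unfold sP at this
      rw [this]
      push_cast
      ring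
    rw [hsPΞ] at h1
    have h2 : ((∑ φ : IrrCharacter G, m φ * n φ : ℕ) : ℂ) = 0 := by
      rw [Nat.cast_sum]; exact h1.symm
    exact_mod_cast h2
  have hmn : ∀ φ : IrrCharacter G, m φ ≠ 0 → sP p z φ.1 = 0 := by
    intro φ hmφ
    have h1 := (Finset.sum_eq_zero_iff.1 hsum) φ (Finset.mem_univ _)
    rcases Nat.mul_eq_zero.1 h1 with h | h
    · exact (hmφ h).elim
    · rw [hn φ, h, Nat.cast_zero]
  have hcardE : ((Finset.univ : Finset (ZMod p)).erase 0).card = p - 1 := by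
    rw [Finset.card_erase_of_mem (Finset.mem_univ _), Finset.card_univ, ZMod.card]
  have hne : ∀ t ∈ (Finset.univ : Finset (ZMod p)).erase 0, t ≠ 0 :=
    fun t ht => Finset.ne_of_mem_erase ht
  have h1ne : (1 : ZMod p) ≠ 0 := one_ne_zero
  have hp1 : ((p - 1 : ℕ) : ℂ) = (p : ℂ) - 1 := by
    rw [Nat.cast_sub hp.one_lt.le, Nat.cast_one]
  -- the key dichotomy for a constituent
  have hkey : ∀ φ : IrrCharacter G, sP p z φ.1 = 0 →
      ∃ c : ℕ, ∑ y ∈ Kf p z, φ.1 (z ^ (1 : ZMod p).val * y) =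
          -((c : ℂ) * ((Kf p z).card : ℂ)) ∧
        ∑ y ∈ Kf p z, φ.1 (z ^ (0 : ZMod p).val * y) =
          (c : ℂ) * ((p : ℂ) - 1) * ((Kf p z).card : ℂ) := by
    intro φ hs
    obtain ⟨hdpos, hd1⟩ := Cfsg.Agent.Lib.Helper83.irr_degree φ.2
    have htot := hfix φ hs
    have hsplit : ∑ y ∈ Kf p z, φ.1 (z ^ (0 : ZMod p).val * y) +
        ∑ t ∈ (Finset.univ : Finset (ZMod p)).erase 0, ∑ y ∈ Kf p z, φ.1 (z ^ t.val * y) = 0 :=
      (Finset.add_sum_erase Finset.univ (fun t : ZMod p => ∑ y ∈ Kf p z, φ.1 (z ^ t.val * y))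
        (Finset.mem_univ 0)).trans htot
    have hsPsplit : φ.1 1 + ∑ t ∈ (Finset.univ : Finset (ZMod p)).erase 0, φ.1 (z ^ t.val) = 0 := by
      have h := Finset.add_sum_erase Finset.univ (fun t : ZMod p => φ.1 (z ^ t.val))
        (Finset.mem_univ 0)
      simp only [ZMod.val_zero, pow_zero] at h
      rw [h]
      exact hs
    rcases htri φ with hflat | ⟨ε, hε, hεv⟩ | ⟨hK, hsv⟩
    · -- flat
      refine ⟨0, ?_, ?_⟩
      · rw [hflat 1 h1ne]; simp
      · have h3 : ∑ t ∈ (Finset.univ : Finset (ZMod p)).erase 0,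
            ∑ y ∈ Kf p z, φ.1 (z ^ t.val * y) = 0 :=
          Finset.sum_eq_zero (fun t ht => hflat t (hne t ht))
        rw [h3, add_zero] at hsplit
        rw [hsplit]; simp
    · -- constant `ε`
      have hsum1 : ∑ t ∈ (Finset.univ : Finset (ZMod p)).erase 0, φ.1 (z ^ t.val) =
          ((p - 1 : ℕ) : ℂ) * ε := by
        have hval : ∀ t ∈ (Finset.univ : Finset (ZMod p)).erase 0, φ.1 (z ^ t.val) = ε := by
          intro t ht
          have h4 := hεv t (hne t ht) 1 h1K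
          rw [mul_one] at h4
          exact h4
        rw [Finset.sum_congr rfl hval, Finset.sum_const, hcardE, nsmul_eq_mul]
      rw [hsum1, hd1] at hsPsplit
      have hεm : ε = -1 := by
        rcases hε with h | h
        · exfalso
          rw [h, mul_one] at hsPsplit
          have h5 : ((charDegree φ.1 + (p - 1) : ℕ) : ℂ) = 0 := by
            push_cast; exact hsPsplit
          have h6 : charDegree φ.1 + (p - 1) = 0 := by exact_mod_cast h5
          omega
        · exact h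
      have hT : ∀ t : ZMod p, t ≠ 0 →
          ∑ y ∈ Kf p z, φ.1 (z ^ t.val * y) = -((Kf p z).card : ℂ) := by
        intro t ht
        rw [Finset.sum_congr rfl (fun y hy => hεv t ht y hy), Finset.sum_const, hεm,
          nsmul_eq_mul]
        ring
      refine ⟨1, ?_, ?_⟩
      · rw [hT 1 h1ne, Nat.cast_one, one_mul]
      · rw [Finset.sum_congr rfl (fun t ht => hT t (hne t ht)), Finset.sum_const, hcardE,
          nsmul_eq_mul, hp1] at hsplit
        rw [Nat.cast_one, one_mul]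
        linear_combination hsplit
    · -- small
      exfalso
      apply hsmall
      have hf : φ.1 1 = ((Ef p z).card : ℂ) := by
        rcases hsv with h | h
        · exfalso
          rw [hs, hd1] at h
          have h5 : ((charDegree φ.1 + (Ef p z).card : ℕ) : ℂ) = 0 := by
            push_cast; exact h.symm
          have h6 : charDegree φ.1 + (Ef p z).card = 0 := by exact_mod_cast h5
          omega
        · rw [hs] at h
          linear_combination -h
      refine ⟨φ, hf, hs, ?_⟩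
      have hT : ∀ t ∈ (Finset.univ : Finset (ZMod p)).erase 0,
          ∑ y ∈ Kf p z, φ.1 (z ^ t.val * y) = ((Kf p z).card : ℂ) * φ.1 (z ^ t.val) := by
        intro t ht
        rw [Finset.sum_congr rfl (fun y hy => hK t (hne t ht) y hy), Finset.sum_const,
          nsmul_eq_mul]
      rw [Finset.sum_congr rfl hT, ← Finset.mul_sum] at hsplit
      have hsumK : ∑ y ∈ Kf p z, φ.1 y = ((Kf p z).card : ℂ) * φ.1 1 := by
        have e0 : ∑ y ∈ Kf p z, φ.1 (z ^ (0 : ZMod p).val * y) = ∑ y ∈ Kf p z, φ.1 y := by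
          refine Finset.sum_congr rfl (fun y _ => ?_)
          rw [ZMod.val_zero, pow_zero, one_mul]
        rw [e0] at hsplit
        linear_combination hsplit - ((Kf p z).card : ℂ) * hsPsplit
      have hre_sum : ∑ y ∈ Kf p z, ((charDegree φ.1 : ℝ) - (φ.1 y).re) = 0 := by
        have h2 := congrArg Complex.re hsumK
        rw [Complex.re_sum, hd1] at h2
        have h3 : (((Kf p z).card : ℂ) * (charDegree φ.1 : ℂ)).re =
            ((Kf p z).card : ℝ) * (charDegree φ.1 : ℝ) := by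
          simp
        rw [h3] at h2
        rw [Finset.sum_sub_distrib, h2, Finset.sum_const, nsmul_eq_mul]
        ring
      have hnn : ∀ y ∈ Kf p z, 0 ≤ (charDegree φ.1 : ℝ) - (φ.1 y).re := by
        intro y _
        have h1 := Cfsg.Agent.Lib.Helper83.irr_norm_le φ.2 y
        have h2 := Complex.re_le_norm (φ.1 y)
        linarith
      have hzero := (Finset.sum_eq_zero_iff_of_nonneg hnn).1 hre_sum
      intro y hy
      have hnorm := Cfsg.Agent.Lib.Helper83.irr_norm_le φ.2 y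
      have hre : (φ.1 y).re = (charDegree φ.1 : ℝ) := by linarith [hzero y hy]
      have hsq : ‖φ.1 y‖ ^ 2 = (φ.1 y).re * (φ.1 y).re + (φ.1 y).im * (φ.1 y).im := by
        rw [Complex.sq_norm, Complex.normSq_apply]
      have him : (φ.1 y).im = 0 := by
        have h3 : ‖φ.1 y‖ ^ 2 ≤ (charDegree φ.1 : ℝ) ^ 2 :=
          pow_le_pow_left₀ (norm_nonneg _) hnorm 2
        rw [hsq, hre] at h3
        nlinarith [sq_nonneg (φ.1 y).im]
      rw [hd1]
      apply Complex.ext
      · rw [hre]; simp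
      · rw [him]; simp
  have hkey' : ∀ φ : IrrCharacter G, ∃ c : ℕ, m φ ≠ 0 →
      (∑ y ∈ Kf p z, φ.1 (z ^ (1 : ZMod p).val * y) = -((c : ℂ) * ((Kf p z).card : ℂ)) ∧
        ∑ y ∈ Kf p z, φ.1 (z ^ (0 : ZMod p).val * y) =
          (c : ℂ) * ((p : ℂ) - 1) * ((Kf p z).card : ℂ)) := by
    intro φ
    by_cases hmφ : m φ = 0
    · exact ⟨0, fun h => (h hmφ).elim⟩
    · obtain ⟨c, hc⟩ := hkey φ (hmn φ hmφ)
      exact ⟨c, fun _ => hc⟩
  choose c hc using hkey'
  have hS1 : ∑ y ∈ Kf p z, Ξ (z ^ (1 : ZMod p).val * y) =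
      -(((∑ φ : IrrCharacter G, m φ * c φ : ℕ) : ℂ) * ((Kf p z).card : ℂ)) := by
    simp_rw [hΞg]
    rw [Finset.sum_comm]
    simp_rw [← Finset.mul_sum]
    rw [Nat.cast_sum, Finset.sum_mul, ← Finset.sum_neg_distrib]
    refine Finset.sum_congr rfl (fun φ _ => ?_)
    by_cases hmφ : m φ = 0
    · simp [hmφ]
    · rw [(hc φ hmφ).1]; push_cast; ring
  have hS0 : ∑ y ∈ Kf p z, Ξ (z ^ (0 : ZMod p).val * y) =
      ((∑ φ : IrrCharacter G, m φ * c φ : ℕ) : ℂ) * ((p : ℂ) - 1) * ((Kf p z).card : ℂ) := by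
    simp_rw [hΞg]
    rw [Finset.sum_comm]
    simp_rw [← Finset.mul_sum]
    rw [Nat.cast_sum, Finset.sum_mul, Finset.sum_mul]
    refine Finset.sum_congr rfl (fun φ _ => ?_)
    by_cases hmφ : m φ = 0
    · simp [hmφ]
    · rw [(hc φ hmφ).2]; push_cast; ring
  have hS0' : ∑ y ∈ Kf p z, Ξ (z ^ (0 : ZMod p).val * y) =
      ((∑ y ∈ Kf p z, Complex.normSq (χ.1 y) : ℝ) : ℂ) := by
    rw [Complex.ofReal_sum]
    refine Finset.sum_congr rfl (fun y hy => ?_)
    rw [hΞv 0 y hy, mul_zero, mul_zero, ZMod.val_zero, pow_zero, one_mul, Complex.mul_conj]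
  have hχ1 : 0 < Complex.normSq (χ.1 1) := by
    obtain ⟨hdpos, hd1⟩ := Cfsg.Agent.Lib.Helper83.irr_degree χ.2
    rw [Complex.normSq_pos, hd1]
    exact_mod_cast hdpos.ne'
  have hpos' : 0 < ∑ y ∈ Kf p z, Complex.normSq (χ.1 y) :=
    lt_of_lt_of_le hχ1 (Finset.single_le_sum (f := fun y => Complex.normSq (χ.1 y))
      (fun y _ => Complex.normSq_nonneg _) h1K)
  obtain ⟨F0, hF0⟩ : ∃ F0 : ℕ, F0 = ∑ φ : IrrCharacter G, m φ * c φ := ⟨_, rfl⟩
  rw [← hF0] at hS1 hS0
  have hreal : (∑ y ∈ Kf p z, Complex.normSq (χ.1 y) : ℝ) =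
      (F0 : ℝ) * ((p : ℝ) - 1) * ((Kf p z).card : ℝ) := by
    apply Complex.ofReal_injective
    rw [← hS0', hS0]
    push_cast
    ring
  have hF0pos : 0 < F0 := by
    rcases Nat.eq_zero_or_pos F0 with h | h
    · rw [hreal, h] at hpos'
      simp at hpos'
    · exact h
  have hKpos : 0 < (Kf p z).card := Finset.card_pos.2 ⟨1, h1K⟩
  refine ⟨(F0 : ℝ) * ((Kf p z).card : ℝ),
    mul_pos (by exact_mod_cast hF0pos) (by exact_mod_cast hKpos), ?_⟩
  have hS1' : ∑ y ∈ Kf p z, Ξ (z ^ (1 : ZMod p).val * y) =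
      ∑ y ∈ Kf p z, χ.1 (z ^ a.val * y) * conj (χ.1 (z ^ b.val * y)) := by
    refine Finset.sum_congr rfl (fun y hy => ?_)
    rw [hΞv 1 y hy, mul_one, mul_one]
  rw [← hS1', hS1]
  push_cast
  ring

end

end Cfsg.Agent.Lib.Helper75.BFT
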