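import Mathlib
import Cfsg.Agent.Lib.Helper70.D11Defs

/-!
# S0679, piece TRANS: transport from `Fin 11` with `c0 ∈ G` to a general type with 11 elements
-/

set_option autoImplicit false

namespace Cfsg.Agent.Lib.Helper75.D11

open Equiv Cfsg.Agent.Lib.Helper70.D11

/-- relabelling: a permutation of order 11 on 11 points is conjugate to `x ↦ x + 1`. -/
private theorem h75_relabel {α : Type*} [Fintype α] [DecidableEq α] (hα : Fintype.card α = 11)
    (c : Perm α) (hc : orderOf c = 11) :
    ∃ e : α ≃ Fin 11, ∀ j : Fin 11, e (c (e.symm j)) = j + 1 := by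
  classical
  have hp : (Fintype.card α).Prime := by rw [hα]; norm_num
  have hcyc : c.IsCycle := Equiv.Perm.isCycle_of_prime_order'' hp (by rw [hc, hα])
  have hsupp : c.support.card = 11 := by rw [← hcyc.orderOf, hc]
  have hsupp' : c.support = Finset.univ := Finset.eq_univ_of_card _ (by rw [hsupp, hα])
  have hne : Nonempty α := Fintype.card_pos_iff.1 (by rw [hα]; norm_num)
  obtain ⟨a⟩ := hne
  have ha : c a ≠ a := by
    have : a ∈ c.support := by rw [hsupp']; exact Finset.mem_univ a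
    exact Equiv.Perm.mem_support.1 this
  have hc11 : c ^ 11 = 1 := by rw [← hc]; exact pow_orderOf_eq_one c
  have key : ∀ i j : Fin 11, (i : ℕ) ≤ j → (c ^ (i : ℕ)) a = (c ^ (j : ℕ)) a → i = j := by
    intro i j hij h
    have h1 : (c ^ ((j : ℕ) - i)) a = a := by
      have h0 : c ^ (j : ℕ) = c ^ (i : ℕ) * c ^ ((j : ℕ) - i) := by
        rw [← pow_add]
        congr 1
        omega
      have h2 : (c ^ (i : ℕ)) ((c ^ ((j : ℕ) - i)) a) = (c ^ (i : ℕ)) a := by
        rw [← Equiv.Perm.mul_apply, ← h0]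
        exact h.symm
      exact (c ^ (i : ℕ)).injective h2
    have h2 : c ^ ((j : ℕ) - i) = 1 := (hcyc.pow_eq_one_iff' ha).2 h1
    have h3 : 11 ∣ (j : ℕ) - i := by
      have h4 := orderOf_dvd_of_pow_eq_one h2
      rwa [hc] at h4
    apply Fin.ext
    have hi := i.2
    have hj := j.2
    omega
  have hf : Function.Injective (fun j : Fin 11 => (c ^ (j : ℕ)) a) := by
    intro i j h
    rcases le_total (i : ℕ) j with hij | hij
    · exact key i j hij h
    · exact (key j i hij h.symm).symm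
  have hbij : Function.Bijective (fun j : Fin 11 => (c ^ (j : ℕ)) a) := by
    rw [Fintype.bijective_iff_injective_and_card]
    exact ⟨hf, by rw [Fintype.card_fin, hα]⟩
  refine ⟨(Equiv.ofBijective _ hbij).symm, fun j => ?_⟩
  rw [Equiv.symm_symm, Equiv.symm_apply_eq]
  show c ((c ^ (j : ℕ)) a) = (c ^ ((j + 1 : Fin 11) : ℕ)) a
  rw [← Equiv.Perm.mul_apply, ← pow_succ']
  by_cases hj : (j : ℕ) + 1 < 11
  · have h1 : ((j + 1 : Fin 11) : ℕ) = (j : ℕ) + 1 := by
      rw [Fin.val_add]
      have : ((1 : Fin 11) : ℕ) = 1 := rfl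
      rw [this]
      exact Nat.mod_eq_of_lt hj
    rw [h1]
  · have hj10 : (j : ℕ) = 10 := by
      have := j.2
      omega
    have h1 : ((j + 1 : Fin 11) : ℕ) = 0 := by
      rw [Fin.val_add, hj10]
      rfl
    rw [h1, hj10, pow_zero, hc11]

theorem s0679_of_fin
    (main : ∀ G : Subgroup P11, c0 ∈ G → ¬ Group.IsSolvable G → ¬ alternatingGroup (Fin 11) ≤ G →
      (MulAction.IsMultiplyPretransitive G (Fin 11) 4 ∧
        ∀ x : Fin 4 ↪ Fin 11, MulAction.stabilizer G x = ⊥) ∨
      Nonempty (G ≃* Matrix.ProjectiveSpecialLinearGroup (Fin 2) (ZMod 11)))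
    {α : Type*} [Fintype α] [DecidableEq α] (hα : Fintype.card α = 11) (G : Subgroup (Equiv.Perm α))
    [MulAction.IsPretransitive G α] (hG : ¬ Group.IsSolvable G) (hA : ¬ alternatingGroup α ≤ G) :
    (MulAction.IsMultiplyPretransitive G α 4 ∧ ∀ x : Fin 4 ↪ α, MulAction.stabilizer G x = ⊥) ∨
      Nonempty (G ≃* Matrix.ProjectiveSpecialLinearGroup (Fin 2) (ZMod 11)) := by
  classical
  have : Fact (Nat.Prime 11) := ⟨by norm_num⟩
  have hne : Nonempty α := Fintype.card_pos_iff.1 (by rw [hα]; norm_num)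
  obtain ⟨a⟩ := hne
  have hdvd : 11 ∣ Nat.card G := by
    have h1 := MulAction.index_stabilizer_of_transitive G a
    rw [Nat.card_eq_fintype_card, hα] at h1
    rw [← h1]
    exact Subgroup.index_dvd_card _
  obtain ⟨c, hc⟩ := exists_prime_orderOf_dvd_card' 11 hdvd
  have hc' : orderOf (c : Perm α) = 11 := by
    rw [Subgroup.orderOf_coe]
    exact hc
  obtain ⟨e, he⟩ := h75_relabel hα (c : Perm α) hc'
  obtain ⟨φ, hφ⟩ : ∃ φ : Perm α ≃* Perm (Fin 11), ∀ (g : Perm α) (j : Fin 11),
      φ g j = e (g (e.symm j)) := ⟨e.permCongrHom, fun g j => rfl⟩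
  have hφsign : ∀ g : Perm α, Equiv.Perm.sign (φ g) = Equiv.Perm.sign g := by
    intro g
    have h1 : φ g = e.permCongr g := by
      ext j
      rw [hφ]
      rfl
    rw [h1, Equiv.Perm.sign_permCongr]
  have hφc : φ (c : Perm α) = c0 := by
    ext j
    rw [hφ, he]
    rfl
  have hc0 : c0 ∈ G.map φ.toMonoidHom := ⟨c, c.2, hφc⟩
  have hsolv : ¬ Group.IsSolvable (G.map φ.toMonoidHom) := by
    intro h
    apply hG
    exact @Group.isSolvable_of_isSolvable_injective _ _ _ _ (φ.subgroupMap G).toMonoidHom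
      (φ.subgroupMap G).injective h
  have halt : ¬ alternatingGroup (Fin 11) ≤ G.map φ.toMonoidHom := by
    intro h
    apply hA
    intro σ hσ
    have h1 : φ σ ∈ alternatingGroup (Fin 11) := by
      rw [Equiv.Perm.mem_alternatingGroup] at hσ ⊢
      rw [hφsign]
      exact hσ
    obtain ⟨τ, hτ, hτσ⟩ := h h1
    have h2 : τ = σ := φ.injective hτσ
    rw [← h2]
    exact hτ
  rcases main (G.map φ.toMonoidHom) hc0 hsolv halt with ⟨h4, hst⟩ | ⟨⟨iso⟩⟩
  · left
    constructor
    · refine ⟨fun x y => ?_⟩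
      obtain ⟨g', hg'⟩ := h4.exists_smul_eq (x.trans e.toEmbedding) (y.trans e.toEmbedding)
      obtain ⟨g, hg, hgg'⟩ := g'.2
      refine ⟨⟨g, hg⟩, ?_⟩
      ext i
      have h1 := DFunLike.congr_fun hg' i
      rw [Function.Embedding.smul_apply] at h1 ⊢
      have h2 : (g' : Perm (Fin 11)) (e (x i)) = e (y i) := h1
      have h3 : (g' : Perm (Fin 11)) = φ g := hgg'.symm
      rw [h3, hφ, Equiv.symm_apply_apply] at h2
      exact e.injective h2
    · intro x
      rw [eq_bot_iff]
      intro g hg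
      rw [MulAction.mem_stabilizer_iff] at hg
      have h1 : (⟨φ (g : Perm α), (g : Perm α), g.2, rfl⟩ : G.map φ.toMonoidHom) ∈
          MulAction.stabilizer (G.map φ.toMonoidHom) (x.trans e.toEmbedding) := by
        rw [MulAction.mem_stabilizer_iff]
        refine DFunLike.ext _ _ (fun i => ?_)
        have h2 := DFunLike.congr_fun hg i
        have h3 : (g : Perm α) (x i) = x i := h2
        show φ (g : Perm α) (e (x i)) = e (x i)
        rw [hφ, Equiv.symm_apply_apply, h3]
      rw [hst] at h1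
      have h2 : φ (g : Perm α) = 1 := congrArg Subtype.val (Subgroup.mem_bot.1 h1)
      have h3 : (g : Perm α) = 1 := φ.injective (h2.trans (map_one φ).symm)
      exact Subgroup.mem_bot.2 (Subtype.ext h3)
  · right
    exact ⟨(φ.subgroupMap G).trans iso⟩

end Cfsg.Agent.Lib.Helper75.D11
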