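import Mathlib
import Cfsg.Agent.Lib.Helper97.FCDefs
import Cfsg.Agent.Lib.Helper88.GrpSyl

/-!
S5115 project FC, piece SYLINF (helper75 for helper97): `S ⊓ Y` is a maximal `p`-subgroup of `Y`
when `Y` is normalized by a subgroup `N` containing `S` and `Y`.
-/

set_option autoImplicit false

namespace Cfsg.Agent.Lib.Helper75.FC

open Cfsg.Agent.Lib.Helper97.FC

universe u

theorem fc_sylinf : SylInfStmt.{u} := by
  intro G _ _ p _ S Y N hS hSN hYN hNY D hDY hD hle
  obtain ⟨R, rfl⟩ := hS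
  obtain ⟨g, hgN, hg⟩ :=
    Cfsg.Agent.Lib.Helper88.exists_conj_le_sylow_in R N hSN D hD (hDY.trans hYN)
  have hgY : g ∈ Subgroup.normalizer (Y : Set G) := hNY hgN
  have hmem : ∀ t ∈ D, g * t * g⁻¹ ∈ ((R : Subgroup G) ⊓ Y : Subgroup G) := by
    intro t ht
    exact Subgroup.mem_inf.mpr ⟨hg t ht, (Subgroup.mem_normalizer_iff.mp hgY t).mp (hDY ht)⟩
  have hcard : Nat.card D ≤ Nat.card ((R : Subgroup G) ⊓ Y : Subgroup G) := by
    apply Nat.card_le_card_of_injective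
      (fun t : D => (⟨g * t.1 * g⁻¹, hmem t.1 t.2⟩ : ((R : Subgroup G) ⊓ Y : Subgroup G)))
    intro a b hab
    have h1 : g * a.1 * g⁻¹ = g * b.1 * g⁻¹ := congrArg Subtype.val hab
    apply Subtype.ext
    have h2 : a.1 = g⁻¹ * (g * a.1 * g⁻¹) * g := by group
    rw [h2, h1]
    group
  exact (Subgroup.eq_of_le_of_card_ge hle hcard).symm

end Cfsg.Agent.Lib.Helper75.FC
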