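import Mathlib
import Cfsg.Agent.Lib.Helper51.GGMain
import Cfsg.Agent.Lib.Helper54.OrthInnMinus
import Cfsg.Agent.Lib.Helper54.OrthLagMinus
import Cfsg.Agent.Lib.Helper53.OddFB
import Cfsg.Agent.Lib.Helper30.GGQEXT0
import Cfsg.Agent.Lib.Helper8.GGUNIV

/-!
# S2719 piece GM-QEXT (helper75 for helper53)

A similarity `G` of the minus-type form `QMinus m F a b` with non-square multiplier `μ` and
`G * G = μ` has a vector `u` with `Q u = 1` orthogonal to `G u`.  Minus-type twin of helper30's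
`GGQEXT` (same proof through the quadratic extension `F(√μ)`).
-/

set_option autoImplicit false
set_option linter.style.haveILetI false

namespace Cfsg.Agent.Lib.Helper75.GMQEXT

open Matrix Polynomial Cfsg Cfsg.Agent.Lib.Helper51

/-- The abstract form of the statement: `K ⊇ F` generated by a square root `c` of `μ`. -/
theorem main_abs_minus {F : Type*} [Field F] {K : Type*} [Field K]
    (e : F →+* K) (c : K) (μ : F) (hc : c ^ 2 = e μ)
    (hdec : ∀ z : K, ∃ x y : F, z = e x + c * e y) (hμ : ¬ IsSquare μ)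
    (h2 : (2 : F) ≠ 0) {m : ℕ} (a b : F)
    (G : Matrix ((Fin m ⊕ Fin m) ⊕ Fin 2) ((Fin m ⊕ Fin m) ⊕ Fin 2) F)
    (hGG : G * G = μ • (1 : Matrix ((Fin m ⊕ Fin m) ⊕ Fin 2) ((Fin m ⊕ Fin m) ⊕ Fin 2) F))
    (hG : ∀ v, QMinus m F a b (G *ᵥ v) = μ * QMinus m F a b v)
    (huniv : ∀ J : Matrix ((Fin m ⊕ Fin m) ⊕ Fin 2) ((Fin m ⊕ Fin m) ⊕ Fin 2) K, J * J = 1 →
      (∀ v, QMinus m K (e a) (e b) (J *ᵥ v) = QMinus m K (e a) (e b) v) → J ≠ 1 → J ≠ -1 →
      ∃ ε : K, (ε = 1 ∨ ε = -1) ∧ ∀ t : K, t ≠ 0 →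
        ∃ w : (Fin m ⊕ Fin m) ⊕ Fin 2 → K, J *ᵥ w = ε • w ∧ QMinus m K (e a) (e b) w = t) :
    ∃ u : (Fin m ⊕ Fin m) ⊕ Fin 2 → F, QMinus m F a b u = 1 ∧
      QuadraticMap.polar ⇑(QMinus m F a b) u (G *ᵥ u) = 0 := by
  classical
  have hinj : Function.Injective e := e.injective
  have hμ0 : μ ≠ 0 := by
    rintro rfl
    exact hμ ⟨0, by simp⟩
  have h2K : (2 : K) ≠ 0 := by
    intro h
    apply h2
    apply hinj
    rw [map_ofNat, map_zero]
    exact h
  have heμ : e μ ≠ 0 := (map_ne_zero e).mpr hμ0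
  have hc0 : c ≠ 0 := by
    intro h
    rw [h] at hc
    apply heμ
    rw [← hc]
    simp
  have hind : ∀ c' : K, c' ^ 2 = e μ → ∀ x y : F, e x + c' * e y = 0 → x = 0 ∧ y = 0 := by
    intro c' hc' x y h
    by_cases hy : y = 0
    · subst hy
      rw [map_zero, mul_zero, add_zero] at h
      exact ⟨hinj (by rw [h, map_zero]), rfl⟩
    · exfalso
      apply hμ
      refine ⟨-x / y, ?_⟩
      apply hinj
      have hey : e y ≠ 0 := (map_ne_zero e).mpr hy
      have hcc : c' = e (-x / y) := by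
        rw [map_div₀, map_neg, eq_div_iff hey]
        linear_combination h
      rw [map_mul, ← hcc, ← hc', pow_two]
  have hdiag : ∀ s : K, s ^ 2 = e μ → ∀ g : F, e g ≠ s := by
    intro s hs g hg
    apply hμ
    refine ⟨g, ?_⟩
    apply hinj
    rw [map_mul, hg, ← hs, pow_two]
  set GK : Matrix ((Fin m ⊕ Fin m) ⊕ Fin 2) ((Fin m ⊕ Fin m) ⊕ Fin 2) K := G.map e with hGK
  have hGKGK : GK * GK =
      (e μ) • (1 : Matrix ((Fin m ⊕ Fin m) ⊕ Fin 2) ((Fin m ⊕ Fin m) ⊕ Fin 2) K) := by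
    rw [hGK, ← Matrix.map_mul, hGG]
    ext i j
    by_cases hij : i = j
    · subst hij
      simp [Matrix.map_apply, Matrix.smul_apply]
    · simp [Matrix.map_apply, Matrix.smul_apply, Matrix.one_apply_ne hij]
  have hsimK : ∀ w, QMinus m K (e a) (e b) (GK *ᵥ w) = e μ * QMinus m K (e a) (e b) w := by
    rw [Cfsg.Agent.Lib.Helper53.OddF.sim_iff_gram _ h2K]
    have h1 := (Cfsg.Agent.Lib.Helper53.OddF.sim_iff_gram (QMinus m F a b) h2 G μ).mp hG
    rw [Cfsg.Agent.Lib.Helper54.gram_QMinus_map e a b]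
    have h3 := congrArg
      (fun A : Matrix ((Fin m ⊕ Fin m) ⊕ Fin 2) ((Fin m ⊕ Fin m) ⊕ Fin 2) F => A.map e) h1
    beta_reduce at h3
    rw [Matrix.map_mul, Matrix.map_mul, Matrix.transpose_map] at h3
    have hsm : (μ • gram (QMinus m F a b)).map e = e μ • (gram (QMinus m F a b)).map e := by
      ext x y
      simp [Matrix.map_apply, Matrix.smul_apply]
    rw [hsm] at h3
    exact h3
  set J : Matrix ((Fin m ⊕ Fin m) ⊕ Fin 2) ((Fin m ⊕ Fin m) ⊕ Fin 2) K := c⁻¹ • GK with hJ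
  have hJJ : J * J = 1 := by
    rw [hJ, Matrix.smul_mul, Matrix.mul_smul, hGKGK, smul_smul, smul_smul, ← hc]
    have : c⁻¹ * c⁻¹ * c ^ 2 = 1 := by field_simp
    rw [this, one_smul]
  have hJQ : ∀ v, QMinus m K (e a) (e b) (J *ᵥ v) = QMinus m K (e a) (e b) v := by
    intro v
    rw [hJ, Matrix.smul_mulVec, QuadraticMap.map_smul, hsimK, ← hc, smul_eq_mul]
    field_simp
  have hJ1 : J ≠ 1 := by
    intro h
    have h1 := congrFun (congrFun h (Sum.inr 0)) (Sum.inr 0)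
    rw [hJ, Matrix.smul_apply, Matrix.one_apply_eq, hGK, Matrix.map_apply, smul_eq_mul] at h1
    apply hdiag c hc (G (Sum.inr 0) (Sum.inr 0))
    field_simp at h1
    exact h1
  have hJ2 : J ≠ -1 := by
    intro h
    have h1 := congrFun (congrFun h (Sum.inr 0)) (Sum.inr 0)
    rw [hJ, Matrix.smul_apply, Matrix.neg_apply, Matrix.one_apply_eq, hGK, Matrix.map_apply,
      smul_eq_mul] at h1
    apply hdiag (-c) (by rw [neg_sq, hc]) (G (Sum.inr 0) (Sum.inr 0))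
    field_simp at h1
    linear_combination h1
  obtain ⟨ε, hε, hall⟩ := huniv J hJJ hJQ hJ1 hJ2
  obtain ⟨w, hJw, hQw⟩ := hall (2 * e μ) (mul_ne_zero h2K heμ)
  set c' : K := ε * c with hc'
  have hc'2 : c' ^ 2 = e μ := by
    rcases hε with h | h
    · rw [hc', h, one_mul, hc]
    · rw [hc', h, neg_one_mul, neg_sq, hc]
  have hGw : GK *ᵥ w = c' • w := by
    have : GK = c • J := by rw [hJ, smul_smul, mul_inv_cancel₀ hc0, one_smul]
    rw [this, Matrix.smul_mulVec, hJw, smul_smul, hc', mul_comm]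
  have hdec' : ∀ z : K, ∃ x y : F, z = e x + c' * e y := by
    intro z
    obtain ⟨x, y, rfl⟩ := hdec z
    rcases hε with h | h
    · exact ⟨x, y, by rw [hc', h, one_mul]⟩
    · exact ⟨x, -y, by rw [hc', h, map_neg]; ring⟩
  choose u1 u2 hu using fun k => hdec' (w k)
  have hGu : G *ᵥ u2 = u1 := by
    funext k
    have hk := congrFun hGw k
    have hl : (GK *ᵥ w) k = e ((G *ᵥ u1) k) + c' * e ((G *ᵥ u2) k) := by
      simp only [Matrix.mulVec, dotProduct, hGK, Matrix.map_apply, map_sum, map_mul]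
      rw [Finset.mul_sum, ← Finset.sum_add_distrib]
      apply Finset.sum_congr rfl
      intro j _
      rw [hu j]
      ring
    have hr : (c' • w) k = e (μ * u2 k) + c' * e (u1 k) := by
      rw [Pi.smul_apply, smul_eq_mul, hu k, map_mul, ← hc'2]
      ring
    rw [hl, hr] at hk
    have := hind c' hc'2 ((G *ᵥ u1) k - μ * u2 k) ((G *ᵥ u2) k - u1 k)
      (by rw [map_sub, map_sub]; linear_combination hk)
    exact sub_eq_zero.mp this.2
  have hw : ∀ k, w k = e ((G *ᵥ u2) k) + c' * e (u2 k) := by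
    intro k
    rw [hGu]
    exact hu k
  have hQ : QMinus m K (e a) (e b) w = e (2 * μ * QMinus m F a b u2)
      + c' * e (QuadraticMap.polar ⇑(QMinus m F a b) u2 (G *ᵥ u2)) := by
    have hQG := hG u2
    have e1 : (2 : F) * μ * QMinus m F a b u2 =
        QMinus m F a b (G *ᵥ u2) + μ * QMinus m F a b u2 := by
      rw [hQG]
      ring
    rw [e1, polar_QMinus, QMinus_apply, QMinus_apply, QMinus_apply]
    have hS : ∑ i : Fin m, w (Sum.inl (Sum.inl i)) * w (Sum.inl (Sum.inr i)) =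
        e (∑ i : Fin m, (G *ᵥ u2) (Sum.inl (Sum.inl i)) * (G *ᵥ u2) (Sum.inl (Sum.inr i)))
        + e μ * e (∑ i : Fin m, u2 (Sum.inl (Sum.inl i)) * u2 (Sum.inl (Sum.inr i)))
        + c' * e (∑ i : Fin m, (u2 (Sum.inl (Sum.inl i)) * (G *ᵥ u2) (Sum.inl (Sum.inr i))
            + (G *ᵥ u2) (Sum.inl (Sum.inl i)) * u2 (Sum.inl (Sum.inr i)))) := by
      simp only [map_sum, Finset.mul_sum]
      rw [← Finset.sum_add_distrib, ← Finset.sum_add_distrib]
      apply Finset.sum_congr rfl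
      intro i _
      rw [hw (Sum.inl (Sum.inl i)), hw (Sum.inl (Sum.inr i))]
      simp only [map_add, map_mul]
      linear_combination (e (u2 (Sum.inl (Sum.inl i))) * e (u2 (Sum.inl (Sum.inr i)))) * hc'2
    rw [hS, hw (Sum.inr 0), hw (Sum.inr 1)]
    simp only [map_add, map_mul, map_pow, map_ofNat]
    linear_combination (e (u2 (Sum.inr 0)) ^ 2 + e a * e (u2 (Sum.inr 0)) * e (u2 (Sum.inr 1))
      + e b * e (u2 (Sum.inr 1)) ^ 2) * hc'2
  rw [hQw] at hQ
  have h2μ : e (2 * μ) = 2 * e μ := by rw [map_mul, map_ofNat]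
  have hfin := hind c' hc'2 (2 * μ * QMinus m F a b u2 - 2 * μ)
    (QuadraticMap.polar ⇑(QMinus m F a b) u2 (G *ᵥ u2))
    (by rw [map_sub]; linear_combination -hQ - h2μ)
  refine ⟨u2, ?_, hfin.2⟩
  have h3 : 2 * μ * (QMinus m F a b u2 - 1) = 0 := by linear_combination hfin.1
  rcases mul_eq_zero.mp h3 with h | h
  · rcases mul_eq_zero.mp h with h | h
    · exact absurd h h2
    · exact absurd h hμ0
  · exact sub_eq_zero.mp h

theorem exists_unit_orth_minus {F : Type*} [Field F] [Fintype F] (h2 : (2 : F) ≠ 0) {m : ℕ}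
    (hm : 2 ≤ m) (a b : F) (hD : a ^ 2 - 4 * b ≠ 0)
    (G : Matrix ((Fin m ⊕ Fin m) ⊕ Fin 2) ((Fin m ⊕ Fin m) ⊕ Fin 2) F) (μ : F)
    (hμ : ¬ IsSquare μ)
    (hGG : G * G = μ • (1 : Matrix ((Fin m ⊕ Fin m) ⊕ Fin 2) ((Fin m ⊕ Fin m) ⊕ Fin 2) F))
    (hG : ∀ v, QMinus m F a b (G *ᵥ v) = μ * QMinus m F a b v) :
    ∃ u : (Fin m ⊕ Fin m) ⊕ Fin 2 → F, QMinus m F a b u = 1 ∧
      QuadraticMap.polar ⇑(QMinus m F a b) u (G *ᵥ u) = 0 := by
  classical
  have hirr : Irreducible (X ^ 2 - C μ : F[X]) := by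
    apply X_pow_sub_C_irreducible_of_prime Nat.prime_two
    intro b' hb
    exact hμ ⟨b', by rw [← hb, pow_two]⟩
  haveI : Fact (Irreducible (X ^ 2 - C μ : F[X])) := ⟨hirr⟩
  have hmonic : (X ^ 2 - C μ : F[X]).Monic := monic_X_pow_sub_C μ (by norm_num)
  haveI : Module.Finite F (AdjoinRoot (X ^ 2 - C μ : F[X])) :=
    (AdjoinRoot.powerBasis' hmonic).finite
  haveI : Finite (AdjoinRoot (X ^ 2 - C μ : F[X])) := Module.finite_of_finite F
  haveI : Fintype (AdjoinRoot (X ^ 2 - C μ : F[X])) := Fintype.ofFinite _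
  have hc : (AdjoinRoot.root (X ^ 2 - C μ : F[X])) ^ 2
      = AdjoinRoot.of (X ^ 2 - C μ : F[X]) μ := by
    have h := AdjoinRoot.eval₂_root (X ^ 2 - C μ : F[X])
    rw [eval₂_sub, eval₂_X_pow, eval₂_C] at h
    exact sub_eq_zero.mp h
  have h2K : (2 : AdjoinRoot (X ^ 2 - C μ : F[X])) ≠ 0 := by
    intro h
    apply h2
    apply (AdjoinRoot.of (X ^ 2 - C μ : F[X])).injective
    rw [map_ofNat, map_zero]
    exact h
  have hDK : (AdjoinRoot.of (X ^ 2 - C μ : F[X]) a) ^ 2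
      - 4 * AdjoinRoot.of (X ^ 2 - C μ : F[X]) b ≠ 0 := by
    intro h
    apply hD
    apply (AdjoinRoot.of (X ^ 2 - C μ : F[X])).injective
    rw [map_sub, map_pow, map_mul, map_ofNat, map_zero]
    exact h
  refine main_abs_minus (AdjoinRoot.of (X ^ 2 - C μ : F[X]))
    (AdjoinRoot.root (X ^ 2 - C μ : F[X])) μ hc
    (Cfsg.Agent.Lib.Helper30.GGQEXT.adj_decomp μ) hμ h2 a b G hGG hG ?_
  intro J hJJ hJQ hJ1 hJ2
  refine Cfsg.Agent.Lib.Helper8.GGUNIV.univ_eigen h2K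
    (QMinus m (AdjoinRoot (X ^ 2 - C μ : F[X])) (AdjoinRoot.of (X ^ 2 - C μ : F[X]) a)
      (AdjoinRoot.of (X ^ 2 - C μ : F[X]) b))
    (Cfsg.Agent.Lib.Helper54.polarSep_minus' _ _ hDK) ?_ J hJJ hJQ hJ1 hJ2
  rw [Fintype.card_sum, Fintype.card_sum, Fintype.card_fin, Fintype.card_fin]
  omega

end Cfsg.Agent.Lib.Helper75.GMQEXT
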