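import Mathlib
import Cfsg.Agent.Lib.Helper26.Gross2DefsC
import Cfsg.Agent.Lib.Helper26.Gross2Lin3

/-!
# Gross's theorem for `p = 2` (S3795): the second layer (piece L2, helper75 for helper26)

`gross2_l2 : AbwStmt → K2LStmt → Min2InvStmt → DimHomStmt → TowerStmt → L2Stmt`.
-/

set_option autoImplicit false
set_option linter.style.haveILetI false
set_option linter.unusedSectionVars false
set_option linter.unusedVariables false
open scoped commutatorElement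

namespace Cfsg.Agent.Lib.Helper75.Gross2L2

open Cfsg.Agent.Lib.Helper26 Cfsg.Agent.Lib.Helper26.Gross2 Cfsg.Agent.Lib.Helper94.GrossKPAut

universe u

/-- an element of finite order conjugating `Q` into itself normalises `Q` -/
theorem l2_mem_normalizer {Γ : Type u} [Group Γ] (Q : Subgroup Γ) {g : Γ} {m : ℕ} (hm : 0 < m)
    (hg : g ^ m = 1) (hK : ∀ x ∈ Q, g * x * g⁻¹ ∈ Q) :
    g ∈ Subgroup.normalizer (Q : Set Γ) := by
  rw [Subgroup.mem_normalizer_iff]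
  intro x
  constructor
  · exact hK x
  · intro h
    have h1 := gross_inv_conj_mem Q hm hg hK _ h
    have e : g⁻¹ * (g * x * g⁻¹) * g = x := by group
    rwa [e] at h1

/-- the action of the normaliser on additive maps, evaluated -/
theorem l2_lam {Γ : Type u} [Group Γ] (Q : Subgroup Γ) (k : Type) [Field k]
    (g : ↥(Subgroup.normalizer (Q : Set Γ))) (f : ↥(addMaps ↥Q k)) (x x' : ↥Q)
    (h : (x' : Γ) = (g : Γ)⁻¹ * x * (g : Γ)) :
    (((lam Q k g : (Module.End k ↥(addMaps ↥Q k))ˣ) : Module.End k ↥(addMaps ↥Q k)) f).1 x =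
      f.1 x' := by
  rw [lam_apply]
  have e : ((conjQ Q g)⁻¹ : MulAut ↥Q) x = x' :=
    Subtype.ext (by rw [conjQ_inv_apply Q g x]; exact h.symm)
  rw [e]

/-- the kernel of an additive map, as a subgroup -/
def l2_kerSub {N : Type u} [Group N] {k : Type} [Field k] (f : ↥(addMaps N k)) : Subgroup N where
  carrier := {x | f.1 x = 0}
  mul_mem' := by
    intro a b ha hb
    have ha' : f.1 a = 0 := ha
    have hb' : f.1 b = 0 := hb
    show f.1 (a * b) = 0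
    rw [addMaps_mul, ha', hb', add_zero]
  one_mem' := addMaps_one f
  inv_mem' := by
    intro a ha
    have ha' : f.1 a = 0 := ha
    show f.1 a⁻¹ = 0
    rw [addMaps_inv, ha', neg_zero]

theorem l2_mem_kerSub {N : Type u} [Group N] {k : Type} [Field k] (f : ↥(addMaps N k)) (x : N) :
    x ∈ l2_kerSub f ↔ f.1 x = 0 := Iff.rfl

/-- a finite field of characteristic `q` with a primitive `M₀`-th root of unity -/
theorem l2_field (q M₀ : ℕ) [Fact q.Prime] (hM0 : 0 < M₀) (hcop : Nat.Coprime q M₀) :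
    ∃ m : ℕ, GrossDat (GaloisField q m) M₀ := by
  have hq : q.Prime := Fact.out
  obtain ⟨m, hm⟩ : ∃ m : ℕ, m = Nat.totient M₀ := ⟨_, rfl⟩
  have hmpos : 0 < m := by
    rw [hm]
    exact Nat.totient_pos.mpr hM0
  have hdvd : M₀ ∣ q ^ m - 1 := by
    have h1 : q ^ m ≡ 1 [MOD M₀] := by
      rw [hm]
      exact Nat.ModEq.pow_totient hcop
    exact (Nat.modEq_iff_dvd' (Nat.one_le_pow _ _ hq.pos)).mp h1.symm
  have hcardk : Nat.card (GaloisField q m) = q ^ m := GaloisField.card q m hmpos.ne'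
  have hroot : ∃ ζ : GaloisField q m, IsPrimitiveRoot ζ M₀ := by
    obtain ⟨g, hg⟩ := IsCyclic.exists_generator (α := (GaloisField q m)ˣ)
    have hog : orderOf g = q ^ m - 1 := by
      rw [orderOf_eq_card_of_forall_mem_zpowers hg, Nat.card_units, hcardk]
    obtain ⟨c, hc⟩ := hdvd
    have hc0 : c ≠ 0 := by
      rintro rfl
      have h2 : 2 ≤ q ^ m := by
        calc 2 ≤ q := hq.two_le
          _ = q ^ 1 := (pow_one q).symm
          _ ≤ q ^ m := Nat.pow_le_pow_right hq.pos hmpos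
      omega
    refine ⟨((g ^ c : (GaloisField q m)ˣ) : GaloisField q m), ?_⟩
    rw [IsPrimitiveRoot.coe_units_iff]
    have h3 : orderOf (g ^ c) = M₀ := by
      rw [orderOf_pow_of_dvd hc0 (by rw [hog, hc]; exact dvd_mul_left _ _), hog, hc,
        Nat.mul_div_cancel _ (Nat.pos_of_ne_zero hc0)]
    rw [← h3]
    exact IsPrimitiveRoot.orderOf _
  exact ⟨m,
    { hM0 := hM0
      hcop := by
        rw [hcardk]
        exact (Nat.Coprime.pow_left m hcop).symm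
      hroot := hroot }⟩

/-- the second layer over a given coefficient field -/
theorem l2_core (hAbw : AbwStmt.{u}) (hK2L : K2LStmt.{u}) (hMin : Min2InvStmt.{u})
    (hDim : DimHomStmt.{u}) (hTower : TowerStmt.{u})
    {Γ : Type u} [Group Γ] {q s n : ℕ} {Q S : Subgroup Γ} {φ : Γ} (hT : GrossTMin q s n Q S φ)
    (h1 : ∀ x ∈ Q, ∀ y ∈ Q, ∀ w ∈ Q, ⁅x, y⁆ * w = w * ⁅x, y⁆)
    (h2 : ∀ x ∈ Q, ∀ w ∈ Q, x ^ q * w = w * x ^ q)
    (h4 : ∀ x ∈ Q, x ∈ Subgroup.closure {c | ∃ u ∈ Q, ∃ y ∈ S, u⁻¹ * (y * u * y⁻¹) = c})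
    (h5 : ∀ y ∈ S, ∀ z ∈ Q, (∀ w ∈ Q, z * w = w * z) → y * z = z * y)
    (R : Subgroup Γ) (hRQ : R ≤ Q) (hZR : ∀ z ∈ Q, (∀ w ∈ Q, z * w = w * z) → z ∈ R)
    (hSR : ∀ y ∈ S, ∀ x ∈ R, y * x * y⁻¹ ∈ R)
    (hψR : ∀ x ∈ R, φ ^ 2 ^ n * x * (φ ^ 2 ^ n)⁻¹ ∈ R)
    (d e : ℕ) (hcQ : Nat.card Q = q ^ d * Nat.card R)
    (hcD : Nat.card ↥(R ⊔ Subgroup.closure
      {c | ∃ x ∈ Q, x⁻¹ * (φ ^ 2 ^ n * x * (φ ^ 2 ^ n)⁻¹) = c}) = q ^ e * Nat.card R)
    (k : Type) [Field k] [Finite k] [Fact q.Prime] [Algebra (ZMod q) k] (M₀ : ℕ)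
    (hM₀ : M₀ = Nat.card S * 2 ^ (n + 1)) (hD : GrossDat k M₀) :
    2 * s * e = (s + 1) * d := by
  have tow := hT.tow
  haveI := tow.hfinQ
  haveI := tow.hfinS
  have hq := tow.hq
  have hs := tow.hs
  haveI : Finite ↥R := Finite.of_injective (Subgroup.inclusion hRQ) (Subgroup.inclusion_injective hRQ)
  have hφN : φ ∈ Subgroup.normalizer (Q : Set Γ) :=
    l2_mem_normalizer Q (pow_pos (by norm_num) (n + 1)) tow.hφ tow.hnormQ
  have hypow : ∀ y ∈ S, y ^ Nat.card S = 1 := by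
    intro y hy
    have h := pow_card_eq_one' (G := ↥S) (x := ⟨y, hy⟩)
    have h' := congrArg Subtype.val h
    rw [Subgroup.coe_pow, Subgroup.coe_one] at h'
    exact h'
  have hSN : S ≤ Subgroup.normalizer (Q : Set Γ) := fun y hy =>
    l2_mem_normalizer Q Nat.card_pos (hypow y hy) (tow.hSQ y hy)
  obtain ⟨hmin, hCV, hSfix⟩ := hTower Γ q s n Q S φ hT h1 h2 h4 h5 k hφN hSN
  obtain ⟨S'', hS''⟩ : ∃ S'' : Subgroup (Module.End k ↥(addMaps ↥Q k))ˣ,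
      S'' = (S.subgroupOf (Subgroup.normalizer (Q : Set Γ))).map (lam Q k) := ⟨_, rfl⟩
  obtain ⟨φ'', hφ''⟩ : ∃ φ'' : (Module.End k ↥(addMaps ↥Q k))ˣ, φ'' = lam Q k ⟨φ, hφN⟩ :=
    ⟨_, rfl⟩
  rw [← hS'', ← hφ''] at hmin
  rw [← hφ''] at hCV
  have hmemS'' : ∀ x ∈ S'', ∃ y, ∃ hy : y ∈ S, x = lam Q k ⟨y, hSN hy⟩ := by
    intro x hx
    rw [hS''] at hx
    obtain ⟨g, hg, rfl⟩ := hx
    exact ⟨g.1, Subgroup.mem_subgroupOf.mp hg, rfl⟩
  have hS''mem : ∀ y (hy : y ∈ S), lam Q k ⟨y, hSN hy⟩ ∈ S'' := by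
    intro y hy
    rw [hS'']
    exact ⟨⟨y, hSN hy⟩, Subgroup.mem_subgroupOf.mpr hy, rfl⟩
  -- cardinalities
  have hcS'' : Nat.card S'' ∣ Nat.card S := by
    rw [hS'']
    have e1 : Nat.card (S.subgroupOf (Subgroup.normalizer (Q : Set Γ))) = Nat.card S :=
      Nat.card_congr (Subgroup.subgroupOfEquivOfLe hSN).toEquiv
    rw [← e1]
    exact Subgroup.card_map_dvd _ _
  have hcS''M : Nat.card S'' ∣ M₀ := by
    rw [hM₀]
    exact hcS''.trans (dvd_mul_right _ _)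
  have hcS''M2 : Nat.card S'' * 2 ^ (n + 1) ∣ M₀ := by
    rw [hM₀]
    exact Nat.mul_dvd_mul_right hcS'' _
  haveI : Finite (Module.End k ↥(addMaps ↥Q k))ˣ := gross_finite_units
  -- `S''` is not abelian
  have hnab : ∃ x ∈ S'', ∃ y ∈ S'', x * y ≠ y * x := by
    by_contra hcon
    push Not at hcon
    exact hmin.hnot (gross2_ab_of_abw hAbw hD S'' φ'' hcS''M hmin.hφ hmin.hnorm hCV hcon)
  have hInv : GrossInv s n S'' φ'' := hMin _ s n S'' φ'' hmin hnab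
  -- no commutative action on invariant subspaces
  have hNC : ∀ U : Submodule k ↥(addMaps ↥Q k), U ≠ ⊥ →
      (∀ x ∈ S'', ∀ u ∈ U, (x : Module.End k ↥(addMaps ↥Q k)) u ∈ U) →
      ¬ ∀ x ∈ S'', ∀ y ∈ S'', ∀ u ∈ U,
        (x : Module.End k ↥(addMaps ↥Q k)) ((y : Module.End k ↥(addMaps ↥Q k)) u) =
          (y : Module.End k ↥(addMaps ↥Q k)) ((x : Module.End k ↥(addMaps ↥Q k)) u) := by
    intro U hU hUinv hcomm
    have habw := hAbw k M₀ n hD _ S'' φ'' hcS''M hmin.hφ hmin.hnorm hCV U hUinv hcomm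
    have hfix : ∀ g ∈ S'', ∀ u ∈ U, (g : Module.End k ↥(addMaps ↥Q k)) u = u := by
      intro g hg
      rw [← hmin.closure_delta] at hg
      induction hg using Subgroup.closure_induction with
      | mem c hc =>
        obtain ⟨y, hy, rfl⟩ := hc
        intro u hu
        have e1 := habw y hy u hu
        rw [Units.val_mul, Module.End.mul_apply, e1, ← Module.End.mul_apply, ← Units.val_mul,
          inv_mul_cancel, Units.val_one, Module.End.one_apply]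
      | one =>
        intro u hu
        rw [Units.val_one, Module.End.one_apply]
      | mul a b _ _ ha hb =>
        intro u hu
        rw [Units.val_mul, Module.End.mul_apply, hb u hu, ha u hu]
      | inv a _ ha =>
        intro u hu
        have h3 := ha u hu
        calc ((a⁻¹ : (Module.End k ↥(addMaps ↥Q k))ˣ) : Module.End k ↥(addMaps ↥Q k)) u
            = ((a⁻¹ : (Module.End k ↥(addMaps ↥Q k))ˣ) : Module.End k ↥(addMaps ↥Q k))
                ((a : Module.End k ↥(addMaps ↥Q k)) u) := by rw [h3]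
          _ = u := by
            rw [← Module.End.mul_apply, ← Units.val_mul, inv_mul_cancel, Units.val_one,
              Module.End.one_apply]
    obtain ⟨u, hu, hu0⟩ := Submodule.exists_mem_ne_zero_of_ne_bot hU
    exact hu0 (hSfix u (fun y hy => hfix _ (hS''mem y hy) u hu))
  have hK := hK2L k M₀ s n hD _ S'' φ'' hInv hcS''M2 hCV hNC
  -- the involution `ψ`
  obtain ⟨ψ, hψ⟩ : ∃ ψ : Γ, ψ = φ ^ 2 ^ n := ⟨_, rfl⟩
  rw [← hψ] at hψR hcD
  have hψ2 : ψ ^ 2 = 1 := by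
    rw [hψ, ← pow_mul, ← pow_succ]
    exact tow.hφ
  have hψQ : ∀ x ∈ Q, ψ * x * ψ⁻¹ ∈ Q := by
    rw [hψ]
    exact gross_pow_conj_mem Q tow.hnormQ (2 ^ n)
  have hψN : ψ ∈ Subgroup.normalizer (Q : Set Γ) :=
    l2_mem_normalizer Q (by norm_num : 0 < 2) hψ2 hψQ
  have hψ'' : φ'' ^ 2 ^ n = lam Q k ⟨ψ, hψN⟩ := by
    rw [hφ'', ← map_pow]
    congr 1
    exact Subtype.ext (by rw [Subgroup.coe_pow]; exact hψ.symm)
  have hψinvQ : ∀ x ∈ Q, ψ⁻¹ * x * ψ ∈ Q :=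
    gross_inv_conj_mem Q (by norm_num : 0 < 2) hψ2 hψQ
  have hψinvR : ∀ x ∈ R, ψ⁻¹ * x * ψ ∈ R :=
    gross_inv_conj_mem R (by norm_num : 0 < 2) hψ2 hψR
  have hSinvR : ∀ y ∈ S, ∀ x ∈ R, y⁻¹ * x * y ∈ R := fun y hy =>
    gross_inv_conj_mem R Nat.card_pos (hypow y hy) (hSR y hy)
  -- the annihilator of `R`
  obtain ⟨Y, hY⟩ : ∃ Y : Submodule k ↥(addMaps ↥Q k), Y = annSub k (R.subgroupOf Q) := ⟨_, rfl⟩
  have hYS : ∀ x ∈ S'', ∀ u ∈ Y, (x : Module.End k ↥(addMaps ↥Q k)) u ∈ Y := by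
    intro x hx f hf
    obtain ⟨y, hy, rfl⟩ := hmemS'' x hx
    rw [hY, mem_annSub] at hf ⊢
    intro z hz
    have hz' : (z : Γ) ∈ R := Subgroup.mem_subgroupOf.mp hz
    have hzR := hSinvR y hy _ hz'
    rw [l2_lam Q k ⟨y, hSN hy⟩ f z ⟨y⁻¹ * z * y, hRQ hzR⟩ rfl]
    exact hf _ (Subgroup.mem_subgroupOf.mpr hzR)
  have hYψ : ∀ u ∈ Y, ((φ'' ^ 2 ^ n : (Module.End k ↥(addMaps ↥Q k))ˣ) :
      Module.End k ↥(addMaps ↥Q k)) u ∈ Y := by
    intro f hf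
    rw [hψ'']
    rw [hY, mem_annSub] at hf ⊢
    intro z hz
    have hz' : (z : Γ) ∈ R := Subgroup.mem_subgroupOf.mp hz
    have hzR := hψinvR _ hz'
    rw [l2_lam Q k ⟨ψ, hψN⟩ f z ⟨ψ⁻¹ * z * ψ, hRQ hzR⟩ rfl]
    exact hf _ (Subgroup.mem_subgroupOf.mpr hzR)
  -- the subgroup `D = [Q, ψ]`
  obtain ⟨D, hDdef⟩ : ∃ D : Subgroup Γ,
      D = Subgroup.closure {c | ∃ x ∈ Q, x⁻¹ * (ψ * x * ψ⁻¹) = c} := ⟨_, rfl⟩
  rw [← hDdef] at hcD
  have hDQ : D ≤ Q := by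
    rw [hDdef, Subgroup.closure_le]
    rintro _ ⟨x, hx, rfl⟩
    exact Q.mul_mem (Q.inv_mem hx) (hψQ x hx)
  have hRDQ : R ⊔ D ≤ Q := sup_le hRQ hDQ
  have hYfix : Y ⊓ LinearMap.ker (((φ'' ^ 2 ^ n : (Module.End k ↥(addMaps ↥Q k))ˣ) :
      Module.End k ↥(addMaps ↥Q k)) - 1) = annSub k ((R ⊔ D).subgroupOf Q) := by
    rw [hψ'']
    ext f
    rw [Submodule.mem_inf, LinearMap.mem_ker, LinearMap.sub_apply, Module.End.one_apply,
      sub_eq_zero, mem_annSub]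
    constructor
    · rintro ⟨hfY, hfix⟩
      rw [hY, mem_annSub] at hfY
      have hfx : ∀ (x x' : ↥Q), (x' : Γ) = ψ⁻¹ * x * ψ → f.1 x' = f.1 x := by
        intro x x' hxx'
        have h3 := l2_lam Q k ⟨ψ, hψN⟩ f x x' hxx'
        rw [hfix] at h3
        exact h3.symm
      have hle : R ⊔ D ≤ (l2_kerSub f).map Q.subtype := by
        refine sup_le ?_ ?_
        · intro x hx
          exact ⟨⟨x, hRQ hx⟩, hfY _ (Subgroup.mem_subgroupOf.mpr hx), rfl⟩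
        · rw [hDdef, Subgroup.closure_le]
          rintro _ ⟨x, hx, rfl⟩
          refine ⟨⟨x⁻¹ * (ψ * x * ψ⁻¹), Q.mul_mem (Q.inv_mem hx) (hψQ x hx)⟩, ?_, rfl⟩
          show f.1 _ = 0
          have e1 : (⟨x⁻¹ * (ψ * x * ψ⁻¹), Q.mul_mem (Q.inv_mem hx) (hψQ x hx)⟩ : ↥Q) =
              (⟨x, hx⟩ : ↥Q)⁻¹ * ⟨ψ * x * ψ⁻¹, hψQ x hx⟩ := rfl
          rw [e1, addMaps_mul, addMaps_inv]
          have e2 := hfx ⟨ψ * x * ψ⁻¹, hψQ x hx⟩ ⟨x, hx⟩
            (by show x = ψ⁻¹ * (ψ * x * ψ⁻¹) * ψ; group)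
          rw [e2]
          ring
      intro z hz
      have hz' : (z : Γ) ∈ R ⊔ D := Subgroup.mem_subgroupOf.mp hz
      obtain ⟨z', hz'k, hz'e⟩ := hle hz'
      have hzz : z' = z := Subtype.ext hz'e
      rw [← hzz]
      exact hz'k
    · intro hf
      refine ⟨?_, ?_⟩
      · rw [hY, mem_annSub]
        intro z hz
        have hz' : (z : Γ) ∈ R := Subgroup.mem_subgroupOf.mp hz
        exact hf z (Subgroup.mem_subgroupOf.mpr ((le_sup_left : R ≤ R ⊔ D) hz'))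
      · apply Subtype.ext
        funext x
        have hx' : ψ⁻¹ * (x : Γ) * ψ ∈ Q := hψinvQ _ x.2
        rw [l2_lam Q k ⟨ψ, hψN⟩ f x ⟨ψ⁻¹ * x * ψ, hx'⟩ rfl]
        have hδ : (⟨ψ⁻¹ * x * ψ, hx'⟩ : ↥Q)⁻¹ * x ∈ (R ⊔ D).subgroupOf Q := by
          rw [Subgroup.mem_subgroupOf]
          apply (le_sup_right : D ≤ R ⊔ D)
          rw [hDdef]
          apply Subgroup.subset_closure
          refine ⟨ψ⁻¹ * x * ψ, hx', ?_⟩
          show (ψ⁻¹ * (x : Γ) * ψ)⁻¹ * (ψ * (ψ⁻¹ * x * ψ) * ψ⁻¹) = (ψ⁻¹ * (x : Γ) * ψ)⁻¹ * x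
          group
        have e3 := hf _ hδ
        rw [addMaps_mul, addMaps_inv] at e3
        linear_combination -e3
  -- dimensions
  have hcomm : ∀ (M : Subgroup Γ), R ≤ M → ∀ x y : ↥Q, ⁅x, y⁆ ∈ M.subgroupOf Q := by
    intro M hRM x y
    rw [Subgroup.mem_subgroupOf]
    apply hRM
    have hc : ((⁅x, y⁆ : ↥Q) : Γ) = ⁅(x : Γ), (y : Γ)⁆ := rfl
    have hmemQ : ⁅(x : Γ), (y : Γ)⁆ ∈ Q := by
      rw [← hc]
      exact (⁅x, y⁆ : ↥Q).2
    rw [hc]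
    exact hZR _ hmemQ (fun w hw => h1 x x.2 y y.2 w hw)
  have hpowq : ∀ (M : Subgroup Γ), R ≤ M → ∀ x : ↥Q, x ^ q ∈ M.subgroupOf Q := by
    intro M hRM x
    rw [Subgroup.mem_subgroupOf, Subgroup.coe_pow]
    exact hRM (hZR _ (Q.pow_mem x.2 q) (fun w hw => h2 x x.2 w hw))
  have hcardQ' : Nat.card ↥Q = q ^ d * Nat.card ↥(R.subgroupOf Q) := by
    rw [Nat.card_congr (Subgroup.subgroupOfEquivOfLe hRQ).toEquiv]
    exact hcQ
  have hdimY : Module.finrank k ↥Y = d := by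
    rw [hY]
    exact hDim ↥Q q k (R.subgroupOf Q) d (hcomm R le_rfl) (hpowq R le_rfl) hcardQ'
  have hed : e ≤ d := by
    have h3 : Nat.card ↥(R ⊔ D) ∣ Nat.card ↥Q := Subgroup.card_dvd_of_le hRDQ
    rw [hcD, hcQ] at h3
    have h4 : q ^ e ∣ q ^ d := Nat.dvd_of_mul_dvd_mul_right Nat.card_pos h3
    exact (Nat.pow_dvd_pow_iff_le_right hq.one_lt).mp h4
  have hcardQ'' : Nat.card ↥Q = q ^ (d - e) * Nat.card ↥((R ⊔ D).subgroupOf Q) := by
    rw [Nat.card_congr (Subgroup.subgroupOfEquivOfLe hRDQ).toEquiv, hcD, hcQ, ← mul_assoc,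
      ← pow_add, Nat.sub_add_cancel hed]
  have hdimF : Module.finrank k ↥(annSub k ((R ⊔ D).subgroupOf Q)) = d - e :=
    hDim ↥Q q k ((R ⊔ D).subgroupOf Q) (d - e) (hcomm _ le_sup_left) (hpowq _ le_sup_left)
      hcardQ''
  have hfin := hK Y hYS hYψ
  rw [hYfix, hdimF, hdimY] at hfin
  have hs1 := hs.one_lt
  zify [hed, hs1.le] at hfin ⊢
  linear_combination (-1 : ℤ) * hfin

/-- **Piece L2**: the second layer. -/
theorem gross2_l2 (hAbw : AbwStmt.{u}) (hK2L : K2LStmt.{u}) (hMin : Min2InvStmt.{u})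
    (hDim : DimHomStmt.{u}) (hTower : TowerStmt.{u}) : L2Stmt.{u} := by
  intro Γ _ q s n Q S φ hT h1 h2 h4 h5 R hRQ hZR hSR hψR d e hcQ hcD
  have tow := hT.tow
  haveI : Fact q.Prime := ⟨tow.hq⟩
  haveI : Fact s.Prime := ⟨tow.hs⟩
  haveI := tow.hfinQ
  haveI := tow.hfinS
  obtain ⟨M₀, hM₀⟩ : ∃ M₀ : ℕ, M₀ = Nat.card S * 2 ^ (n + 1) := ⟨_, rfl⟩
  have hM0pos : 0 < M₀ := by
    rw [hM₀]
    exact Nat.mul_pos Nat.card_pos (pow_pos (by norm_num) _)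
  have hcopq : Nat.Coprime q M₀ := by
    obtain ⟨j, hj⟩ := tow.hS.exists_card_eq
    rw [hM₀, hj]
    exact Nat.Coprime.mul_right
      (Nat.Coprime.pow_right _ ((Nat.coprime_primes tow.hq tow.hs).mpr tow.hqs))
      (Nat.Coprime.pow_right _ ((Nat.coprime_primes tow.hq Nat.prime_two).mpr tow.hq2))
  obtain ⟨m, hD⟩ := l2_field q M₀ hM0pos hcopq
  exact l2_core hAbw hK2L hMin hDim hTower hT h1 h2 h4 h5 R hRQ hZR hSR hψR d e hcQ hcD
    (GaloisField q m) M₀ hM₀ hD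

end Cfsg.Agent.Lib.Helper75.Gross2L2
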