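import Mathlib
import Cfsg.Agent.S0713

set_option autoImplicit false

namespace Cfsg.Agent.Lib.Helper75.Miller

open Equiv MulAction

variable {α : Type*} [Fintype α] [DecidableEq α]

omit [Fintype α] [DecidableEq α] in
theorem inv_app (f : Perm α) (x : α) : f⁻¹ (f x) = x := Perm.inv_eq_iff_eq.mpr rfl

omit [Fintype α] [DecidableEq α] in
theorem app_inv (f : Perm α) (x : α) : f (f⁻¹ x) = x := (Perm.inv_eq_iff_eq.mp rfl).symm

/-- `m`-fold transitivity gives an element of `G` agreeing with a given permutation on a set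
of at most `m` points -/
theorem exists_agree (G : Subgroup (Perm α)) {m : ℕ} (hG : IsMultiplyPretransitive G α m)
    (hm : m ≤ Fintype.card α) (s : Finset α) (hs : s.card ≤ m) (σ : Perm α) :
    ∃ x ∈ G, ∀ d ∈ s, x d = σ d := by
  have h : IsMultiplyPretransitive G α s.card :=
    isMultiplyPretransitive_of_le (n := m) hs (by rw [Nat.card_eq_fintype_card]; exact hm)
  exact Cfsg.Agent.S0713.exists_of_pretrans G s h σ

omit [DecidableEq α] in
theorem prim_of_two (G : Subgroup (Perm α)) {m : ℕ} (hG : IsMultiplyPretransitive G α m)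
    (h2 : 2 ≤ m) (hm : m ≤ Fintype.card α) : IsPreprimitive G α :=
  isPreprimitive_of_is_two_pretransitive
    (isMultiplyPretransitive_of_le (n := m) h2 (by rw [Nat.card_eq_fintype_card]; exact hm))

/-- if `x` and `y` agree on an invariant set `T` and their supports outside `T` meet in exactly
one point, then their commutator is a 3-cycle -/
theorem isThreeCycle_comm (x y : Perm α) (T : Finset α) (a : α)
    (hxT : ∀ q, q ∈ T ↔ x q ∈ T) (hxy : ∀ q ∈ T, x q = y q)
    (haT : a ∉ T) (hxa : x a ≠ a) (hya : y a ≠ a)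
    (hdis : ∀ q, q ∉ T → q ≠ a → x q = q ∨ y q = q) :
    (x⁻¹ * y⁻¹ * x * y).IsThreeCycle := by
  have hyT : ∀ q, q ∈ T ↔ y q ∈ T := by
    intro q
    constructor
    · intro hq; rw [← hxy q hq]; exact (hxT q).mp hq
    · intro hq
      have ht : x⁻¹ (y q) ∈ T := by rw [hxT]; simpa using hq
      have h1 : y (x⁻¹ (y q)) = y q := by rw [← hxy _ ht]; simp
      have h2 := y.injective h1
      rw [← h2]; exact ht
  obtain ⟨u, hu⟩ : ∃ u, u = x⁻¹ a := ⟨_, rfl⟩
  obtain ⟨w, hw⟩ : ∃ w, w = y⁻¹ a := ⟨_, rfl⟩
  have hxu : x u = a := by simp [hu]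
  have hyw : y w = a := by simp [hw]
  have hua : u ≠ a := by intro h; rw [h] at hxu; exact hxa hxu
  have hwa : w ≠ a := by intro h; rw [h] at hyw; exact hya hyw
  have huT : u ∉ T := by intro h; exact haT (hxu ▸ (hxT u).mp h)
  have hwT : w ∉ T := by intro h; exact haT (hyw ▸ (hyT w).mp h)
  have hyu : y u = u := by
    rcases hdis u huT hua with h | h
    · rw [hxu] at h; exact absurd h.symm hua
    · exact h
  have hxw : x w = w := by
    rcases hdis w hwT hwa with h | h
    · exact h
    · rw [hyw] at h; exact absurd h.symm hwa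
  have huw : u ≠ w := by intro h; rw [h, hxw] at hxu; exact hwa hxu
  have hxaT : x a ∉ T := fun h => haT ((hxT a).mpr h)
  have hyaT : y a ∉ T := fun h => haT ((hyT a).mpr h)
  have hy_xa : y (x a) = x a := by
    rcases hdis (x a) hxaT hxa with h | h
    · exact absurd (x.injective h) hxa
    · exact h
  have hx_ya : x (y a) = y a := by
    rcases hdis (y a) hyaT hya with h | h
    · exact h
    · exact absurd (y.injective h) hya
  have key : x⁻¹ * y⁻¹ * x * y = swap u a * swap u w := by
    ext q
    simp only [Perm.mul_apply]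
    by_cases hqa : q = a
    · rw [hqa, hx_ya, inv_app, ← hu, swap_apply_of_ne_of_ne hua.symm hwa.symm,
        swap_apply_right]
    by_cases hqu : q = u
    · rw [hqu, hyu, hxu, ← hw, swap_apply_left, swap_apply_of_ne_of_ne huw.symm hwa]
      rw [Perm.inv_eq_iff_eq, hxw]
    by_cases hqw : q = w
    · rw [hqw, hyw, swap_apply_right, swap_apply_left]
      rw [Perm.inv_eq_iff_eq, Perm.inv_eq_iff_eq, hy_xa]
    rw [swap_apply_of_ne_of_ne hqu hqw, swap_apply_of_ne_of_ne hqu hqa]
    by_cases hqT : q ∈ T
    · have h1 : y q ∈ T := (hyT q).mp hqT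
      rw [hxy (y q) h1, inv_app, Perm.inv_eq_iff_eq, hxy q hqT]
    · rcases hdis q hqT hqa with h | h
      · -- x q = q
        by_cases hyq : y q = q
        · rw [hyq, h, Perm.inv_eq_iff_eq, Perm.inv_eq_iff_eq, h, hyq]
        · have hyqT : y q ∉ T := fun h' => hqT ((hyT q).mpr h')
          have hyqa : y q ≠ a := by
            intro h'; apply hqw; rw [hw, ← h']; simp
          have h2 : x (y q) = y q := by
            rcases hdis (y q) hyqT hyqa with h' | h'
            · exact h'
            · exact absurd (y.injective h') hyq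
          rw [h2, inv_app, Perm.inv_eq_iff_eq, h]
      · -- y q = q
        by_cases hxq : x q = q
        · rw [h, hxq, Perm.inv_eq_iff_eq, Perm.inv_eq_iff_eq, hxq, h]
        · have hxqT : x q ∉ T := fun h' => hqT ((hxT q).mpr h')
          have hxqa : x q ≠ a := by
            intro h'; apply hqu; rw [hu, ← h']; simp
          have h2 : y (x q) = x q := by
            rcases hdis (x q) hxqT hxqa with h' | h'
            · exact absurd (x.injective h') hxq
            · exact h'
          rw [h, Perm.inv_eq_iff_eq, Perm.inv_eq_iff_eq, h2]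
  rw [key]
  exact Perm.isThreeCycle_swap_mul_swap_same hua huw hwa.symm

/-- a 4-transitive group of degree at least 7 containing a nontrivial element moving at most
four points contains the alternating group -/
theorem alt_le_of_small_support (G : Subgroup (Perm α)) (h4 : IsMultiplyPretransitive G α 4)
    (hn : 7 ≤ Fintype.card α) (w : Perm α) (hwG : w ∈ G) (hw : w ≠ 1)
    (hs : w.support.card ≤ 4) : alternatingGroup α ≤ G := by
  have hprim : IsPreprimitive G α := prim_of_two G h4 (by norm_num) (by omega)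
  obtain ⟨a, ha⟩ : ∃ a, w a ≠ a := by
    by_contra h; push Not at h; exact hw (Perm.ext h)
  obtain ⟨S, hS⟩ : ∃ S, S = w.support := ⟨_, rfl⟩
  have haS : a ∈ S := by rw [hS]; exact Perm.mem_support.mpr ha
  have hScard : S.card ≤ 4 := by rw [hS]; exact hs
  have hex : ∃ σ : Perm α, σ a = a ∧ ∀ q ∈ S, q ≠ a → σ q ∉ S := by
    have hc : (S.erase a).card ≤ Sᶜ.card := by
      rw [Finset.card_erase_of_mem haS, Finset.card_compl]; omega
    obtain ⟨T, hTS, hTc⟩ := Finset.exists_subset_card_eq hc
    have e : {x // x ∈ S.erase a} ≃ {x // x ∈ T} := Fintype.equivOfCardEq (by rw [Fintype.card_coe, Fintype.card_coe, hTc])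
    have haT : a ∉ T := fun h => (Finset.mem_compl.mp (hTS h)) haS
    have hae : a ∉ S.erase a := Finset.notMem_erase a S
    have hτa : e.extendSubtype a ∉ T := e.extendSubtype_not_mem a hae
    refine ⟨swap a (e.extendSubtype a) * e.extendSubtype, by simp, ?_⟩
    intro q hq hqa
    have hqe : q ∈ S.erase a := Finset.mem_erase.mpr ⟨hqa, hq⟩
    have hτq : e.extendSubtype q ∈ T := e.extendSubtype_mem q hqe
    have h1 : e.extendSubtype q ≠ a := fun h => haT (h ▸ hτq)
    have h2 : e.extendSubtype q ≠ e.extendSubtype a := fun h => hτa (h ▸ hτq)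
    rw [Perm.mul_apply, swap_apply_of_ne_of_ne h1 h2]
    exact Finset.mem_compl.mp (hTS hτq)
  obtain ⟨σ, hσa, hσS⟩ := hex
  obtain ⟨h, hhG, hh⟩ := exists_agree G h4 (by omega) S hScard σ
  have hha : h a = a := by rw [hh a haS, hσa]
  have hhS : ∀ q ∈ S, q ≠ a → h q ∉ S := fun q hq hqa => by rw [hh q hq]; exact hσS q hq hqa
  have hy : h * w * h⁻¹ ∈ G := G.mul_mem (G.mul_mem hhG hwG) (G.inv_mem hhG)
  have hha' : h⁻¹ a = a := by rw [Perm.inv_eq_iff_eq, hha]
  have hya : (h * w * h⁻¹) a ≠ a := by
    simp only [Perm.mul_apply, hha']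
    intro h1
    have h2 : h (w a) = h a := by rw [hha]; exact h1
    exact ha (h.injective h2)
  have hdis : ∀ q, q ∉ (∅ : Finset α) → q ≠ a → w q = q ∨ (h * w * h⁻¹) q = q := by
    intro q _ hqa
    by_cases hwq : w q = q
    · exact Or.inl hwq
    · right
      have hqS : q ∈ S := by rw [hS]; exact Perm.mem_support.mpr hwq
      simp only [Perm.mul_apply]
      have h1 : h⁻¹ q ∉ S := by
        intro h2
        by_cases h3 : h⁻¹ q = a
        · apply hqa
          rw [Perm.inv_eq_iff_eq, hha] at h3
          exact h3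
        · have := hhS _ h2 h3
          simp at this
          exact this hqS
      have h4 : w (h⁻¹ q) = h⁻¹ q := by
        rw [hS] at h1
        exact Perm.notMem_support.mp h1
      rw [h4]; simp
  have h3 := isThreeCycle_comm w (h * w * h⁻¹) ∅ a (by simp) (by simp) (by simp) ha hya hdis
  exact Equiv.Perm.alternatingGroup_le_of_isPreprimitive_of_isThreeCycle_mem hprim h3
    (G.mul_mem (G.mul_mem (G.mul_mem (G.inv_mem hwG) (G.inv_mem hy)) hwG) hy)

/-- a primitive group containing a nontrivial element of order `p` supported on `p` points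
contains the alternating group (via Jordan's theorem) -/
theorem alt_le_of_pcycle (G : Subgroup (Perm α)) (hprim : IsPreprimitive G α) {p : ℕ}
    (hp : p.Prime) (hpn : p + 3 ≤ Fintype.card α) (g : Perm α) (hgG : g ∈ G) (hg1 : g ≠ 1)
    (O : Finset α) (hO : O.card = p) (hsupp : ∀ q, g q ≠ q → q ∈ O) (hpow : g ^ p = 1) :
    alternatingGroup α ≤ G := by
  have : Fact p.Prime := ⟨hp⟩
  have hord : orderOf g = p := orderOf_eq_prime hpow hg1
  have hsub : g.support ⊆ O := fun q hq => hsupp q (Perm.mem_support.mp hq)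
  have hcard : g.support.card ≤ p := hO ▸ Finset.card_le_card hsub
  have hcyc : g.IsCycle := Perm.isCycle_of_prime_order (hord ▸ hp)
    (by rw [hord]; have := hp.two_le; omega)
  have hsc : g.support.card = p := by rw [← hord, hcyc.orderOf]
  exact Cfsg.Agent.S0713.result G hprim hp (by have := hp.two_le; omega) hpn hcyc hsc hgG

end Cfsg.Agent.Lib.Helper75.Miller
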