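import Mathlib
import Cfsg.Agent.S0713
import Cfsg.Agent.S0711
import Cfsg.Agent.Lib.Helper75.Miller1

set_option autoImplicit false
set_option linter.unusedSectionVars false

namespace Cfsg.Agent.Lib.Helper75.Hall

open Equiv

variable {α : Type*} [Fintype α] [DecidableEq α]

/-- elementary form of 4-fold transitivity -/
def T4 (G : Subgroup (Perm α)) : Prop :=
  ∀ s : Finset α, s.card ≤ 4 → ∀ σ : Perm α, ∃ g ∈ G, ∀ q ∈ s, g q = σ q

/-- no involution fixes four points -/
def NI (G : Subgroup (Perm α)) : Prop :=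
  ∀ g ∈ G, g * g = 1 → ∀ s : Finset α, s.card = 4 → (∀ q ∈ s, g q = q) → g = 1

omit [Fintype α] [DecidableEq α] in
theorem sq_app {t : Perm α} (ht : t * t = 1) (q : α) : t (t q) = q := by
  have := congrArg (fun f : Perm α => f q) ht
  simpa using this

omit [DecidableEq α] in
/-- a permutation with prescribed values at four points -/
theorem exists_perm4 {a b c d a' b' c' d' : α} (hab : a ≠ b) (hac : a ≠ c) (had : a ≠ d)
    (hbc : b ≠ c) (hbd : b ≠ d) (hcd : c ≠ d) (hab' : a' ≠ b') (hac' : a' ≠ c') (had' : a' ≠ d')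
    (hbc' : b' ≠ c') (hbd' : b' ≠ d') (hcd' : c' ≠ d') :
    ∃ σ : Perm α, σ a = a' ∧ σ b = b' ∧ σ c = c' ∧ σ d = d' := by
  let e : Fin 4 ↪ α := ⟨![a, b, c, d], by
    intro i j h
    fin_cases i <;> fin_cases j <;> simp_all⟩
  let e' : Fin 4 ↪ α := ⟨![a', b', c', d'], by
    intro i j h
    fin_cases i <;> fin_cases j <;> simp_all⟩
  obtain ⟨σ, hσ⟩ := (Equiv.Perm.isMultiplyPretransitive α 4).exists_smul_eq e e'
  refine ⟨σ, ?_, ?_, ?_, ?_⟩
  · exact DFunLike.congr_fun hσ (0 : Fin 4)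
  · exact DFunLike.congr_fun hσ (1 : Fin 4)
  · exact DFunLike.congr_fun hσ (2 : Fin 4)
  · exact DFunLike.congr_fun hσ (3 : Fin 4)

/-- an element of `G` with prescribed values at four points -/
theorem exists_map4 {G : Subgroup (Perm α)} (h4 : T4 G) {a b c d a' b' c' d' : α}
    (hab : a ≠ b) (hac : a ≠ c) (had : a ≠ d)
    (hbc : b ≠ c) (hbd : b ≠ d) (hcd : c ≠ d) (hab' : a' ≠ b') (hac' : a' ≠ c') (had' : a' ≠ d')
    (hbc' : b' ≠ c') (hbd' : b' ≠ d') (hcd' : c' ≠ d') :
    ∃ g ∈ G, g a = a' ∧ g b = b' ∧ g c = c' ∧ g d = d' := by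
  obtain ⟨σ, h1, h2, h3, h4'⟩ := exists_perm4 hab hac had hbc hbd hcd hab' hac' had' hbc' hbd' hcd'
  obtain ⟨g, hg, hgs⟩ := h4 {a, b, c, d} (Finset.card_le_four) σ
  refine ⟨g, hg, ?_, ?_, ?_, ?_⟩
  · rw [hgs a (by simp), h1]
  · rw [hgs b (by simp), h2]
  · rw [hgs c (by simp), h3]
  · rw [hgs d (by simp), h4']

omit [Fintype α] [DecidableEq α] in
theorem card4 [DecidableEq α] {a b c d : α} (hab : a ≠ b) (hac : a ≠ c) (had : a ≠ d)
    (hbc : b ≠ c) (hbd : b ≠ d) (hcd : c ≠ d) : ({a, b, c, d} : Finset α).card = 4 := by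
  rw [Finset.card_insert_of_notMem (by simp [hab, hac, had]),
    Finset.card_insert_of_notMem (by simp [hbc, hbd]),
    Finset.card_insert_of_notMem (by simp [hcd]), Finset.card_singleton]

omit [Fintype α] [DecidableEq α] in
/-- an element of odd order fixes any point fixed by its square -/
theorem odd_fix {h : Perm α} (hodd : Odd (orderOf h)) {q : α} (hq : h (h q) = q) : h q = q := by
  obtain ⟨j, hj⟩ := hodd
  have h1 : ∀ i : ℕ, ((h * h) ^ i) q = q := by
    intro i
    induction i with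
    | zero => simp
    | succ i ih => rw [pow_succ, Perm.mul_apply, Perm.mul_apply, hq, ih]
  have h2 : h ^ (2 * j + 1) = 1 := by rw [← hj]; exact pow_orderOf_eq_one h
  have h3 : (h * h) ^ (j + 1) = h := by
    rw [← pow_two, ← pow_mul]
    have : 2 * (j + 1) = (2 * j + 1) + 1 := by ring
    rw [this, pow_succ, h2, one_mul]
  have := h1 (j + 1)
  rw [h3] at this
  exact this

omit [DecidableEq α] in
/-- elements fixing four points have odd order -/
theorem odd_of_fix4 {G : Subgroup (Perm α)} (hni : NI G) {g : Perm α} (hg : g ∈ G)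
    (s : Finset α) (hs : s.card = 4) (hfix : ∀ q ∈ s, g q = q) : Odd (orderOf g) := by
  by_contra hcon
  rw [Nat.not_odd_iff_even] at hcon
  obtain ⟨k, hk⟩ := hcon
  have hpos : 0 < orderOf g := orderOf_pos g
  have h1 : g ^ k * g ^ k = 1 := by
    rw [← pow_add, ← hk]; exact pow_orderOf_eq_one g
  have h2 : ∀ q ∈ s, (g ^ k) q = q := by
    intro q hq
    have : ∀ i : ℕ, (g ^ i) q = q := by
      intro i
      induction i with
      | zero => simp
      | succ i ih => rw [pow_succ, Perm.mul_apply, hfix q hq, ih]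
    exact this k
  have h3 := hni (g ^ k) (G.pow_mem hg k) h1 s hs h2
  have h4 := orderOf_dvd_of_pow_eq_one h3
  have := Nat.le_of_dvd (by omega) h4
  omega

/-- the odd power of `g` that is an involution agreeing with `g` where `g * g` is trivial -/
theorem invol_pow {G : Subgroup (Perm α)} (hni : NI G) {g : Perm α} (hg : g ∈ G)
    (s : Finset α) (hs : s.card = 4) (hfix : ∀ q ∈ s, g (g q) = q) :
    ∃ m : ℕ, g ^ m * g ^ m = 1 ∧ ∀ q, g (g q) = q → (g ^ m) q = g q := by
  have hodd : Odd (orderOf (g * g)) :=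
    odd_of_fix4 hni (G.mul_mem hg hg) s hs (fun q hq => by rw [Perm.mul_apply]; exact hfix q hq)
  obtain ⟨j, hj⟩ := hodd
  refine ⟨2 * j + 1, ?_, ?_⟩
  · rw [← pow_add, ← two_mul, pow_mul, pow_two, ← hj]; exact pow_orderOf_eq_one _
  · intro q hq
    have h1 : ∀ i : ℕ, ((g * g) ^ i) q = q := by
      intro i
      induction i with
      | zero => simp
      | succ i ih => rw [pow_succ, Perm.mul_apply, Perm.mul_apply, hq, ih]
    rw [pow_succ', pow_mul, pow_two, Perm.mul_apply, h1]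

omit [Fintype α] [DecidableEq α] in
/-- an involution `t * k` with `k` of odd order is conjugate to `t` by a power of `k` -/
theorem conj_inv {t k : Perm α} (ht : t * t = 1) (hk : Odd (orderOf k))
    (htk : (t * k) * (t * k) = 1) : ∃ m ∈ Subgroup.zpowers k, t * k = m⁻¹ * t * m := by
  obtain ⟨j, hj⟩ := hk
  have h1 : t * k = k⁻¹ * t := by
    have e1 : t * k * t = k⁻¹ := by
      have : t * k * t * k = 1 := by rw [← htk]; group
      exact eq_inv_of_mul_eq_one_left this
    have e2 : t * k = t * k * t * t := by rw [mul_assoc (t * k), ht, mul_one]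
    rw [e2, e1]
  have h2 : SemiconjBy t k k⁻¹ := h1
  have h3 : t * k ^ (j + 1) = (k⁻¹) ^ (j + 1) * t := (h2.pow_right (j + 1))
  have h4 : k ^ (2 * j + 1) = 1 := by rw [← hj]; exact pow_orderOf_eq_one k
  refine ⟨k ^ (j + 1), Subgroup.pow_mem _ (Subgroup.mem_zpowers k) _, ?_⟩
  rw [mul_assoc, h3, ← mul_assoc, inv_pow, ← mul_inv_rev, ← pow_add]
  have : j + 1 + (j + 1) = (2 * j + 1) + 1 := by ring
  rw [this, pow_succ, h4, one_mul]
  exact h1

/-- conjugacy of involutions agreeing (up to `g`) on an invariant four-set -/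
theorem conj_of_agree {G : Subgroup (Perm α)} (hni : NI G) {t t' : Perm α} (htG : t ∈ G)
    (htG' : t' ∈ G) (ht : t * t = 1) (ht' : t' * t' = 1) (s : Finset α) (hs : s.card = 4)
    {g : Perm α} (hg : g ∈ G)
    (hgt : ∀ q ∈ s, g (t q) = t' (g q)) :
    ∃ c ∈ G, c * t = t' * c ∧ ∀ q ∈ s, c q = g q := by
  have hk : ∀ q ∈ s, (t * (g⁻¹ * t' * g)) q = q := by
    intro q hq
    simp only [Perm.mul_apply]
    rw [← hgt q hq, Miller.inv_app, sq_app ht]
  have hkG : t * (g⁻¹ * t' * g) ∈ G :=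
    G.mul_mem htG (G.mul_mem (G.mul_mem (G.inv_mem hg) htG') hg)
  have hodd := odd_of_fix4 hni hkG s hs hk
  have h1 : t * (t * (g⁻¹ * t' * g)) = g⁻¹ * t' * g := by rw [← mul_assoc, ht, one_mul]
  have h2 : (t * (t * (g⁻¹ * t' * g))) * (t * (t * (g⁻¹ * t' * g))) = 1 := by
    rw [h1]
    have : g⁻¹ * t' * g * (g⁻¹ * t' * g) = g⁻¹ * (t' * t') * g := by group
    rw [this, ht', mul_one, inv_mul_cancel]
  obtain ⟨m, hm, hmt⟩ := conj_inv ht hodd h2
  rw [h1] at hmt
  have hmf : m ∈ Cfsg.Agent.S0713.fixG G s := by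
    have hle : Subgroup.zpowers (t * (g⁻¹ * t' * g)) ≤ Cfsg.Agent.S0713.fixG G s := by
      rw [Subgroup.zpowers_le]
      exact ⟨hkG, hk⟩
    exact hle hm
  refine ⟨g * m⁻¹, G.mul_mem hg (G.inv_mem hmf.1), ?_, ?_⟩
  · have e1 : t' * g = g * (m⁻¹ * t * m) := by rw [← hmt]; group
    calc g * m⁻¹ * t = g * (m⁻¹ * t * m) * m⁻¹ := by group
      _ = t' * (g * m⁻¹) := by rw [← e1]; group
  · intro q hq
    have : m⁻¹ q = q := by
      rw [Perm.inv_eq_iff_eq]; exact (hmf.2 q hq).symm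
    rw [Perm.mul_apply, this]

/-- fixed points of a permutation -/
def fx (t : Perm α) : Finset α := Finset.univ.filter (fun q => t q = q)

theorem mem_fx {t : Perm α} {q : α} : q ∈ fx t ↔ t q = q := by simp [fx]

theorem fx_card_le {G : Subgroup (Perm α)} (hni : NI G) {t : Perm α} (htG : t ∈ G)
    (ht : t * t = 1) (ht1 : t ≠ 1) : (fx t).card ≤ 3 := by
  by_contra hcon
  push Not at hcon
  obtain ⟨s, hs, hs4⟩ := Finset.exists_subset_card_eq (s := fx t) (n := 4) (by omega)
  exact ht1 (hni t htG ht s hs4 (fun q hq => mem_fx.mp (hs hq)))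

theorem fx_conj {t t' c : Perm α} (h : c * t = t' * c) (q : α) : q ∈ fx t ↔ c q ∈ fx t' := by
  rw [mem_fx, mem_fx]
  have := congrArg (fun f : Perm α => f q) h
  simp only [Perm.mul_apply] at this
  rw [← this]
  exact ⟨fun h => by rw [h], fun h => c.injective h⟩

theorem fx_card_conj {t t' c : Perm α} (h : c * t = t' * c) : (fx t).card = (fx t').card := by
  have : fx t' = (fx t).map c.toEmbedding := by
    ext q
    simp only [Finset.mem_map, Equiv.coe_toEmbedding]
    constructor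
    · intro hq
      refine ⟨c⁻¹ q, ?_, Miller.app_inv c q⟩
      rw [fx_conj h, Miller.app_inv]
      exact hq
    · rintro ⟨r, hr, rfl⟩
      exact (fx_conj h r).mp hr
  rw [this, Finset.card_map]

theorem fx_card_add (t : Perm α) : (fx t).card + t.support.card = Fintype.card α := by
  have : fx t = t.supportᶜ := by
    ext q
    simp [mem_fx]
  rw [this]
  exact Finset.card_compl_add_card _

theorem exists_moved {t : Perm α} (ht1 : t ≠ 1) : ∃ a, t a ≠ a := by
  by_contra hcon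
  push Not at hcon
  exact ht1 (Perm.ext hcon)

/-- a nontrivial involution has two transpositions -/
theorem exists_J {G : Subgroup (Perm α)} (hni : NI G) (h6 : 6 ≤ Fintype.card α) {t : Perm α}
    (htG : t ∈ G) (ht : t * t = 1) (ht1 : t ≠ 1) :
    ∃ a c, t a ≠ a ∧ t c ≠ c ∧ c ≠ a ∧ c ≠ t a := by
  obtain ⟨a, ha⟩ := exists_moved ht1
  have h3 := fx_card_le hni htG ht ht1
  obtain ⟨c, hc⟩ : ∃ c, c ∉ fx t ∪ {a, t a} := by
    by_contra hcon
    push Not at hcon
    have h1 : fx t ∪ {a, t a} = Finset.univ := Finset.eq_univ_iff_forall.mpr hcon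
    have h2 : (fx t ∪ {a, t a}).card ≤ (fx t).card + ({a, t a} : Finset α).card :=
      Finset.card_union_le _ _
    have h5 : ({a, t a} : Finset α).card ≤ 2 := Finset.card_le_two
    rw [h1, Finset.card_univ] at h2
    omega
  simp only [Finset.mem_union, mem_fx, Finset.mem_insert, Finset.mem_singleton, not_or] at hc
  exact ⟨a, c, ha, hc.1, hc.2.1, hc.2.2⟩

/-- centraliser-type conjugation for a pair of transpositions -/
theorem conj_J {G : Subgroup (Perm α)} (h4 : T4 G) (hni : NI G) {t t' : Perm α} (htG : t ∈ G)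
    (htG' : t' ∈ G) (ht : t * t = 1) (ht' : t' * t' = 1)
    {a c a' c' : α} (ha : t a ≠ a) (hc : t c ≠ c) (hca : c ≠ a) (hcta : c ≠ t a)
    (ha' : t' a' ≠ a') (hc' : t' c' ≠ c') (hca' : c' ≠ a') (hcta' : c' ≠ t' a') :
    ∃ x ∈ G, x * t = t' * x ∧ x a = a' ∧ x c = c' := by
  have h1 : t c ≠ a := fun h => hcta (by rw [← h, sq_app ht])
  have h2 : t c ≠ t a := fun h => hca (t.injective h)
  have h1' : t' c' ≠ a' := fun h => hcta' (by rw [← h, sq_app ht'])
  have h2' : t' c' ≠ t' a' := fun h => hca' (t'.injective h)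
  obtain ⟨g, hg, g1, g2, g3, g4⟩ := exists_map4 h4 (a := a) (b := t a) (c := c) (d := t c)
    (a' := a') (b' := t' a') (c' := c') (d' := t' c') (Ne.symm ha) hca.symm h1.symm hcta.symm
    h2.symm (Ne.symm hc) (Ne.symm ha') hca'.symm h1'.symm hcta'.symm h2'.symm (Ne.symm hc')
  obtain ⟨x, hx, hxt, hxs⟩ := conj_of_agree hni htG htG' ht ht' {a, t a, c, t c}
    (card4 (Ne.symm ha) hca.symm h1.symm hcta.symm h2.symm (Ne.symm hc)) hg (by
      intro q hq
      simp only [Finset.mem_insert, Finset.mem_singleton] at hq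
      rcases hq with rfl | rfl | rfl | rfl
      · rw [g2, g1]
      · rw [sq_app ht, g1, g2, sq_app ht']
      · rw [g4, g3]
      · rw [sq_app ht, g3, g4, sq_app ht'])
  refine ⟨x, hx, hxt, ?_, ?_⟩
  · rw [hxs a (by simp), g1]
  · rw [hxs c (by simp), g3]

/-- centraliser-type conjugation for a transposition and two fixed points -/
theorem conj_J' {G : Subgroup (Perm α)} (h4 : T4 G) (hni : NI G) {t t' : Perm α} (htG : t ∈ G)
    (htG' : t' ∈ G) (ht : t * t = 1) (ht' : t' * t' = 1)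
    {a f₁ f₂ a' f₁' f₂' : α} (ha : t a ≠ a) (hf₁ : t f₁ = f₁) (hf₂ : t f₂ = f₂) (hf : f₁ ≠ f₂)
    (ha' : t' a' ≠ a') (hf₁' : t' f₁' = f₁') (hf₂' : t' f₂' = f₂') (hf' : f₁' ≠ f₂') :
    ∃ x ∈ G, x * t = t' * x ∧ x a = a' ∧ x f₁ = f₁' ∧ x f₂ = f₂' := by
  have h1 : a ≠ f₁ := fun h => ha (by rw [h, hf₁])
  have h2 : a ≠ f₂ := fun h => ha (by rw [h, hf₂])
  have h3 : t a ≠ f₁ := fun h => h1 (t.injective (by rw [h, hf₁]))
  have h4' : t a ≠ f₂ := fun h => h2 (t.injective (by rw [h, hf₂]))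
  have h1' : a' ≠ f₁' := fun h => ha' (by rw [h, hf₁'])
  have h2' : a' ≠ f₂' := fun h => ha' (by rw [h, hf₂'])
  have h3' : t' a' ≠ f₁' := fun h => h1' (t'.injective (by rw [h, hf₁']))
  have h4'' : t' a' ≠ f₂' := fun h => h2' (t'.injective (by rw [h, hf₂']))
  obtain ⟨g, hg, g1, g2, g3, g4⟩ := exists_map4 h4 (a := a) (b := t a) (c := f₁) (d := f₂)
    (a' := a') (b' := t' a') (c' := f₁') (d' := f₂') (Ne.symm ha) h1 h2 h3 h4' hf
    (Ne.symm ha') h1' h2' h3' h4'' hf'
  obtain ⟨x, hx, hxt, hxs⟩ := conj_of_agree hni htG htG' ht ht' {a, t a, f₁, f₂}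
    (card4 (Ne.symm ha) h1 h2 h3 h4' hf) hg (by
      intro q hq
      simp only [Finset.mem_insert, Finset.mem_singleton] at hq
      rcases hq with rfl | rfl | rfl | rfl
      · rw [g2, g1]
      · rw [sq_app ht, g1, g2, sq_app ht']
      · rw [hf₁, g3, hf₁']
      · rw [hf₂, g4, hf₂'])
  refine ⟨x, hx, hxt, ?_, ?_, ?_⟩
  · rw [hxs a (by simp), g1]
  · rw [hxs f₁ (by simp), g3]
  · rw [hxs f₂ (by simp), g4]

/-- all involutions are conjugate -/
theorem inv_conj {G : Subgroup (Perm α)} (h4 : T4 G) (hni : NI G) (h6 : 6 ≤ Fintype.card α)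
    {t t' : Perm α} (htG : t ∈ G) (htG' : t' ∈ G) (ht : t * t = 1) (ht' : t' * t' = 1)
    (ht1 : t ≠ 1) (ht1' : t' ≠ 1) : ∃ x ∈ G, x * t = t' * x := by
  obtain ⟨a, c, ha, hc, hca, hcta⟩ := exists_J hni h6 htG ht ht1
  obtain ⟨a', c', ha', hc', hca', hcta'⟩ := exists_J hni h6 htG' ht' ht1'
  obtain ⟨x, hx, hxt, -, -⟩ := conj_J h4 hni htG htG' ht ht' ha hc hca hcta ha' hc' hca' hcta'
  exact ⟨x, hx, hxt⟩

/-- an involution power of `g` commuting with everything commuting with `g` -/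
theorem invol_of {G : Subgroup (Perm α)} (hni : NI G) {g : Perm α} (hg : g ∈ G)
    (s : Finset α) (hs : s.card = 4) (hfix : ∀ q ∈ s, g (g q) = q) :
    ∃ t ∈ G, t * t = 1 ∧ (∀ q, g (g q) = q → t q = g q) ∧
      (∀ c : Perm α, c * g = g * c → c * t = t * c) := by
  obtain ⟨m, hm1, hm2⟩ := invol_pow hni hg s hs hfix
  refine ⟨g ^ m, G.pow_mem hg m, hm1, hm2, ?_⟩
  intro c hc
  have : Commute c g := hc
  exact this.pow_right m

theorem exists4 (h4 : 4 ≤ Fintype.card α) :
    ∃ x₁ x₂ x₃ x₄ : α, x₁ ≠ x₂ ∧ x₁ ≠ x₃ ∧ x₁ ≠ x₄ ∧ x₂ ≠ x₃ ∧ x₂ ≠ x₄ ∧ x₃ ≠ x₄ := by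
  obtain ⟨e⟩ : Nonempty (Fin 4 ↪ α) := Function.Embedding.nonempty_of_card_le (by simpa using h4)
  exact ⟨e 0, e 1, e 2, e 3, e.injective.ne (by decide), e.injective.ne (by decide),
    e.injective.ne (by decide), e.injective.ne (by decide), e.injective.ne (by decide),
    e.injective.ne (by decide)⟩

/-- the number of fixed points of an involution -/
theorem fx_card_eq {G : Subgroup (Perm α)} (h4 : T4 G) (hni : NI G) (h8 : 8 ≤ Fintype.card α)
    {t : Perm α} (htG : t ∈ G) (ht : t * t = 1) (ht1 : t ≠ 1) :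
    (fx t).card = if Even (Fintype.card α) then 2 else 3 := by
  obtain ⟨x₁, x₂, x₃, x₄, h12, h13, h14, h23, h24, h34⟩ := exists4 (α := α) (by omega)
  obtain ⟨g, hg, g1, g2, g3, g4⟩ := exists_map4 h4 (a := x₁) (b := x₂) (c := x₃) (d := x₄)
    (a' := x₁) (b' := x₂) (c' := x₄) (d' := x₃) h12 h13 h14 h23 h24 h34 h12 h14 h13 h24 h23
    h34.symm
  obtain ⟨u, hu, huu, hug, -⟩ := invol_of hni hg {x₁, x₂, x₃, x₄} (card4 h12 h13 h14 h23 h24 h34)
    (by
      intro q hq
      simp only [Finset.mem_insert, Finset.mem_singleton] at hq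
      rcases hq with rfl | rfl | rfl | rfl
      · rw [g1, g1]
      · rw [g2, g2]
      · rw [g3, g4]
      · rw [g4, g3])
  have hu1 : u x₁ = x₁ := by rw [hug x₁ (by rw [g1, g1]), g1]
  have hu2 : u x₂ = x₂ := by rw [hug x₂ (by rw [g2, g2]), g2]
  have hu3 : u x₃ = x₄ := by rw [hug x₃ (by rw [g3, g4]), g3]
  have hune : u ≠ 1 := by
    intro h
    rw [h] at hu3
    exact h34 hu3
  obtain ⟨c, -, hc⟩ := inv_conj h4 hni (by omega) htG hu ht huu ht1 hune
  have e1 := fx_card_conj hc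
  have e2 : 2 ≤ (fx u).card := by
    have : ({x₁, x₂} : Finset α) ⊆ fx u := by
      intro q hq
      simp only [Finset.mem_insert, Finset.mem_singleton] at hq
      rcases hq with rfl | rfl
      · exact mem_fx.mpr hu1
      · exact mem_fx.mpr hu2
    have h2 := Finset.card_le_card this
    rwa [Finset.card_pair h12] at h2
  have e3 := fx_card_le hni htG ht ht1
  have e4 := fx_card_add t
  have e5 : 2 ∣ t.support.card := Equiv.Perm.two_dvd_card_support (by rw [pow_two]; exact ht)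
  obtain ⟨m, hm⟩ := e5
  split_ifs with hev
  · obtain ⟨k, hk⟩ := hev
    omega
  · rw [Nat.not_even_iff_odd] at hev
    obtain ⟨k, hk⟩ := hev
    omega

/-- four-point stabilisers have odd order -/
theorem odd_card_fixG {G : Subgroup (Perm α)} (hni : NI G) (s : Finset α) (hs : s.card = 4) :
    Odd (Nat.card (Cfsg.Agent.S0713.fixG G s)) := by
  by_contra hcon
  rw [Nat.not_odd_iff_even] at hcon
  have h2 : 2 ∣ Nat.card (Cfsg.Agent.S0713.fixG G s) := even_iff_two_dvd.mp hcon
  have : Fact (Nat.Prime 2) := ⟨Nat.prime_two⟩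
  obtain ⟨g, hg⟩ := exists_prime_orderOf_dvd_card' 2 h2
  have h3 : (g : Perm α) * g = 1 := by
    have h5 : g ^ 2 = 1 := by rw [← hg]; exact pow_orderOf_eq_one g
    have h6 := congrArg Subtype.val h5
    simpa [pow_two] using h6
  have h4 := hni g g.2.1 h3 s hs g.2.2
  have h5 : g = 1 := Subtype.ext h4
  rw [h5, orderOf_one] at hg
  omega

theorem pretrans_of_T4 {G : Subgroup (Perm α)} (h4 : T4 G) :
    MulAction.IsMultiplyPretransitive G α 4 := by
  rw [MulAction.isMultiplyPretransitive_iff]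
  intro x y
  obtain ⟨σ, hσ⟩ := (Equiv.Perm.isMultiplyPretransitive α 4).exists_smul_eq x y
  obtain ⟨g, hg, hgs⟩ := h4 (Finset.univ.map x) (by simp) σ
  refine ⟨⟨g, hg⟩, ?_⟩
  ext i
  have := hgs (x i) (by simp)
  rw [← hσ]
  exact this

/-- nontrivial elements move at least six points -/
theorem supp_ge_six {G : Subgroup (Perm α)} (h4 : T4 G) (hni : NI G) (h8 : 8 ≤ Fintype.card α)
    {g : Perm α} (hg : g ∈ G) (hg1 : g ≠ 1) : 6 ≤ g.support.card := by
  by_contra hcon
  have hA := (Cfsg.Agent.S0711.result G (k := 4) (by norm_num) (by omega) (pretrans_of_T4 h4)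
    g hg hg1 (by omega)).2
  obtain ⟨e⟩ : Nonempty (Fin 8 ↪ α) := Function.Embedding.nonempty_of_card_le (by simpa using h8)
  have hd : swap (e 0) (e 1) * swap (e 2) (e 3) ∈ G := by
    apply hA
    rw [Equiv.Perm.mem_alternatingGroup]
    rw [map_mul, Equiv.Perm.sign_swap (e.injective.ne (by decide)),
      Equiv.Perm.sign_swap (e.injective.ne (by decide))]
    rfl
  have hdd : (swap (e 0) (e 1) * swap (e 2) (e 3)) * (swap (e 0) (e 1) * swap (e 2) (e 3)) = 1 := by
    have hcomm : swap (e 0) (e 1) * swap (e 2) (e 3) = swap (e 2) (e 3) * swap (e 0) (e 1) := by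
      have := Equiv.swap_apply_apply (swap (e 2) (e 3)) (e 0) (e 1)
      rw [swap_apply_of_ne_of_ne (e.injective.ne (by decide)) (e.injective.ne (by decide)),
        swap_apply_of_ne_of_ne (e.injective.ne (by decide)) (e.injective.ne (by decide))] at this
      calc swap (e 0) (e 1) * swap (e 2) (e 3)
          = (swap (e 2) (e 3) * swap (e 0) (e 1) * (swap (e 2) (e 3))⁻¹) * swap (e 2) (e 3) := by
            rw [← this]
        _ = swap (e 2) (e 3) * swap (e 0) (e 1) := by group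
    calc swap (e 0) (e 1) * swap (e 2) (e 3) * (swap (e 0) (e 1) * swap (e 2) (e 3))
        = swap (e 0) (e 1) * swap (e 2) (e 3) * (swap (e 2) (e 3) * swap (e 0) (e 1)) := by
          rw [← hcomm]
      _ = 1 := by
          rw [mul_assoc, ← mul_assoc (swap (e 2) (e 3)), swap_mul_self, one_mul, swap_mul_self]
  have hfix : ∀ q ∈ ({e 4, e 5, e 6, e 7} : Finset α),
      (swap (e 0) (e 1) * swap (e 2) (e 3)) q = q := by
    intro q hq
    simp only [Finset.mem_insert, Finset.mem_singleton] at hq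
    rcases hq with rfl | rfl | rfl | rfl <;>
    · rw [Perm.mul_apply, swap_apply_of_ne_of_ne (e.injective.ne (by decide))
        (e.injective.ne (by decide)), swap_apply_of_ne_of_ne (e.injective.ne (by decide))
        (e.injective.ne (by decide))]
  have h1 := hni _ hd hdd _ (card4 (e.injective.ne (by decide)) (e.injective.ne (by decide))
    (e.injective.ne (by decide)) (e.injective.ne (by decide)) (e.injective.ne (by decide))
    (e.injective.ne (by decide))) hfix
  have h2 := congrArg (fun f : Perm α => f (e 0)) h1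
  simp only [Perm.mul_apply, Perm.one_apply] at h2
  rw [swap_apply_of_ne_of_ne (e.injective.ne (by decide)) (e.injective.ne (by decide)),
    swap_apply_left] at h2
  exact e.injective.ne (by decide : (1 : Fin 8) ≠ 0) h2

end Cfsg.Agent.Lib.Helper75.Hall
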