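import Cfsg.Agent.Lib.Helper75.Hall1
import Cfsg.Agent.Lib.Helper35.HallP3

set_option autoImplicit false
set_option linter.unusedSectionVars false

namespace Cfsg.Agent.Lib.Helper75.Hall

open Equiv

/-- a 4-transitive group without involutions fixing four points, four points, and commuting
involutions `u = (x₃ x₄)…`, `w = (x₁ x₂)…` -/
structure Cfg (α : Type*) [Fintype α] [DecidableEq α] where
  G : Subgroup (Perm α)
  h4 : T4 G
  hni : NI G
  h8 : 8 ≤ Fintype.card α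
  x₁ : α
  x₂ : α
  x₃ : α
  x₄ : α
  h12 : x₁ ≠ x₂
  h13 : x₁ ≠ x₃
  h14 : x₁ ≠ x₄
  h23 : x₂ ≠ x₃
  h24 : x₂ ≠ x₄
  h34 : x₃ ≠ x₄
  u : Perm α
  w : Perm α
  huG : u ∈ G
  hwG : w ∈ G
  huu : u * u = 1
  hww : w * w = 1
  huw : u * w = w * u
  u1 : u x₁ = x₁
  u2 : u x₂ = x₂
  u3 : u x₃ = x₄
  u4 : u x₄ = x₃
  w1 : w x₁ = x₂
  w2 : w x₂ = x₁
  w3 : w x₃ = x₃
  w4 : w x₄ = x₄

variable {α : Type*} [Fintype α] [DecidableEq α]

/-- existence of the configuration -/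
theorem exists_cfg {G : Subgroup (Perm α)} (h4 : T4 G) (hni : NI G) (h8 : 8 ≤ Fintype.card α)
    {x₁ x₂ x₃ x₄ : α} (h12 : x₁ ≠ x₂) (h13 : x₁ ≠ x₃) (h14 : x₁ ≠ x₄) (h23 : x₂ ≠ x₃)
    (h24 : x₂ ≠ x₄) (h34 : x₃ ≠ x₄) :
    ∃ c : Cfg α, c.G = G ∧ c.x₁ = x₁ ∧ c.x₂ = x₂ ∧ c.x₃ = x₃ ∧ c.x₄ = x₄ := by
  have hX := card4 h12 h13 h14 h23 h24 h34
  obtain ⟨g, hg, g1, g2, g3, g4⟩ := exists_map4 h4 (a := x₁) (b := x₂) (c := x₃) (d := x₄)
    (a' := x₁) (b' := x₂) (c' := x₄) (d' := x₃) h12 h13 h14 h23 h24 h34 h12 h14 h13 h24 h23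
    h34.symm
  obtain ⟨u, hu, huu, hug, -⟩ := invol_of hni hg {x₁, x₂, x₃, x₄} hX
    (by
      intro q hq
      simp only [Finset.mem_insert, Finset.mem_singleton] at hq
      rcases hq with rfl | rfl | rfl | rfl
      · rw [g1, g1]
      · rw [g2, g2]
      · rw [g3, g4]
      · rw [g4, g3])
  have hu1 : u x₁ = x₁ := by rw [hug x₁ (by rw [g1, g1]), g1]
  have hu2 : u x₂ = x₂ := by rw [hug x₂ (by rw [g2, g2]), g2]
  have hu3 : u x₃ = x₄ := by rw [hug x₃ (by rw [g3, g4]), g3]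
  have hu4 : u x₄ = x₃ := by rw [hug x₄ (by rw [g4, g3]), g4]
  obtain ⟨g', hg', g1', g2', g3', g4'⟩ := exists_map4 h4 (a := x₁) (b := x₂) (c := x₃) (d := x₄)
    (a' := x₂) (b' := x₁) (c' := x₃) (d' := x₄) h12 h13 h14 h23 h24 h34 h12.symm h23 h24 h13 h14
    h34
  obtain ⟨y, hy, hyu, hys⟩ := conj_of_agree hni hu hu huu huu {x₁, x₂, x₃, x₄} hX hg' (by
      intro q hq
      simp only [Finset.mem_insert, Finset.mem_singleton] at hq
      rcases hq with rfl | rfl | rfl | rfl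
      · rw [hu1, g1', hu2]
      · rw [hu2, g2', hu1]
      · rw [hu3, g4', g3', hu3]
      · rw [hu4, g3', g4', hu4])
  have y1 : y x₁ = x₂ := by rw [hys x₁ (by simp), g1']
  have y2 : y x₂ = x₁ := by rw [hys x₂ (by simp), g2']
  have y3 : y x₃ = x₃ := by rw [hys x₃ (by simp), g3']
  have y4 : y x₄ = x₄ := by rw [hys x₄ (by simp), g4']
  obtain ⟨w, hw, hww, hwy, hwc⟩ := invol_of hni hy {x₁, x₂, x₃, x₄} hX
    (by
      intro q hq
      simp only [Finset.mem_insert, Finset.mem_singleton] at hq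
      rcases hq with rfl | rfl | rfl | rfl
      · rw [y1, y2]
      · rw [y2, y1]
      · rw [y3, y3]
      · rw [y4, y4])
  exact ⟨{ G := G, h4 := h4, hni := hni, h8 := h8, x₁ := x₁, x₂ := x₂, x₃ := x₃, x₄ := x₄
           h12 := h12, h13 := h13, h14 := h14, h23 := h23, h24 := h24, h34 := h34
           u := u, w := w, huG := hu, hwG := hw, huu := huu, hww := hww
           huw := hwc u hyu.symm
           u1 := hu1, u2 := hu2, u3 := hu3, u4 := hu4
           w1 := by rw [hwy x₁ (by rw [y1, y2]), y1]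
           w2 := by rw [hwy x₂ (by rw [y2, y1]), y2]
           w3 := by rw [hwy x₃ (by rw [y3, y3]), y3]
           w4 := by rw [hwy x₄ (by rw [y4, y4]), y4] }, rfl, rfl, rfl, rfl, rfl⟩

namespace Cfg

variable (c : Cfg α)

/-- the four base points -/
def X : Finset α := {c.x₁, c.x₂, c.x₃, c.x₄}

theorem X_card : c.X.card = 4 := card4 c.h12 c.h13 c.h14 c.h23 c.h24 c.h34

theorem mem_X {q : α} : q ∈ c.X ↔ q = c.x₁ ∨ q = c.x₂ ∨ q = c.x₃ ∨ q = c.x₄ := by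
  simp [X]

/-- the pointwise stabiliser of the base points -/
def H : Subgroup (Perm α) := Cfsg.Agent.S0713.fixG c.G c.X

theorem mem_H {h : Perm α} :
    h ∈ c.H ↔ h ∈ c.G ∧ h c.x₁ = c.x₁ ∧ h c.x₂ = c.x₂ ∧ h c.x₃ = c.x₃ ∧ h c.x₄ = c.x₄ := by
  unfold H
  rw [Cfsg.Agent.S0713.mem_fixG]
  simp [X]

theorem H_odd : Odd (Nat.card c.H) := odd_card_fixG c.hni c.X c.X_card

/-- the product involution -/
def a : Perm α := c.u * c.w

theorem aG : c.a ∈ c.G := c.G.mul_mem c.huG c.hwG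

theorem aa : c.a * c.a = 1 := by
  unfold a
  calc c.u * c.w * (c.u * c.w) = c.u * (c.w * c.u) * c.w := by group
    _ = c.u * (c.u * c.w) * c.w := by rw [c.huw]
    _ = (c.u * c.u) * (c.w * c.w) := by group
    _ = 1 := by rw [c.huu, c.hww, one_mul]

theorem a1 : c.a c.x₁ = c.x₂ := by unfold a; rw [Perm.mul_apply, c.w1, c.u2]
theorem a2 : c.a c.x₂ = c.x₁ := by unfold a; rw [Perm.mul_apply, c.w2, c.u1]
theorem a3 : c.a c.x₃ = c.x₄ := by unfold a; rw [Perm.mul_apply, c.w3, c.u3]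
theorem a4 : c.a c.x₄ = c.x₃ := by unfold a; rw [Perm.mul_apply, c.w4, c.u4]

theorem ua : c.u * c.a = c.a * c.u := by
  unfold a
  rw [mul_assoc, ← c.huw]

theorem wa : c.w * c.a = c.a * c.w := by
  unfold a
  rw [← mul_assoc, ← c.huw]

theorem u_ne : c.u ≠ 1 := by
  intro h
  have := c.u3
  rw [h] at this
  exact c.h34 this

theorem w_ne : c.w ≠ 1 := by
  intro h
  have := c.w1
  rw [h] at this
  exact c.h12 this

theorem a_ne : c.a ≠ 1 := by
  intro h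
  have := c.a1
  rw [h] at this
  exact c.h12 this

omit c in
theorem h6 (c : Cfg α) : 6 ≤ Fintype.card α := le_trans (by norm_num) c.h8

/-- conjugation by an involution preserving the base points normalises `H` -/
theorem conj_mem_H {z : Perm α} (hz : z ∈ c.G) (hzz : z * z = 1) (hzX : ∀ q ∈ c.X, z q ∈ c.X)
    {h : Perm α} (hh : h ∈ c.H) : z * h * z⁻¹ ∈ c.H := by
  have hzi : z⁻¹ = z := inv_eq_of_mul_eq_one_right hzz
  rw [hzi]
  refine ⟨c.G.mul_mem (c.G.mul_mem hz hh.1) hz, ?_⟩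
  intro q hq
  rw [Perm.mul_apply, Perm.mul_apply, hh.2 _ (hzX q hq), sq_app hzz]

theorem uX : ∀ q ∈ c.X, c.u q ∈ c.X := by
  intro q hq
  rw [mem_X] at hq ⊢
  rcases hq with rfl | rfl | rfl | rfl
  · rw [c.u1]; simp
  · rw [c.u2]; simp
  · rw [c.u3]; simp
  · rw [c.u4]; simp

theorem wX : ∀ q ∈ c.X, c.w q ∈ c.X := by
  intro q hq
  rw [mem_X] at hq ⊢
  rcases hq with rfl | rfl | rfl | rfl
  · rw [c.w1]; simp
  · rw [c.w2]; simp
  · rw [c.w3]; simp
  · rw [c.w4]; simp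

theorem aX : ∀ q ∈ c.X, c.a q ∈ c.X := by
  intro q hq
  rw [mem_X] at hq ⊢
  rcases hq with rfl | rfl | rfl | rfl
  · rw [c.a1]; simp
  · rw [c.a2]; simp
  · rw [c.a3]; simp
  · rw [c.a4]; simp

/-- the involution `b = (x₁ x₃)(x₂ x₄)…` commuting with `a` -/
theorem exists_b : ∃ b ∈ c.G, b * b = 1 ∧ b * c.a = c.a * b ∧ b c.x₁ = c.x₃ ∧ b c.x₂ = c.x₄ ∧
    b c.x₃ = c.x₁ ∧ b c.x₄ = c.x₂ := by
  obtain ⟨g, hg, g1, g2, g3, g4⟩ := exists_map4 c.h4 (a := c.x₁) (b := c.x₂) (c := c.x₃)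
    (d := c.x₄) (a' := c.x₃) (b' := c.x₄) (c' := c.x₁) (d' := c.x₂) c.h12 c.h13 c.h14 c.h23
    c.h24 c.h34 c.h34 c.h13.symm c.h23.symm c.h14.symm c.h24.symm c.h12
  obtain ⟨y, hy, hya, hys⟩ := conj_of_agree c.hni c.aG c.aG c.aa c.aa c.X c.X_card hg (by
      intro q hq
      rw [mem_X] at hq
      rcases hq with rfl | rfl | rfl | rfl
      · rw [c.a1, g2, g1, c.a3]
      · rw [c.a2, g1, g2, c.a4]
      · rw [c.a3, g4, g3, c.a1]
      · rw [c.a4, g3, g4, c.a2])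
  have y1 : y c.x₁ = c.x₃ := by rw [hys c.x₁ (by simp [X]), g1]
  have y2 : y c.x₂ = c.x₄ := by rw [hys c.x₂ (by simp [X]), g2]
  have y3 : y c.x₃ = c.x₁ := by rw [hys c.x₃ (by simp [X]), g3]
  have y4 : y c.x₄ = c.x₂ := by rw [hys c.x₄ (by simp [X]), g4]
  obtain ⟨b, hb, hbb, hby, hbc⟩ := invol_of c.hni hy c.X c.X_card
    (by
      intro q hq
      rw [mem_X] at hq
      rcases hq with rfl | rfl | rfl | rfl
      · rw [y1, y3]
      · rw [y2, y4]
      · rw [y3, y1]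
      · rw [y4, y2])
  refine ⟨b, hb, hbb, (hbc c.a hya.symm).symm, ?_, ?_, ?_, ?_⟩
  · rw [hby c.x₁ (by rw [y1, y3]), y1]
  · rw [hby c.x₂ (by rw [y2, y4]), y2]
  · rw [hby c.x₃ (by rw [y3, y1]), y3]
  · rw [hby c.x₄ (by rw [y4, y2]), y4]

theorem ne_of_notMem {γ : α} (hγ : γ ∉ c.X) :
    γ ≠ c.x₁ ∧ γ ≠ c.x₂ ∧ γ ≠ c.x₃ ∧ γ ≠ c.x₄ := by
  rw [mem_X] at hγ
  push Not at hγ
  exact hγ

/-- involutions have exactly two fixed points in even degree -/
theorem fx2 (hev : Even (Fintype.card α)) {t : Perm α} (htG : t ∈ c.G) (ht : t * t = 1)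
    (ht1 : t ≠ 1) : (fx t).card = 2 := by
  rw [fx_card_eq c.h4 c.hni c.h8 htG ht ht1, if_pos hev]

theorem fx_pair (hev : Even (Fintype.card α)) {t : Perm α} (htG : t ∈ c.G) (ht : t * t = 1)
    (ht1 : t ≠ 1) {p q : α} (hp : t p = p) (hq : t q = q) (hpq : p ≠ q) {r : α} (hr : t r = r) :
    r = p ∨ r = q := by
  have h2 := c.fx2 hev htG ht ht1
  have hsub : ({p, q} : Finset α) ⊆ fx t := by
    intro r hr
    simp only [Finset.mem_insert, Finset.mem_singleton] at hr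
    rcases hr with rfl | rfl
    · exact mem_fx.mpr hp
    · exact mem_fx.mpr hq
  have heq := Finset.eq_of_subset_of_card_le hsub (by rw [h2, Finset.card_pair hpq])
  have : r ∈ ({p, q} : Finset α) := by rw [heq]; exact mem_fx.mpr hr
  simpa using this

theorem fxu_even (hev : Even (Fintype.card α)) {q : α} (hq : c.u q = q) :
    q = c.x₁ ∨ q = c.x₂ :=
  c.fx_pair hev c.huG c.huu c.u_ne c.u1 c.u2 c.h12 hq

/-- no element of `H` maps a point outside the base to its `u`-image -/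
theorem E2 (hev : Even (Fintype.card α)) {γ : α} (hγ : γ ∉ c.X) {h : Perm α} (hh : h ∈ c.H) :
    h γ ≠ c.u γ := by
  intro hcon
  obtain ⟨hG, h1, h2, h3, h4⟩ := c.mem_H.mp hh
  obtain ⟨γ1, γ2, γ3, γ4⟩ := c.ne_of_notMem hγ
  have i1 : h⁻¹ c.x₁ = c.x₁ := by rw [Perm.inv_eq_iff_eq, h1]
  have i2 : h⁻¹ c.x₂ = c.x₂ := by rw [Perm.inv_eq_iff_eq, h2]
  have i3 : h⁻¹ c.x₃ = c.x₃ := by rw [Perm.inv_eq_iff_eq, h3]
  have i4 : h⁻¹ c.x₄ = c.x₄ := by rw [Perm.inv_eq_iff_eq, h4]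
  have yG : h⁻¹ * c.u ∈ c.G := c.G.mul_mem (c.G.inv_mem hG) c.huG
  have y1 : (h⁻¹ * c.u) c.x₁ = c.x₁ := by rw [Perm.mul_apply, c.u1, i1]
  have y2 : (h⁻¹ * c.u) c.x₂ = c.x₂ := by rw [Perm.mul_apply, c.u2, i2]
  have y3 : (h⁻¹ * c.u) c.x₃ = c.x₄ := by rw [Perm.mul_apply, c.u3, i4]
  have y4 : (h⁻¹ * c.u) c.x₄ = c.x₃ := by rw [Perm.mul_apply, c.u4, i3]
  have yγ : (h⁻¹ * c.u) γ = γ := by rw [Perm.mul_apply, ← hcon, Miller.inv_app]
  obtain ⟨t, htG, htt, hty, -⟩ := invol_of c.hni yG c.X c.X_card (by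
    intro q hq
    rw [mem_X] at hq
    rcases hq with rfl | rfl | rfl | rfl
    · rw [y1, y1]
    · rw [y2, y2]
    · rw [y3, y4]
    · rw [y4, y3])
  have t1 : t c.x₁ = c.x₁ := by rw [hty _ (by rw [y1, y1]), y1]
  have t2 : t c.x₂ = c.x₂ := by rw [hty _ (by rw [y2, y2]), y2]
  have t3 : t c.x₃ = c.x₄ := by rw [hty _ (by rw [y3, y4]), y3]
  have tγ : t γ = γ := by rw [hty _ (by rw [yγ, yγ]), yγ]
  have tne : t ≠ 1 := by
    intro h'
    rw [h'] at t3
    exact c.h34 t3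
  rcases c.fx_pair hev htG htt tne t1 t2 c.h12 tγ with h' | h'
  · exact γ1 h'
  · exact γ2 h'

/-- `H` has at most the two orbits of `γ` and `w γ` outside the base -/
theorem E3 (hev : Even (Fintype.card α)) {γ δ : α} (hγ : γ ∉ c.X) (hδ : δ ∉ c.X) :
    (∃ h ∈ c.H, h γ = δ) ∨ (∃ h ∈ c.H, h (c.w γ) = δ) := by
  obtain ⟨γ1, γ2, γ3, γ4⟩ := c.ne_of_notMem hγ
  obtain ⟨δ1, δ2, δ3, δ4⟩ := c.ne_of_notMem hδ
  have huγ : c.u γ ≠ γ := fun h => by
    rcases c.fxu_even hev h with h | h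
    · exact γ1 h
    · exact γ2 h
  have huδ : c.u δ ≠ δ := fun h => by
    rcases c.fxu_even hev h with h | h
    · exact δ1 h
    · exact δ2 h
  have hu3 : c.u c.x₃ ≠ c.x₃ := by rw [c.u3]; exact c.h34.symm
  obtain ⟨x, hx, hxu, x3, xγ⟩ := conj_J c.h4 c.hni c.huG c.huG c.huu c.huu (a := c.x₃) (c := γ)
    (a' := c.x₃) (c' := δ) hu3 huγ γ3 (by rw [c.u3]; exact γ4) hu3 huδ δ3 (by rw [c.u3]; exact δ4)
  have x4 : x c.x₄ = c.x₄ := by
    have := congrArg (fun f : Perm α => f c.x₃) hxu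
    simp only [Perm.mul_apply] at this
    rw [c.u3, x3, c.u3] at this
    exact this
  have hx1 : x c.x₁ = c.x₁ ∨ x c.x₁ = c.x₂ :=
    c.fxu_even hev (mem_fx.mp ((fx_conj hxu c.x₁).mp (mem_fx.mpr c.u1)))
  have hx2 : x c.x₂ = c.x₁ ∨ x c.x₂ = c.x₂ :=
    c.fxu_even hev (mem_fx.mp ((fx_conj hxu c.x₂).mp (mem_fx.mpr c.u2)))
  rcases hx1 with hx1 | hx1
  · left
    have hx2' : x c.x₂ = c.x₂ := by
      rcases hx2 with hx2 | hx2
      · exact absurd (x.injective (hx1.trans hx2.symm)) c.h12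
      · exact hx2
    exact ⟨x, c.mem_H.mpr ⟨hx, hx1, hx2', x3, x4⟩, xγ⟩
  · right
    have hx2' : x c.x₂ = c.x₁ := by
      rcases hx2 with hx2 | hx2
      · exact hx2
      · exact absurd (x.injective (hx1.trans hx2.symm)) c.h12
    refine ⟨x * c.w, c.mem_H.mpr ⟨c.G.mul_mem hx c.hwG, ?_, ?_, ?_, ?_⟩, ?_⟩
    · rw [Perm.mul_apply, c.w1, hx2']
    · rw [Perm.mul_apply, c.w2, hx1]
    · rw [Perm.mul_apply, c.w3, x3]
    · rw [Perm.mul_apply, c.w4, x4]
    · rw [Perm.mul_apply, sq_app c.hww, xγ]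

omit c in
/-- the even degree case is impossible -/
theorem even_false (c : Cfg α) (hev : Even (Fintype.card α)) : False := by
  obtain ⟨b, hbG, hbb, hba, b1, b2, b3, b4⟩ := c.exists_b
  have hbne : b ≠ 1 := by
    intro h
    rw [h] at b1
    exact c.h13 b1
  have hbX : ∀ q ∈ c.X, b q ∈ c.X := by
    intro q hq
    rw [mem_X] at hq ⊢
    rcases hq with rfl | rfl | rfl | rfl
    · rw [b1]; simp
    · rw [b2]; simp
    · rw [b3]; simp
    · rw [b4]; simp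
  have hfa := c.fx2 hev c.aG c.aa c.a_ne
  obtain ⟨γ₀, hγ₀⟩ : (fx c.a).Nonempty := Finset.card_pos.mp (by omega)
  rw [mem_fx] at hγ₀
  have hγX : γ₀ ∉ c.X := by
    intro h
    rw [mem_X] at h
    rcases h with h | h | h | h
    · rw [h, c.a1] at hγ₀; exact c.h12 hγ₀.symm
    · rw [h, c.a2] at hγ₀; exact c.h12 hγ₀
    · rw [h, c.a3] at hγ₀; exact c.h34 hγ₀.symm
    · rw [h, c.a4] at hγ₀; exact c.h34 hγ₀
  obtain ⟨γ1, γ2, γ3, γ4⟩ := c.ne_of_notMem hγX
  have huγ : c.u γ₀ ≠ γ₀ := fun h => by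
    rcases c.fxu_even hev h with h | h
    · exact γ1 h
    · exact γ2 h
  have hauγ : c.a (c.u γ₀) = c.u γ₀ := by
    have := congrArg (fun f : Perm α => f γ₀) c.ua
    simp only [Perm.mul_apply] at this
    rw [hγ₀] at this
    exact this.symm
  have hwγ : c.w γ₀ = c.u γ₀ := by
    have h1 : c.u (c.w γ₀) = γ₀ := hγ₀
    calc c.w γ₀ = c.u (c.u (c.w γ₀)) := (sq_app c.huu _).symm
      _ = c.u γ₀ := by rw [h1]
  have hfxa : ∀ q, c.a q = q → q = γ₀ ∨ q = c.u γ₀ := fun q hq =>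
    c.fx_pair hev c.aG c.aa c.a_ne hγ₀ hauγ (Ne.symm huγ) hq
  have hbγ : b γ₀ = γ₀ := by
    have hbfa : c.a (b γ₀) = b γ₀ := by
      have := congrArg (fun f : Perm α => f γ₀) hba
      simp only [Perm.mul_apply] at this
      rw [hγ₀] at this
      exact this.symm
    rcases hfxa _ hbfa with h | h
    · exact h
    · exfalso
      have hfb := c.fx2 hev hbG hbb hbne
      obtain ⟨δ, hδ⟩ : (fx b).Nonempty := Finset.card_pos.mp (by omega)
      rw [mem_fx] at hδ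
      have hδX : δ ∉ c.X := by
        intro h'
        rw [mem_X] at h'
        rcases h' with h' | h' | h' | h'
        · rw [h', b1] at hδ; exact c.h13 hδ.symm
        · rw [h', b2] at hδ; exact c.h24 hδ.symm
        · rw [h', b3] at hδ; exact c.h13 hδ
        · rw [h', b4] at hδ; exact c.h24 hδ
      rcases c.E3 hev hγX hδX with ⟨h₁, hh₁, e⟩ | ⟨h₁, hh₁, e⟩
      · have hh' := c.conj_mem_H hbG hbb hbX hh₁
        have e1 : (b * h₁ * b⁻¹) (c.u γ₀) = h₁ γ₀ := by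
          rw [← h]
          simp only [Perm.mul_apply, Miller.inv_app]
          rw [e]
          exact hδ
        have hk : (h₁⁻¹ * (b * h₁ * b⁻¹))⁻¹ ∈ c.H :=
          c.H.inv_mem (c.H.mul_mem (c.H.inv_mem hh₁) hh')
        apply c.E2 hev hγX hk
        rw [Perm.inv_eq_iff_eq, Perm.mul_apply, e1, Miller.inv_app]
      · rw [hwγ] at e
        have hh' := c.conj_mem_H hbG hbb hbX hh₁
        have e1 : (b * h₁ * b⁻¹) γ₀ = h₁ (c.u γ₀) := by
          have hbi : b⁻¹ = b := inv_eq_of_mul_eq_one_right hbb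
          rw [hbi]
          simp only [Perm.mul_apply]
          rw [h, e, hδ]
        have hk : h₁⁻¹ * (b * h₁ * b⁻¹) ∈ c.H := c.H.mul_mem (c.H.inv_mem hh₁) hh'
        apply c.E2 hev hγX hk
        rw [Perm.mul_apply, e1, Miller.inv_app]
  have hbuγ : b (c.u γ₀) = c.u γ₀ := by
    have hbfa : c.a (b (c.u γ₀)) = b (c.u γ₀) := by
      have := congrArg (fun f : Perm α => f (c.u γ₀)) hba
      simp only [Perm.mul_apply] at this
      rw [hauγ] at this
      exact this.symm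
    rcases hfxa _ hbfa with h | h
    · exact absurd (b.injective (h.trans hbγ.symm)) huγ
    · exact h
  have hab : c.a * b = b * c.a := hba.symm
  have habne : c.a * b ≠ 1 := by
    intro h
    have := congrArg (fun f : Perm α => f c.x₁) h
    simp only [Perm.mul_apply, Perm.one_apply] at this
    rw [b1, c.a3] at this
    exact c.h14 this.symm
  have habab : (c.a * b) * (c.a * b) = 1 := by
    calc c.a * b * (c.a * b) = c.a * (b * c.a) * b := by group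
      _ = c.a * (c.a * b) * b := by rw [hba]
      _ = (c.a * c.a) * (b * b) := by group
      _ = 1 := by rw [c.aa, hbb, one_mul]
  have key : ∀ z : Perm α, z ∈ c.G → z * z = 1 → z ≠ 1 → z γ₀ = γ₀ → z (c.u γ₀) = c.u γ₀ →
      ∀ h ∈ c.H, z * h = h * z → h γ₀ = γ₀ := by
    intro z hzG hzz hz1 hzγ hzuγ h hh hcomm
    have hz : z (h γ₀) = h γ₀ := by
      have := congrArg (fun f : Perm α => f γ₀) hcomm
      simp only [Perm.mul_apply] at this
      rw [hzγ] at this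
      exact this
    rcases c.fx_pair hev hzG hzz hz1 hzγ hzuγ (Ne.symm huγ) hz with h' | h'
    · exact h'
    · exact absurd h' (c.E2 hev hγX hh)
  have hHK : c.H ≤ Cfsg.Agent.S0713.fixG c.G {γ₀} := by
    apply Cfsg.Agent.Lib.Helper35.HallP3.klein_gen c.H _ c.H_odd c.a b c.aa hbb hab
      (fun h hh => c.conj_mem_H c.aG c.aa c.aX hh) (fun h hh => c.conj_mem_H hbG hbb hbX hh)
    · intro h hh hcomm
      exact ⟨hh.1, fun d hd => by
        rw [Finset.mem_singleton.mp hd]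
        exact key c.a c.aG c.aa c.a_ne hγ₀ hauγ h hh hcomm⟩
    · intro h hh hcomm
      exact ⟨hh.1, fun d hd => by
        rw [Finset.mem_singleton.mp hd]
        exact key b hbG hbb hbne hbγ hbuγ h hh hcomm⟩
    · intro h hh hcomm
      exact ⟨hh.1, fun d hd => by
        rw [Finset.mem_singleton.mp hd]
        exact key (c.a * b) (c.G.mul_mem c.aG hbG) habab habne
          (by rw [Perm.mul_apply, hbγ, hγ₀]) (by rw [Perm.mul_apply, hbuγ, hauγ]) h hh hcomm⟩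
  obtain ⟨δ, hδ⟩ : ∃ δ, δ ∉ c.X ∪ {γ₀, c.u γ₀} := by
    by_contra hcon
    push Not at hcon
    have h1 : c.X ∪ {γ₀, c.u γ₀} = Finset.univ := Finset.eq_univ_iff_forall.mpr hcon
    have h2 := Finset.card_union_le c.X ({γ₀, c.u γ₀} : Finset α)
    have h5 : ({γ₀, c.u γ₀} : Finset α).card ≤ 2 := Finset.card_le_two
    rw [h1, Finset.card_univ, c.X_card] at h2
    have := c.h8
    omega
  simp only [Finset.mem_union, Finset.mem_insert, Finset.mem_singleton, not_or] at hδ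
  obtain ⟨hδX, hδγ, hδu⟩ := hδ
  rcases c.E3 hev hγX hδX with ⟨h, hh, e⟩ | ⟨h, hh, e⟩
  · have := (hHK hh).2 γ₀ (by simp)
    rw [this] at e
    exact hδγ e.symm
  · rw [hwγ] at e
    have hh' := c.conj_mem_H c.huG c.huu c.uX hh
    have h7 := (hHK hh').2 γ₀ (by simp)
    have hui : c.u⁻¹ = c.u := inv_eq_of_mul_eq_one_right c.huu
    rw [hui] at h7
    simp only [Perm.mul_apply] at h7
    rw [e] at h7
    apply hδu
    rw [← h7, sq_app c.huu]

end Cfg

end Cfsg.Agent.Lib.Helper75.Hall
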