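import Cfsg.Agent.Lib.Helper75.Hall2

set_option autoImplicit false
set_option linter.unusedSectionVars false

namespace Cfsg.Agent.Lib.Helper75.Hall

open Equiv

variable {α : Type*} [Fintype α] [DecidableEq α]

/-- the even degree case is impossible -/
theorem even_case {G : Subgroup (Perm α)} (h4 : T4 G) (hni : NI G) (h8 : 8 ≤ Fintype.card α)
    (hev : Even (Fintype.card α)) : False := by
  obtain ⟨x₁, x₂, x₃, x₄, h12, h13, h14, h23, h24, h34⟩ := exists4 (α := α) (by omega)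
  obtain ⟨c, -, -⟩ := exists_cfg h4 hni h8 h12 h13 h14 h23 h24 h34
  exact c.even_false hev

/-- equality of four-point stabilisers -/
theorem fix_eq_of_le {G : Subgroup (Perm α)} (h4 : T4 G) {x₁ x₂ x₃ x₄ y₁ y₂ y₃ y₄ : α}
    (h12 : x₁ ≠ x₂) (h13 : x₁ ≠ x₃) (h14 : x₁ ≠ x₄) (h23 : x₂ ≠ x₃) (h24 : x₂ ≠ x₄)
    (h34 : x₃ ≠ x₄) (k12 : y₁ ≠ y₂) (k13 : y₁ ≠ y₃) (k14 : y₁ ≠ y₄) (k23 : y₂ ≠ y₃)
    (k24 : y₂ ≠ y₄) (k34 : y₃ ≠ y₄)
    (hle : ∀ h ∈ G, h x₁ = x₁ → h x₂ = x₂ → h x₃ = x₃ → h x₄ = x₄ →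
      (h y₁ = y₁ ∧ h y₂ = y₂ ∧ h y₃ = y₃ ∧ h y₄ = y₄))
    {h : Perm α} (hh : h ∈ G) (e1 : h y₁ = y₁) (e2 : h y₂ = y₂) (e3 : h y₃ = y₃)
    (e4 : h y₄ = y₄) : h x₁ = x₁ ∧ h x₂ = x₂ ∧ h x₃ = x₃ ∧ h x₄ = x₄ := by
  obtain ⟨g, hg, g1, g2, g3, g4⟩ := exists_map4 h4 h12 h13 h14 h23 h24 h34 k12 k13 k14 k23 k24 k34
  have hXY : Cfsg.Agent.S0713.fixG G {x₁, x₂, x₃, x₄} ≤ Cfsg.Agent.S0713.fixG G {y₁, y₂, y₃, y₄} := by
    intro k hk
    obtain ⟨a1, a2, a3, a4⟩ := hle k hk.1 (hk.2 x₁ (by simp)) (hk.2 x₂ (by simp))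
      (hk.2 x₃ (by simp)) (hk.2 x₄ (by simp))
    refine ⟨hk.1, ?_⟩
    intro d hd
    simp only [Finset.mem_insert, Finset.mem_singleton] at hd
    rcases hd with rfl | rfl | rfl | rfl <;> assumption
  have hcard : Nat.card (Cfsg.Agent.S0713.fixG G {y₁, y₂, y₃, y₄}) ≤
      Nat.card (Cfsg.Agent.S0713.fixG G {x₁, x₂, x₃, x₄}) := by
    let f : Cfsg.Agent.S0713.fixG G {y₁, y₂, y₃, y₄} → Cfsg.Agent.S0713.fixG G {x₁, x₂, x₃, x₄} :=
      fun k => ⟨g⁻¹ * k.1 * g, G.mul_mem (G.mul_mem (G.inv_mem hg) k.2.1) hg, by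
        intro d hd
        simp only [Finset.mem_insert, Finset.mem_singleton] at hd
        have hk := k.2.2
        rcases hd with rfl | rfl | rfl | rfl
        · rw [Perm.mul_apply, Perm.mul_apply, g1, hk y₁ (by simp), ← g1, Miller.inv_app]
        · rw [Perm.mul_apply, Perm.mul_apply, g2, hk y₂ (by simp), ← g2, Miller.inv_app]
        · rw [Perm.mul_apply, Perm.mul_apply, g3, hk y₃ (by simp), ← g3, Miller.inv_app]
        · rw [Perm.mul_apply, Perm.mul_apply, g4, hk y₄ (by simp), ← g4, Miller.inv_app]⟩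
    exact Nat.card_le_card_of_injective f (by
      intro k k' hkk
      have := congrArg Subtype.val hkk
      simp only [f] at this
      exact Subtype.ext (by simpa using this))
  have heq := Subgroup.eq_of_le_of_card_ge hXY hcard
  have hmem : h ∈ Cfsg.Agent.S0713.fixG G {y₁, y₂, y₃, y₄} := ⟨hh, by
    intro d hd
    simp only [Finset.mem_insert, Finset.mem_singleton] at hd
    rcases hd with rfl | rfl | rfl | rfl <;> assumption⟩
  rw [← heq] at hmem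
  exact ⟨hmem.2 x₁ (by simp), hmem.2 x₂ (by simp), hmem.2 x₃ (by simp), hmem.2 x₄ (by simp)⟩

/-- an element of odd order moving a point of an invariant 3-set moves all its points -/
theorem moves_all {h : Perm α} (hodd : Odd (orderOf h)) {S : Finset α} (hS : S.card = 3)
    (hinv : ∀ q ∈ S, h q ∈ S) {q₀ : α} (hq₀ : q₀ ∈ S) (hmove : h q₀ ≠ q₀) :
    ∀ q ∈ S, h q ≠ q := by
  intro q hq hfix
  have hS' : (S.erase q).card = 2 := by rw [Finset.card_erase_of_mem hq, hS]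
  obtain ⟨r₁, r₂, h12, hS'eq⟩ := Finset.card_eq_two.mp hS'
  have hr₁ : r₁ ∈ S.erase q := by rw [hS'eq]; simp
  have hr₂ : r₂ ∈ S.erase q := by rw [hS'eq]; simp
  have hinv' : ∀ r ∈ S.erase q, h r ∈ S.erase q := by
    intro r hr
    rw [Finset.mem_erase] at hr ⊢
    exact ⟨fun e => hr.1 (h.injective (e.trans hfix.symm)), hinv r hr.2⟩
  have h1 := hinv' r₁ hr₁
  have h2 := hinv' r₂ hr₂
  rw [hS'eq] at h1 h2
  simp only [Finset.mem_insert, Finset.mem_singleton] at h1 h2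
  have f1 : h r₁ = r₁ := by
    rcases h1 with h1 | h1
    · exact h1
    · rcases h2 with h2 | h2
      · exact odd_fix hodd (by rw [h1, h2])
      · exact absurd (h.injective (h1.trans h2.symm)) h12
  have f2 : h r₂ = r₂ := by
    rcases h2 with h2 | h2
    · exact absurd (h.injective (f1.trans h2.symm)) h12
    · exact h2
  by_cases hq₀q : q₀ = q
  · apply hmove
    rw [hq₀q]
    exact hfix
  · have h3 : q₀ ∈ S.erase q := Finset.mem_erase.mpr ⟨hq₀q, hq₀⟩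
    rw [hS'eq] at h3
    simp only [Finset.mem_insert, Finset.mem_singleton] at h3
    rcases h3 with h3 | h3
    · rw [h3] at hmove; exact hmove f1
    · rw [h3] at hmove; exact hmove f2

/-- an element of odd order moving a point of an invariant 3-set permutes it cyclically -/
theorem orbit3 {h : Perm α} (hodd : Odd (orderOf h)) {S : Finset α} (hS : S.card = 3)
    (hinv : ∀ q ∈ S, h q ∈ S) {q : α} (hq : q ∈ S) (hmove : h q ≠ q) {q' : α} (hq' : q' ∈ S) :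
    q' = q ∨ q' = h q ∨ q' = h (h q) := by
  have h1 : h (h q) ≠ q := fun e => hmove (odd_fix hodd e)
  have h2 : h (h q) ≠ h q := fun e => hmove (h.injective e)
  have hsub : ({q, h q, h (h q)} : Finset α) ⊆ S := by
    intro r hr
    simp only [Finset.mem_insert, Finset.mem_singleton] at hr
    rcases hr with rfl | rfl | rfl
    · exact hq
    · exact hinv _ hq
    · exact hinv _ (hinv _ hq)
  have hc : ({q, h q, h (h q)} : Finset α).card = 3 := by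
    rw [Finset.card_eq_three]
    exact ⟨q, h q, h (h q), Ne.symm hmove, Ne.symm h1, Ne.symm h2, rfl⟩
  have heq := Finset.eq_of_subset_of_card_le hsub (by rw [hS, hc])
  rw [← heq] at hq'
  simpa using hq'

theorem fx3 {G : Subgroup (Perm α)} (h4 : T4 G) (hni : NI G) (h8 : 8 ≤ Fintype.card α)
    (hodd : ¬ Even (Fintype.card α)) {t : Perm α} (htG : t ∈ G) (ht : t * t = 1) (ht1 : t ≠ 1) :
    (fx t).card = 3 := by
  rw [fx_card_eq h4 hni h8 htG ht ht1, if_neg hodd]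

theorem fx_trip {G : Subgroup (Perm α)} (h4 : T4 G) (hni : NI G) (h8 : 8 ≤ Fintype.card α)
    (hodd : ¬ Even (Fintype.card α)) {t : Perm α} (htG : t ∈ G) (ht : t * t = 1) (ht1 : t ≠ 1)
    {p q r : α} (hp : t p = p) (hq : t q = q) (hr : t r = r) (hpq : p ≠ q) (hpr : p ≠ r)
    (hqr : q ≠ r) {s : α} (hs : t s = s) : s = p ∨ s = q ∨ s = r := by
  have h3 := fx3 h4 hni h8 hodd htG ht ht1
  have hsub : ({p, q, r} : Finset α) ⊆ fx t := by
    intro z hz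
    simp only [Finset.mem_insert, Finset.mem_singleton] at hz
    rcases hz with rfl | rfl | rfl
    · exact mem_fx.mpr hp
    · exact mem_fx.mpr hq
    · exact mem_fx.mpr hr
  have hc : ({p, q, r} : Finset α).card = 3 :=
    Finset.card_eq_three.mpr ⟨p, q, r, hpq, hpr, hqr, rfl⟩
  have heq := Finset.eq_of_subset_of_card_le hsub (by rw [h3, hc])
  have : s ∈ ({p, q, r} : Finset α) := by rw [heq]; exact mem_fx.mpr hs
  simpa using this

/-- an involution fixing `y₃`, `y₄`, `p` maps `y₁` to `y₂` -/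
theorem sub_inv {G : Subgroup (Perm α)} (h4 : T4 G) (hni : NI G) (h8 : 8 ≤ Fintype.card α)
    (hodd : ¬ Even (Fintype.card α)) {y₁ y₂ y₃ y₄ p : α}
    (k12 : y₁ ≠ y₂) (k13 : y₁ ≠ y₃) (k14 : y₁ ≠ y₄) (k23 : y₂ ≠ y₃) (k24 : y₂ ≠ y₄)
    (k34 : y₃ ≠ y₄) (kp1 : p ≠ y₁) (kp2 : p ≠ y₂) (kp3 : p ≠ y₃) (kp4 : p ≠ y₄)
    (hH : ∀ h ∈ G, h y₁ = y₁ → h y₂ = y₂ → h y₃ = y₃ → h y₄ = y₄ → h p = p)
    {w₀ : Perm α} (hw₀G : w₀ ∈ G) (hww : w₀ * w₀ = 1) (w1 : w₀ y₁ = y₂) (w3 : w₀ y₃ = y₃)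
    (w4 : w₀ y₄ = y₄) (wp : w₀ p = p)
    {t' : Perm α} (ht'G : t' ∈ G) (htt : t' * t' = 1) (ht1 : t' ≠ 1) (t3 : t' y₃ = y₃)
    (t4 : t' y₄ = y₄) (tp : t' p = p) : t' y₁ = y₂ := by
  have hfx : ∀ s, t' s = s → s = y₃ ∨ s = y₄ ∨ s = p := fun s hs =>
    fx_trip h4 hni h8 hodd ht'G htt ht1 t3 t4 tp k34 (Ne.symm kp3) (Ne.symm kp4) hs
  have hy1 : t' y₁ ≠ y₁ := by
    intro e
    rcases hfx _ e with e' | e' | e'
    · exact k13 e'
    · exact k14 e'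
    · exact kp1 e'.symm
  have hyy : t' (t' y₁) = y₁ := sq_app htt y₁
  have hy : t' (t' y₁) ≠ t' y₁ := by rw [hyy]; exact Ne.symm hy1
  have hy3 : t' y₁ ≠ y₃ := fun e => by
    apply hy
    rw [e, t3]
  have hy4 : t' y₁ ≠ y₄ := fun e => by
    apply hy
    rw [e, t4]
  have w2 : w₀ y₂ = y₁ := by rw [← w1, sq_app hww]
  obtain ⟨g, hg, g1, g2, g3, g4⟩ := exists_map4 h4 (a := y₁) (b := y₂) (c := y₃) (d := y₄)
    (a' := y₁) (b' := t' y₁) (c' := y₃) (d' := y₄) k12 k13 k14 k23 k24 k34 (Ne.symm hy1) k13 k14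
    hy3 hy4 k34
  obtain ⟨x, hx, hxw, hxs⟩ := conj_of_agree hni hw₀G ht'G hww htt {y₁, y₂, y₃, y₄}
    (card4 k12 k13 k14 k23 k24 k34) hg (by
      intro q hq
      simp only [Finset.mem_insert, Finset.mem_singleton] at hq
      rcases hq with rfl | rfl | rfl | rfl
      · rw [w1, g2, g1]
      · rw [w2, g1, g2, hyy]
      · rw [w3, g3, t3]
      · rw [w4, g4, t4])
  have x1 : x y₁ = y₁ := by rw [hxs y₁ (by simp), g1]
  have x2 : x y₂ = t' y₁ := by rw [hxs y₂ (by simp), g2]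
  have x3 : x y₃ = y₃ := by rw [hxs y₃ (by simp), g3]
  have x4 : x y₄ = y₄ := by rw [hxs y₄ (by simp), g4]
  have xp : x p = p := by
    have h1 : t' (x p) = x p := mem_fx.mp ((fx_conj hxw p).mp (mem_fx.mpr wp))
    rcases hfx _ h1 with e | e | e
    · exact absurd (x.injective (e.trans x3.symm)) kp3
    · exact absurd (x.injective (e.trans x4.symm)) kp4
    · exact e
  have h5 := fix_eq_of_le h4 (x₁ := y₁) (x₂ := y₂) (x₃ := y₃) (x₄ := y₄) (y₁ := y₁) (y₂ := y₃)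
    (y₃ := y₄) (y₄ := p) k12 k13 k14 k23 k24 k34 k13 k14 (Ne.symm kp1) k34 (Ne.symm kp3)
    (Ne.symm kp4) (fun h hh e1 e2 e3 e4 => ⟨e1, e3, e4, hH h hh e1 e2 e3 e4⟩) hx x1 x3 x4 xp
  rw [← x2]
  exact h5.2.1

/-- the three-point stabiliser of `y₃`, `y₄`, `p` has a unique involution -/
theorem unique_inv {G : Subgroup (Perm α)} (h4 : T4 G) (hni : NI G) (h8 : 8 ≤ Fintype.card α)
    (hodd : ¬ Even (Fintype.card α)) {y₁ y₂ y₃ y₄ p : α}
    (k12 : y₁ ≠ y₂) (k13 : y₁ ≠ y₃) (k14 : y₁ ≠ y₄) (k23 : y₂ ≠ y₃) (k24 : y₂ ≠ y₄)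
    (k34 : y₃ ≠ y₄) (kp1 : p ≠ y₁) (kp2 : p ≠ y₂) (kp3 : p ≠ y₃) (kp4 : p ≠ y₄)
    (hH : ∀ h ∈ G, h y₁ = y₁ → h y₂ = y₂ → h y₃ = y₃ → h y₄ = y₄ → h p = p)
    {w₀ : Perm α} (hw₀G : w₀ ∈ G) (hww : w₀ * w₀ = 1) (w1 : w₀ y₁ = y₂) (w3 : w₀ y₃ = y₃)
    (w4 : w₀ y₄ = y₄) (wp : w₀ p = p)
    {t' : Perm α} (ht'G : t' ∈ G) (htt : t' * t' = 1) (ht1 : t' ≠ 1) (t3 : t' y₃ = y₃)
    (t4 : t' y₄ = y₄) (tp : t' p = p) : t' = w₀ := by
  have w₀1 : w₀ ≠ 1 := by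
    intro e
    rw [e] at w1
    exact k12 w1
  ext q
  by_cases hq : q = y₃ ∨ q = y₄ ∨ q = p
  · rcases hq with hq | hq | hq
    · rw [hq, t3, w3]
    · rw [hq, t4, w4]
    · rw [hq, tp, wp]
  · push Not at hq
    obtain ⟨q3, q4, qp⟩ := hq
    obtain ⟨d, hd, d3, d4, dp, d1⟩ := exists_map4 h4 (a := y₃) (b := y₄) (c := p) (d := y₁)
      (a' := y₃) (b' := y₄) (c' := p) (d' := q) k34 (Ne.symm kp3) k13.symm (Ne.symm kp4)
      k14.symm kp1 k34 (Ne.symm kp3) (Ne.symm q3) (Ne.symm kp4) (Ne.symm q4) (Ne.symm qp)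
    have key : ∀ z : Perm α, z ∈ G → z * z = 1 → z ≠ 1 → z y₃ = y₃ → z y₄ = y₄ → z p = p →
        z q = d y₂ := by
      intro z hzG hzz hz1 z3 z4 zp
      have i3 : d⁻¹ y₃ = y₃ := by rw [Perm.inv_eq_iff_eq, d3]
      have i4 : d⁻¹ y₄ = y₄ := by rw [Perm.inv_eq_iff_eq, d4]
      have ip : d⁻¹ p = p := by rw [Perm.inv_eq_iff_eq, dp]
      have h5 := sub_inv h4 hni h8 hodd k12 k13 k14 k23 k24 k34 kp1 kp2 kp3 kp4 hH hw₀G hww w1 w3
        w4 wp (t' := d⁻¹ * z * d) (G.mul_mem (G.mul_mem (G.inv_mem hd) hzG) hd)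
        (by
          calc d⁻¹ * z * d * (d⁻¹ * z * d) = d⁻¹ * (z * z) * d := by group
            _ = 1 := by rw [hzz, mul_one, inv_mul_cancel])
        (by
          intro e
          apply hz1
          calc z = d * (d⁻¹ * z * d) * d⁻¹ := by group
            _ = 1 := by rw [e, mul_one, mul_inv_cancel])
        (by rw [Perm.mul_apply, Perm.mul_apply, d3, z3, i3])
        (by rw [Perm.mul_apply, Perm.mul_apply, d4, z4, i4])
        (by rw [Perm.mul_apply, Perm.mul_apply, dp, zp, ip])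
      rw [Perm.mul_apply, Perm.mul_apply, d1, Perm.inv_eq_iff_eq] at h5
      exact h5
    rw [key t' ht'G htt ht1 t3 t4 tp, key w₀ hw₀G hww w₀1 w3 w4 wp]

end Cfsg.Agent.Lib.Helper75.Hall
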