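import Cfsg.Agent.Lib.Helper75.Hall3

set_option autoImplicit false
set_option linter.unusedSectionVars false

namespace Cfsg.Agent.Lib.Helper75.Hall

open Equiv

variable {α : Type*} [Fintype α] [DecidableEq α]

/-- transitivity of one four-point stabiliser outside its points gives 5-fold transitivity -/
theorem t5_of_trans {G : Subgroup (Perm α)} (h4 : T4 G) (X : Finset α) (hX : X.card = 4)
    (htr : ∀ δ ∉ X, ∀ δ' ∉ X, ∃ h ∈ G, (∀ q ∈ X, h q = q) ∧ h δ = δ') :
    ∀ s : Finset α, s.card ≤ 5 → ∀ σ : Perm α, ∃ g ∈ G, ∀ q ∈ s, g q = σ q := by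
  have hY : ∀ Y : Finset α, Y.card = 4 → ∀ δ ∉ Y, ∀ δ' ∉ Y,
      ∃ h ∈ G, (∀ q ∈ Y, h q = q) ∧ h δ = δ' := by
    intro Y hYc δ hδ δ' hδ'
    let e : {x // x ∈ X} ≃ {x // x ∈ Y} := Fintype.equivOfCardEq (by
      rw [Fintype.card_coe, Fintype.card_coe, hX, hYc])
    obtain ⟨g₂, hg₂, hg₂s⟩ := h4 X (le_of_eq hX) e.extendSubtype
    have hmap : ∀ q ∈ X, g₂ q ∈ Y := by
      intro q hq
      rw [hg₂s q hq]
      exact e.extendSubtype_mem q hq
    have himg : X.map g₂.toEmbedding = Y := by
      apply Finset.eq_of_subset_of_card_le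
      · intro y hy
        rw [Finset.mem_map] at hy
        obtain ⟨q, hq, rfl⟩ := hy
        exact hmap q hq
      · rw [Finset.card_map, hX, hYc]
    have hpre : ∀ y ∈ Y, g₂⁻¹ y ∈ X := by
      intro y hy
      rw [← himg, Finset.mem_map] at hy
      obtain ⟨q, hq, rfl⟩ := hy
      have : g₂⁻¹ (g₂.toEmbedding q) = q := Miller.inv_app g₂ q
      rw [this]
      exact hq
    have hδX : g₂⁻¹ δ ∉ X := by
      intro h
      apply hδ
      have := hmap _ h
      rwa [Miller.app_inv] at this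
    have hδX' : g₂⁻¹ δ' ∉ X := by
      intro h
      apply hδ'
      have := hmap _ h
      rwa [Miller.app_inv] at this
    obtain ⟨h', hh', hfix, hmv⟩ := htr _ hδX _ hδX'
    refine ⟨g₂ * h' * g₂⁻¹, G.mul_mem (G.mul_mem hg₂ hh') (G.inv_mem hg₂), ?_, ?_⟩
    · intro y hy
      rw [Perm.mul_apply, Perm.mul_apply, hfix _ (hpre y hy), Miller.app_inv]
    · rw [Perm.mul_apply, Perm.mul_apply, hmv, Miller.app_inv]
  intro s hs σ
  by_cases hs4 : s.card ≤ 4
  · exact h4 s hs4 σ
  · have hs5 : s.card = 5 := by omega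
    obtain ⟨q₅, hq₅⟩ : s.Nonempty := Finset.card_pos.mp (by omega)
    have hc4 : (s.erase q₅).card = 4 := by rw [Finset.card_erase_of_mem hq₅, hs5]
    obtain ⟨g₁, hg₁, hg₁s⟩ := h4 (s.erase q₅) (le_of_eq hc4) σ
    have hYc : ((s.erase q₅).map g₁.toEmbedding).card = 4 := by rw [Finset.card_map, hc4]
    have hδ : g₁ q₅ ∉ (s.erase q₅).map g₁.toEmbedding := by
      intro h
      rw [Finset.mem_map] at h
      obtain ⟨q, hq, e⟩ := h
      have : q = q₅ := g₁.injective e
      rw [this] at hq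
      exact (Finset.notMem_erase q₅ s) hq
    have hδ' : σ q₅ ∉ (s.erase q₅).map g₁.toEmbedding := by
      intro h
      rw [Finset.mem_map] at h
      obtain ⟨q, hq, e⟩ := h
      have e' : g₁ q = σ q₅ := e
      rw [hg₁s q hq] at e'
      have : q = q₅ := σ.injective e'
      rw [this] at hq
      exact (Finset.notMem_erase q₅ s) hq
    obtain ⟨h, hh, hfix, hmv⟩ := hY _ hYc _ hδ _ hδ'
    refine ⟨h * g₁, G.mul_mem hh hg₁, ?_⟩
    intro q hq
    rw [Perm.mul_apply]
    by_cases hqq : q = q₅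
    · rw [hqq, hmv]
    · have hq' : q ∈ s.erase q₅ := Finset.mem_erase.mpr ⟨hqq, hq⟩
      have := hfix (g₁ q) (by rw [Finset.mem_map]; exact ⟨q, hq', rfl⟩)
      rw [this, hg₁s q hq']

/-- a transitive four-point stabiliser is impossible in odd degree (reduction to the point
stabiliser, which has even degree) -/
theorem trans_false {G : Subgroup (Perm α)} (h4 : T4 G) (hni : NI G) (h9 : 9 ≤ Fintype.card α)
    (hodd : ¬ Even (Fintype.card α)) (X : Finset α) (hX : X.card = 4)
    (htr : ∀ δ ∉ X, ∀ δ' ∉ X, ∃ h ∈ G, (∀ q ∈ X, h q = q) ∧ h δ = δ') : False := by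
  have h5 := t5_of_trans h4 X hX htr
  obtain ⟨p₀⟩ : Nonempty α := Fintype.card_pos_iff.mp (by omega)
  have h4' : T4 (G.comap (Perm.ofSubtype : Perm {q // q ≠ p₀} →* Perm α)) := by
    intro s hs σ
    obtain ⟨g, hg, hgs⟩ := h5 (insert p₀ (s.map (Function.Embedding.subtype _))) (by
      refine le_trans (Finset.card_insert_le _ _) ?_
      rw [Finset.card_map]
      omega) (Perm.ofSubtype σ)
    have gp : g p₀ = p₀ := by
      rw [hgs p₀ (Finset.mem_insert_self _ _)]
      exact Perm.ofSubtype_apply_of_not_mem σ (by simp)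
    have h₁ : ∀ x, g x ≠ p₀ ↔ x ≠ p₀ := by
      intro x
      constructor
      · intro h e
        apply h
        rw [e, gp]
      · intro h e
        apply h
        exact g.injective (e.trans gp.symm)
    have h₂ : ∀ x, g x ≠ x → x ≠ p₀ := by
      intro x h e
      apply h
      rw [e, gp]
    refine ⟨g.subtypePerm h₁, ?_, ?_⟩
    · show Perm.ofSubtype (g.subtypePerm h₁) ∈ G
      rw [Perm.ofSubtype_subtypePerm h₁ h₂]
      exact hg
    · intro q hq
      apply Subtype.ext
      rw [Perm.subtypePerm_apply]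
      have h7 := hgs q.1 (Finset.mem_insert_of_mem (by
        rw [Finset.mem_map]
        exact ⟨q, hq, rfl⟩))
      rw [Perm.ofSubtype_apply_coe] at h7
      exact h7
  have hni' : NI (G.comap (Perm.ofSubtype : Perm {q // q ≠ p₀} →* Perm α)) := by
    intro τ hτ hττ s hs hfix
    have hg : Perm.ofSubtype τ ∈ G := hτ
    have hgg : Perm.ofSubtype τ * Perm.ofSubtype τ = 1 := by rw [← map_mul, hττ, map_one]
    have h7 := hni _ hg hgg (s.map (Function.Embedding.subtype _)) (by rw [Finset.card_map, hs]) (by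
      intro q hq
      rw [Finset.mem_map] at hq
      obtain ⟨r, hr, rfl⟩ := hq
      show Perm.ofSubtype τ (r : α) = r
      rw [Perm.ofSubtype_apply_coe, hfix r hr])
    exact Perm.ofSubtype_injective (by rw [h7, map_one])
  have hcard : Fintype.card {q // q ≠ p₀} = Fintype.card α - 1 := by
    simp [Fintype.card_subtype_compl]
  have hodd' : Odd (Fintype.card α) := Nat.not_even_iff_odd.mp hodd
  obtain ⟨k, hk⟩ := hodd'
  exact even_case h4' hni' (by rw [hcard]; omega) (by rw [hcard, hk]; exact ⟨k, by omega⟩)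

end Cfsg.Agent.Lib.Helper75.Hall
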