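import Cfsg.Agent.Lib.Helper75.Hall4

set_option autoImplicit false
set_option linter.unusedSectionVars false

namespace Cfsg.Agent.Lib.Helper75.Hall

open Equiv

/-- the odd degree configuration: `u` has a third fixed point `p` -/
structure OCfg (α : Type*) [Fintype α] [DecidableEq α] extends Cfg α where
  hodd : ¬ Even (Fintype.card α)
  p : α
  up : u p = p
  hpX : p ∉ toCfg.X

variable {α : Type*} [Fintype α] [DecidableEq α]

theorem exists_ocfg (c : Cfg α) (hodd : ¬ Even (Fintype.card α)) :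
    ∃ o : OCfg α, o.toCfg = c := by
  have hfu3 := fx3 c.h4 c.hni c.h8 hodd c.huG c.huu c.u_ne
  obtain ⟨p, hp, hpn⟩ : ∃ p ∈ fx c.u, p ∉ ({c.x₁, c.x₂} : Finset α) :=
    Finset.exists_mem_notMem_of_card_lt_card (by
      rw [hfu3]
      exact lt_of_le_of_lt Finset.card_le_two (by norm_num))
  rw [mem_fx] at hp
  simp only [Finset.mem_insert, Finset.mem_singleton, not_or] at hpn
  have hpX : p ∉ c.X := by
    intro h
    rw [Cfg.mem_X] at h
    rcases h with h | h | h | h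
    · exact hpn.1 h
    · exact hpn.2 h
    · rw [h, c.u3] at hp; exact c.h34 hp.symm
    · rw [h, c.u4] at hp; exact c.h34 hp
  exact ⟨{ toCfg := c, hodd := hodd, p := p, up := hp, hpX := hpX }, rfl⟩

namespace OCfg

variable (o : OCfg α)

theorem pne : o.p ≠ o.x₁ ∧ o.p ≠ o.x₂ ∧ o.p ≠ o.x₃ ∧ o.p ≠ o.x₄ :=
  o.toCfg.ne_of_notMem o.hpX

theorem fxu {q : α} (hq : o.u q = q) : q = o.x₁ ∨ q = o.x₂ ∨ q = o.p :=
  fx_trip o.h4 o.hni o.h8 o.hodd o.huG o.huu o.toCfg.u_ne o.u1 o.u2 o.up o.h12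
    (Ne.symm o.pne.1) (Ne.symm o.pne.2.1) hq

theorem wp : o.w o.p = o.p := by
  have h1 : o.u (o.w o.p) = o.w o.p := by
    have := congrArg (fun f : Perm α => f o.p) o.huw
    simp only [Perm.mul_apply] at this
    rw [o.up] at this
    exact this
  rcases o.fxu h1 with h | h | h
  · exact absurd (o.w.injective (h.trans o.w2.symm)) o.pne.2.1
  · exact absurd (o.w.injective (h.trans o.w1.symm)) o.pne.1
  · exact h

theorem fxw {q : α} (hq : o.w q = q) : q = o.x₃ ∨ q = o.x₄ ∨ q = o.p :=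
  fx_trip o.h4 o.hni o.h8 o.hodd o.hwG o.hww o.toCfg.w_ne o.w3 o.w4 o.wp o.h34
    (Ne.symm o.pne.2.2.1) (Ne.symm o.pne.2.2.2) hq

theorem ap : o.a o.p = o.p := by
  unfold Cfg.a
  rw [Perm.mul_apply, o.wp, o.up]

theorem exists_p₁ : ∃ p₁, o.a p₁ = p₁ ∧ p₁ ≠ o.p := by
  have hfa3 := fx3 o.h4 o.hni o.h8 o.hodd o.toCfg.aG o.toCfg.aa o.toCfg.a_ne
  obtain ⟨p₁, hp₁, hp₁n⟩ : ∃ p₁ ∈ fx o.a, p₁ ∉ ({o.p} : Finset α) :=
    Finset.exists_mem_notMem_of_card_lt_card (by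
      rw [hfa3, Finset.card_singleton]
      norm_num)
  rw [mem_fx] at hp₁
  rw [Finset.mem_singleton] at hp₁n
  exact ⟨p₁, hp₁, hp₁n⟩

/-- a second fixed point of `a` -/
noncomputable def p₁ : α := Classical.choose o.exists_p₁

theorem ap₁ : o.a o.p₁ = o.p₁ := (Classical.choose_spec o.exists_p₁).1

theorem hp₁ : o.p₁ ≠ o.p := (Classical.choose_spec o.exists_p₁).2

theorem p₁X : o.p₁ ∉ o.X := by
  intro h
  rw [Cfg.mem_X] at h
  have h1 := o.ap₁
  rcases h with h | h | h | h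
  · rw [h, o.a1] at h1; exact o.h12 h1.symm
  · rw [h, o.a2] at h1; exact o.h12 h1
  · rw [h, o.a3] at h1; exact o.h34 h1.symm
  · rw [h, o.a4] at h1; exact o.h34 h1

theorem up₁ : o.u o.p₁ ≠ o.p₁ := by
  intro h
  obtain ⟨n1, n2, n3, n4⟩ := o.toCfg.ne_of_notMem o.p₁X
  rcases o.fxu h with h | h | h
  · exact n1 h
  · exact n2 h
  · exact o.hp₁ h

/-- the third fixed point of `a` -/
noncomputable def p₂ : α := o.u o.p₁

theorem ap₂ : o.a o.p₂ = o.p₂ := by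
  have := congrArg (fun f : Perm α => f o.p₁) o.toCfg.ua
  simp only [Perm.mul_apply] at this
  rw [o.ap₁] at this
  exact this.symm

theorem p₂ne₁ : o.p₂ ≠ o.p₁ := o.up₁

theorem p₂ne : o.p₂ ≠ o.p := by
  intro h
  have h1 : o.u o.p₁ = o.u o.p := by rw [o.up]; exact h
  exact o.hp₁ (o.u.injective h1)

theorem up₂ : o.u o.p₂ = o.p₁ := sq_app o.huu o.p₁

theorem p₂X : o.p₂ ∉ o.X := by
  intro h
  have h1 := o.toCfg.uX _ h
  rw [o.up₂] at h1
  exact o.p₁X h1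

theorem fxa {q : α} (hq : o.a q = q) : q = o.p ∨ q = o.p₁ ∨ q = o.p₂ :=
  fx_trip o.h4 o.hni o.h8 o.hodd o.toCfg.aG o.toCfg.aa o.toCfg.a_ne o.ap o.ap₁ o.ap₂
    (Ne.symm o.hp₁) (Ne.symm o.p₂ne) (Ne.symm o.p₂ne₁) hq

theorem wp₁ : o.w o.p₁ = o.p₂ := by
  have h1 : o.u (o.w o.p₁) = o.p₁ := o.ap₁
  calc o.w o.p₁ = o.u (o.u (o.w o.p₁)) := (sq_app o.huu _).symm
    _ = o.p₂ := by rw [h1]; rfl

theorem wp₂ : o.w o.p₂ = o.p₁ := by rw [← o.wp₁, sq_app o.hww]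

theorem comm_a2 {x : Perm α} (hxa : x * o.a = o.a * x) (x1 : x o.x₁ = o.x₁) :
    x o.x₂ = o.x₂ := by
  have := congrArg (fun f : Perm α => f o.x₁) hxa
  simp only [Perm.mul_apply] at this
  rw [o.a1, x1, o.a1] at this
  exact this

theorem comm_a4 {x : Perm α} (hxa : x * o.a = o.a * x) :
    x o.x₄ = o.a (x o.x₃) := by
  have := congrArg (fun f : Perm α => f o.x₃) hxa
  simp only [Perm.mul_apply] at this
  rw [o.a3] at this
  exact this

end OCfg

end Cfsg.Agent.Lib.Helper75.Hall
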