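import Cfsg.Agent.Lib.Helper75.Hall5

set_option autoImplicit false
set_option linter.unusedSectionVars false

namespace Cfsg.Agent.Lib.Helper75.Hall

open Equiv

variable {α : Type*} [Fintype α] [DecidableEq α]

namespace OCfg

variable (o : OCfg α)

/-- the case where the centraliser of `a` in `H` fixes `p`: degree 11 and `H = 1` -/
theorem fx_case (hFx : ∀ h ∈ o.H, o.a * h = h * o.a → h o.p = o.p) :
    Fintype.card α = 11 ∧ ∀ h ∈ o.H, h = 1 := by
  obtain ⟨np1, np2, np3, np4⟩ := o.pne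
  obtain ⟨q1, q2, q3, q4⟩ := o.toCfg.ne_of_notMem o.p₁X
  obtain ⟨r1, r2, r3, r4⟩ := o.toCfg.ne_of_notMem o.p₂X
  have hHp : ∀ h ∈ o.H, h o.p = o.p := by
    have hle : o.H ≤ Cfsg.Agent.S0713.fixG o.G {o.p} := by
      apply Cfsg.Agent.Lib.Helper35.HallP3.klein_gen o.H _ o.toCfg.H_odd o.u o.w o.huu o.hww o.huw
        (fun h hh => o.toCfg.conj_mem_H o.huG o.huu o.toCfg.uX hh)
        (fun h hh => o.toCfg.conj_mem_H o.hwG o.hww o.toCfg.wX hh)
      · intro h hh hcomm
        refine ⟨hh.1, fun d hd => ?_⟩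
        rw [Finset.mem_singleton.mp hd]
        have h1 : o.u (h o.p) = h o.p := by
          have := congrArg (fun f : Perm α => f o.p) hcomm
          simp only [Perm.mul_apply] at this
          rw [o.up] at this
          exact this
        obtain ⟨-, e1, e2, e3, e4⟩ := o.toCfg.mem_H.mp hh
        rcases o.fxu h1 with e | e | e
        · exact absurd (h.injective (e.trans e1.symm)) np1
        · exact absurd (h.injective (e.trans e2.symm)) np2
        · exact e
      · intro h hh hcomm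
        refine ⟨hh.1, fun d hd => ?_⟩
        rw [Finset.mem_singleton.mp hd]
        have h1 : o.w (h o.p) = h o.p := by
          have := congrArg (fun f : Perm α => f o.p) hcomm
          simp only [Perm.mul_apply] at this
          rw [o.wp] at this
          exact this
        obtain ⟨-, e1, e2, e3, e4⟩ := o.toCfg.mem_H.mp hh
        rcases o.fxw h1 with e | e | e
        · exact absurd (h.injective (e.trans e3.symm)) np3
        · exact absurd (h.injective (e.trans e4.symm)) np4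
        · exact e
      · intro h hh hcomm
        exact ⟨hh.1, fun d hd => by
          rw [Finset.mem_singleton.mp hd]
          exact hFx h hh hcomm⟩
    intro h hh
    exact (hle hh).2 o.p (by simp)
  have hHw : ∀ h ∈ o.H, h * o.w = o.w * h := by
    intro h hh
    obtain ⟨hG, e1, e2, e3, e4⟩ := o.toCfg.mem_H.mp hh
    have i3 : h⁻¹ o.x₃ = o.x₃ := by rw [Perm.inv_eq_iff_eq, e3]
    have i4 : h⁻¹ o.x₄ = o.x₄ := by rw [Perm.inv_eq_iff_eq, e4]
    have ip : h⁻¹ o.p = o.p := by rw [Perm.inv_eq_iff_eq, hHp h hh]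
    have h5 := unique_inv o.h4 o.hni o.h8 o.hodd o.h12 o.h13 o.h14 o.h23 o.h24 o.h34 np1 np2 np3 np4
      (fun k hk k1 k2 k3 k4 => hHp k (o.toCfg.mem_H.mpr ⟨hk, k1, k2, k3, k4⟩))
      o.hwG o.hww o.w1 o.w3 o.w4 o.wp
      (t' := h * o.w * h⁻¹) (o.G.mul_mem (o.G.mul_mem hG o.hwG) (o.G.inv_mem hG))
      (by
        calc h * o.w * h⁻¹ * (h * o.w * h⁻¹) = h * (o.w * o.w) * h⁻¹ := by group
          _ = 1 := by rw [o.hww, mul_one, mul_inv_cancel])
      (by
        intro e
        apply o.toCfg.w_ne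
        calc o.w = h⁻¹ * (h * o.w * h⁻¹) * h := by group
          _ = 1 := by rw [e, mul_one, inv_mul_cancel])
      (by rw [Perm.mul_apply, Perm.mul_apply, i3, o.w3, e3])
      (by rw [Perm.mul_apply, Perm.mul_apply, i4, o.w4, e4])
      (by rw [Perm.mul_apply, Perm.mul_apply, ip, o.wp, hHp h hh])
    calc h * o.w = (h * o.w * h⁻¹) * h := by group
      _ = o.w * h := by rw [h5]
  have hHu : ∀ h ∈ o.H, h * o.u = o.u * h := by
    intro h hh
    obtain ⟨hG, e1, e2, e3, e4⟩ := o.toCfg.mem_H.mp hh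
    have i1 : h⁻¹ o.x₁ = o.x₁ := by rw [Perm.inv_eq_iff_eq, e1]
    have i2 : h⁻¹ o.x₂ = o.x₂ := by rw [Perm.inv_eq_iff_eq, e2]
    have ip : h⁻¹ o.p = o.p := by rw [Perm.inv_eq_iff_eq, hHp h hh]
    have h5 := unique_inv o.h4 o.hni o.h8 o.hodd (y₁ := o.x₃) (y₂ := o.x₄) (y₃ := o.x₁)
      (y₄ := o.x₂) o.h34 o.h13.symm o.h23.symm o.h14.symm o.h24.symm o.h12 np3 np4 np1 np2
      (fun k hk k3 k4 k1 k2 => hHp k (o.toCfg.mem_H.mpr ⟨hk, k1, k2, k3, k4⟩))
      o.huG o.huu o.u3 o.u1 o.u2 o.up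
      (t' := h * o.u * h⁻¹) (o.G.mul_mem (o.G.mul_mem hG o.huG) (o.G.inv_mem hG))
      (by
        calc h * o.u * h⁻¹ * (h * o.u * h⁻¹) = h * (o.u * o.u) * h⁻¹ := by group
          _ = 1 := by rw [o.huu, mul_one, mul_inv_cancel])
      (by
        intro e
        apply o.toCfg.u_ne
        calc o.u = h⁻¹ * (h * o.u * h⁻¹) * h := by group
          _ = 1 := by rw [e, mul_one, inv_mul_cancel])
      (by rw [Perm.mul_apply, Perm.mul_apply, i1, o.u1, e1])
      (by rw [Perm.mul_apply, Perm.mul_apply, i2, o.u2, e2])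
      (by rw [Perm.mul_apply, Perm.mul_apply, ip, o.up, hHp h hh])
    calc h * o.u = (h * o.u * h⁻¹) * h := by group
      _ = o.u * h := by rw [h5]
  have hHa : ∀ h ∈ o.H, o.a * h = h * o.a := by
    intro h hh
    unfold Cfg.a
    rw [mul_assoc, ← hHw h hh, ← mul_assoc, ← hHu h hh, mul_assoc]
  have hHp₁ : ∀ h ∈ o.H, h o.p₁ = o.p₁ := by
    intro h hh
    have h1 : o.a (h o.p₁) = h o.p₁ := by
      have := congrArg (fun f : Perm α => f o.p₁) (hHa h hh)
      simp only [Perm.mul_apply] at this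
      rw [o.ap₁] at this
      exact this
    rcases o.fxa h1 with e | e | e
    · exact absurd (h.injective (e.trans (hHp h hh).symm)) o.hp₁
    · exact e
    · have h2 : h o.p₂ = o.p₁ := by
        have := congrArg (fun f : Perm α => f o.p₁) (hHu h hh)
        simp only [Perm.mul_apply] at this
        rw [e, o.up₂] at this
        exact this
      have hodd' : Odd (orderOf h) := odd_of_fix4 o.hni hh.1 o.X o.toCfg.X_card hh.2
      have h3 := odd_fix hodd' (q := o.p₁) (by rw [e, h2])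
      rw [e] at h3
      exact absurd h3 o.p₂ne₁
  have hHp₂ : ∀ h ∈ o.H, h o.p₂ = o.p₂ := by
    intro h hh
    have := congrArg (fun f : Perm α => f o.p₁) (hHu h hh)
    simp only [Perm.mul_apply] at this
    rw [hHp₁ h hh] at this
    exact this
  have hfixeq : ∀ d ∈ o.G, d o.x₁ = o.x₁ → d o.x₂ = o.x₂ → d o.p = o.p → d o.p₁ = o.p₁ →
      d o.x₃ = o.x₃ := by
    intro d hd d1 d2 dp dp₁
    exact (fix_eq_of_le o.h4 o.h12 o.h13 o.h14 o.h23 o.h24 o.h34 (y₁ := o.x₁) (y₂ := o.x₂)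
      (y₃ := o.p) (y₄ := o.p₁) o.h12 (Ne.symm np1) (Ne.symm q1) (Ne.symm np2) (Ne.symm q2)
      (Ne.symm o.hp₁)
      (fun h hh e1 e2 e3 e4 => ⟨e1, e2, hHp h (o.toCfg.mem_H.mpr ⟨hh, e1, e2, e3, e4⟩),
        hHp₁ h (o.toCfg.mem_H.mpr ⟨hh, e1, e2, e3, e4⟩)⟩)
      hd d1 d2 dp dp₁).2.2.1
  have ha1 : o.a o.x₁ ≠ o.x₁ := by rw [o.a1]; exact o.h12.symm
  have ha3 : o.a o.x₃ ≠ o.x₃ := by rw [o.a3]; exact o.h34.symm
  have hcard : (Finset.univ \ ({o.x₁, o.x₂, o.p, o.p₁, o.p₂} : Finset α)).card =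
      ((fx o.a).offDiag).card := by
    apply le_antisymm
    · apply Finset.card_le_card_of_forall_subsingleton (fun γ (π : α × α) =>
        ∃ x ∈ o.G, x * o.a = o.a * x ∧ x o.x₁ = o.x₁ ∧ x o.x₃ = γ ∧ x o.p = π.1 ∧ x o.p₁ = π.2)
      · intro γ hγ
        simp only [Finset.mem_sdiff, Finset.mem_univ, true_and, Finset.mem_insert,
          Finset.mem_singleton, not_or] at hγ
        obtain ⟨γ1, γ2, γp, γp₁, γp₂⟩ := hγ
        have haγ : o.a γ ≠ γ := fun e => by
          rcases o.fxa e with e | e | e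
          · exact γp e
          · exact γp₁ e
          · exact γp₂ e
        obtain ⟨x, hx, hxa, x1, x3⟩ := conj_J o.h4 o.hni o.toCfg.aG o.toCfg.aG o.toCfg.aa
          o.toCfg.aa (a := o.x₁) (c := o.x₃) (a' := o.x₁) (c' := γ) ha1 ha3 o.h13.symm
          (by rw [o.a1]; exact o.h23.symm) ha1 haγ γ1 (by rw [o.a1]; exact γ2)
        refine ⟨(x o.p, x o.p₁), ?_, x, hx, hxa, x1, x3, rfl, rfl⟩
        rw [Finset.mem_offDiag]
        exact ⟨(fx_conj hxa _).mp (mem_fx.mpr o.ap), (fx_conj hxa _).mp (mem_fx.mpr o.ap₁),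
          fun e => o.hp₁ (x.injective e).symm⟩
      · intro π hπ γ hγ γ' hγ'
        rcases hγ with ⟨-, x, hx, hxa, x1, x3, xp, xp₁⟩
        rcases hγ' with ⟨-, x', hx', hxa', x1', x3', xp', xp₁'⟩
        have x2 := o.comm_a2 hxa x1
        have x2' := o.comm_a2 hxa' x1'
        have d3 := hfixeq (x⁻¹ * x') (o.G.mul_mem (o.G.inv_mem hx) hx')
          (by rw [Perm.mul_apply, x1', Perm.inv_eq_iff_eq, x1])
          (by rw [Perm.mul_apply, x2', Perm.inv_eq_iff_eq, x2])
          (by rw [Perm.mul_apply, xp', ← xp, Miller.inv_app])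
          (by rw [Perm.mul_apply, xp₁', ← xp₁, Miller.inv_app])
        rw [Perm.mul_apply, Perm.inv_eq_iff_eq, x3', x3] at d3
        exact d3.symm
    · apply Finset.card_le_card_of_forall_subsingleton (fun (π : α × α) γ =>
        ∃ x ∈ o.G, x * o.a = o.a * x ∧ x o.x₁ = o.x₁ ∧ x o.x₃ = γ ∧ x o.p = π.1 ∧ x o.p₁ = π.2)
      · intro π hπ
        rw [Finset.mem_offDiag] at hπ
        obtain ⟨hq, hq', hne⟩ := hπ
        rw [mem_fx] at hq hq'
        obtain ⟨x, hx, hxa, x1, xp, xp₁⟩ := conj_J' o.h4 o.hni o.toCfg.aG o.toCfg.aG o.toCfg.aa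
          o.toCfg.aa (a := o.x₁) (f₁ := o.p) (f₂ := o.p₁) (a' := o.x₁) (f₁' := π.1) (f₂' := π.2)
          ha1 o.ap o.ap₁ (Ne.symm o.hp₁) ha1 hq hq' hne
        refine ⟨x o.x₃, ?_, x, hx, hxa, x1, rfl, xp, xp₁⟩
        have x2 := o.comm_a2 hxa x1
        have hnf : o.a (x o.x₃) ≠ x o.x₃ := by
          intro e
          have h7 := (fx_conj hxa o.x₃).mpr (mem_fx.mpr e)
          rw [mem_fx, o.a3] at h7
          exact o.h34 h7.symm
        simp only [Finset.mem_sdiff, Finset.mem_univ, true_and, Finset.mem_insert,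
          Finset.mem_singleton, not_or]
        refine ⟨?_, ?_, ?_, ?_, ?_⟩
        · intro e
          exact o.h13 (x.injective (x1.trans e.symm))
        · intro e
          exact o.h23 (x.injective (x2.trans e.symm))
        · intro e
          exact hnf (by rw [e]; exact o.ap)
        · intro e
          exact hnf (by rw [e]; exact o.ap₁)
        · intro e
          exact hnf (by rw [e]; exact o.ap₂)
      · intro γ hγ π hπ π' hπ'
        rcases hπ with ⟨-, x, hx, hxa, x1, x3, xp, xp₁⟩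
        rcases hπ' with ⟨-, x', hx', hxa', x1', x3', xp', xp₁'⟩
        have x2 := o.comm_a2 hxa x1
        have x2' := o.comm_a2 hxa' x1'
        have x4 := o.comm_a4 hxa
        have x4' := o.comm_a4 hxa'
        rw [x3] at x4
        rw [x3'] at x4'
        have hd : x⁻¹ * x' ∈ o.H := o.toCfg.mem_H.mpr ⟨o.G.mul_mem (o.G.inv_mem hx) hx',
          by rw [Perm.mul_apply, x1', Perm.inv_eq_iff_eq, x1],
          by rw [Perm.mul_apply, x2', Perm.inv_eq_iff_eq, x2],
          by rw [Perm.mul_apply, x3', Perm.inv_eq_iff_eq, x3],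
          by rw [Perm.mul_apply, x4', Perm.inv_eq_iff_eq, x4]⟩
        have e1 := hHp _ hd
        have e2 := hHp₁ _ hd
        rw [Perm.mul_apply, Perm.inv_eq_iff_eq] at e1 e2
        exact Prod.ext (by rw [← xp, ← xp', e1]) (by rw [← xp₁, ← xp₁', e2])
  have c5 : ({o.x₁, o.x₂, o.p, o.p₁, o.p₂} : Finset α).card = 5 := by
    rw [Finset.card_insert_of_notMem (by simp [o.h12, Ne.symm np1, Ne.symm q1, Ne.symm r1]),
      Finset.card_insert_of_notMem (by simp [Ne.symm np2, Ne.symm q2, Ne.symm r2]),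
      Finset.card_insert_of_notMem (by simp [Ne.symm o.hp₁, Ne.symm o.p₂ne]),
      Finset.card_insert_of_notMem (by simp [Ne.symm o.p₂ne₁]), Finset.card_singleton]
  have hfa3 := fx3 o.h4 o.hni o.h8 o.hodd o.toCfg.aG o.toCfg.aa o.toCfg.a_ne
  have hn : Fintype.card α = 11 := by
    rw [Finset.card_sdiff_of_subset (Finset.subset_univ _), Finset.card_univ, c5,
      Finset.offDiag_card, hfa3] at hcard
    have := o.h8
    omega
  refine ⟨hn, ?_⟩
  intro h hh
  by_contra hne
  have h6 := supp_ge_six o.h4 o.hni o.h8 hh.1 hne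
  obtain ⟨-, e1, e2, e3, e4⟩ := o.toCfg.mem_H.mp hh
  have h7 : ({o.x₁, o.x₂, o.x₃, o.x₄, o.p, o.p₁, o.p₂} : Finset α) ⊆ fx h := by
    intro z hz
    simp only [Finset.mem_insert, Finset.mem_singleton] at hz
    rw [mem_fx]
    rcases hz with rfl | rfl | rfl | rfl | rfl | rfl | rfl
    · exact e1
    · exact e2
    · exact e3
    · exact e4
    · exact hHp h hh
    · exact hHp₁ h hh
    · exact hHp₂ h hh
  have c7 : ({o.x₁, o.x₂, o.x₃, o.x₄, o.p, o.p₁, o.p₂} : Finset α).card = 7 := by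
    rw [Finset.card_insert_of_notMem (by
        simp [o.h12, o.h13, o.h14, Ne.symm np1, Ne.symm q1, Ne.symm r1]),
      Finset.card_insert_of_notMem (by simp [o.h23, o.h24, Ne.symm np2, Ne.symm q2, Ne.symm r2]),
      Finset.card_insert_of_notMem (by simp [o.h34, Ne.symm np3, Ne.symm q3, Ne.symm r3]),
      Finset.card_insert_of_notMem (by simp [Ne.symm np4, Ne.symm q4, Ne.symm r4]),
      Finset.card_insert_of_notMem (by simp [Ne.symm o.hp₁, Ne.symm o.p₂ne]),
      Finset.card_insert_of_notMem (by simp [Ne.symm o.p₂ne₁]), Finset.card_singleton]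
  have h8' := Finset.card_le_card h7
  have h9 := fx_card_add h
  omega

end OCfg

end Cfsg.Agent.Lib.Helper75.Hall
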