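import Cfsg.Agent.Lib.Helper75.Hall6

set_option autoImplicit false
set_option linter.unusedSectionVars false

namespace Cfsg.Agent.Lib.Helper75.Hall

open Equiv

variable {α : Type*} [Fintype α] [DecidableEq α]

namespace OCfg

variable (o : OCfg α)

omit o in
/-- the case where the centraliser of `a` in `H` moves `p` is impossible -/
theorem t_case (o : OCfg α) {h₀ : Perm α} (hh₀ : h₀ ∈ o.H) (hcomm : o.a * h₀ = h₀ * o.a)
    (hmove : h₀ o.p ≠ o.p) : False := by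
  obtain ⟨np1, np2, np3, np4⟩ := o.pne
  obtain ⟨q1, q2, q3, q4⟩ := o.toCfg.ne_of_notMem o.p₁X
  obtain ⟨r1, r2, r3, r4⟩ := o.toCfg.ne_of_notMem o.p₂X
  have hodd₀ : Odd (orderOf h₀) := odd_of_fix4 o.hni hh₀.1 o.X o.toCfg.X_card hh₀.2
  have hfa3 := fx3 o.h4 o.hni o.h8 o.hodd o.toCfg.aG o.toCfg.aa o.toCfg.a_ne
  have hfu3 := fx3 o.h4 o.hni o.h8 o.hodd o.huG o.huu o.toCfg.u_ne
  have hinv₀ : ∀ q ∈ fx o.a, h₀ q ∈ fx o.a := fun q hq => (fx_conj hcomm.symm q).mp hq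
  have hT1 : ∀ q ∈ fx o.a, ∃ h ∈ o.H, h o.p = q := by
    intro q hq
    rcases orbit3 hodd₀ hfa3 hinv₀ (mem_fx.mpr o.ap) hmove hq with e | e | e
    · exact ⟨1, o.H.one_mem, by simp [e]⟩
    · exact ⟨h₀, hh₀, e.symm⟩
    · exact ⟨h₀ * h₀, o.H.mul_mem hh₀ hh₀, by rw [e, Perm.mul_apply]⟩
  obtain ⟨k₁, hk₁, ek₁⟩ := hT1 o.p₁ (mem_fx.mpr o.ap₁)
  obtain ⟨k₂, hk₂, ek₂⟩ := hT1 o.p₂ (mem_fx.mpr o.ap₂)
  have ha1 : o.a o.x₁ ≠ o.x₁ := by rw [o.a1]; exact o.h12.symm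
  have ha3 : o.a o.x₃ ≠ o.x₃ := by rw [o.a3]; exact o.h34.symm
  have hu3 : o.u o.x₃ ≠ o.x₃ := by rw [o.u3]; exact o.h34.symm
  obtain ⟨x, hx, hxa, x1, x3⟩ := conj_J o.h4 o.hni o.toCfg.aG o.huG o.toCfg.aa o.huu
    (a := o.x₁) (c := o.x₃) (a' := o.x₃) (c' := o.p₁) ha1 ha3 o.h13.symm
    (by rw [o.a1]; exact o.h23.symm) hu3 o.up₁ q3 (by rw [o.u3]; exact q4)
  have x2 : x o.x₂ = o.x₄ := by
    have := congrArg (fun f : Perm α => f o.x₁) hxa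
    simp only [Perm.mul_apply] at this
    rw [o.a1, x1, o.u3] at this
    exact this
  have x4 : x o.x₄ = o.p₂ := by
    have := congrArg (fun f : Perm α => f o.x₃) hxa
    simp only [Perm.mul_apply] at this
    rw [o.a3, x3] at this
    exact this
  obtain ⟨-, e1, e2, e3, e4⟩ := o.toCfg.mem_H.mp hh₀
  obtain ⟨c₃, hc₃⟩ : ∃ c₃, c₃ = x * h₀ * x⁻¹ := ⟨_, rfl⟩
  have hc₃G : c₃ ∈ o.G := by
    rw [hc₃]
    exact o.G.mul_mem (o.G.mul_mem hx hh₀.1) (o.G.inv_mem hx)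
  have hc₃u : c₃ * o.u = o.u * c₃ := by
    have hu : o.u = x * o.a * x⁻¹ := by rw [hxa]; group
    rw [hc₃]
    calc x * h₀ * x⁻¹ * o.u = x * h₀ * x⁻¹ * (x * o.a * x⁻¹) := by rw [← hu]
      _ = x * (h₀ * o.a) * x⁻¹ := by group
      _ = x * (o.a * h₀) * x⁻¹ := by rw [hcomm]
      _ = x * o.a * x⁻¹ * (x * h₀ * x⁻¹) := by group
      _ = o.u * (x * h₀ * x⁻¹) := by rw [← hu]
  have i1 : x⁻¹ o.x₃ = o.x₁ := by rw [Perm.inv_eq_iff_eq, x1]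
  have i2 : x⁻¹ o.x₄ = o.x₂ := by rw [Perm.inv_eq_iff_eq, x2]
  have i3 : x⁻¹ o.p₁ = o.x₃ := by rw [Perm.inv_eq_iff_eq, x3]
  have i4 : x⁻¹ o.p₂ = o.x₄ := by rw [Perm.inv_eq_iff_eq, x4]
  have c3 : c₃ o.x₃ = o.x₃ := by rw [hc₃, Perm.mul_apply, Perm.mul_apply, i1, e1, x1]
  have c4 : c₃ o.x₄ = o.x₄ := by rw [hc₃, Perm.mul_apply, Perm.mul_apply, i2, e2, x2]
  have cp₁ : c₃ o.p₁ = o.p₁ := by rw [hc₃, Perm.mul_apply, Perm.mul_apply, i3, e3, x3]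
  have cp₂ : c₃ o.p₂ = o.p₂ := by rw [hc₃, Perm.mul_apply, Perm.mul_apply, i4, e4, x4]
  have hodd₃ : Odd (orderOf c₃) := odd_of_fix4 o.hni hc₃G {o.x₃, o.x₄, o.p₁, o.p₂}
    (card4 o.h34 (Ne.symm q3) (Ne.symm r3) (Ne.symm q4) (Ne.symm r4) (Ne.symm o.p₂ne₁)) (by
      intro q hq
      simp only [Finset.mem_insert, Finset.mem_singleton] at hq
      rcases hq with rfl | rfl | rfl | rfl <;> assumption)
  have hinv₃ : ∀ q ∈ fx o.u, c₃ q ∈ fx o.u := fun q hq => (fx_conj hc₃u q).mp hq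
  have hxp : x o.p ∈ fx o.u := (fx_conj hxa o.p).mp (mem_fx.mpr o.ap)
  have hmv : c₃ (x o.p) ≠ x o.p := by
    rw [hc₃, Perm.mul_apply, Perm.mul_apply, Miller.inv_app]
    exact fun e => hmove (x.injective e)
  have hc₃p : c₃ o.p ≠ o.p := moves_all hodd₃ hfu3 hinv₃ hxp hmv o.p (mem_fx.mpr o.up)
  have hE : ∀ q ∈ fx o.u, ∃ e ∈ o.G, e * o.u = o.u * e ∧ e o.x₃ = o.x₃ ∧ e o.x₄ = o.x₄ ∧
      e o.p₁ = o.p₁ ∧ e o.p = q := by
    intro q hq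
    rcases orbit3 hodd₃ hfu3 hinv₃ (mem_fx.mpr o.up) hc₃p hq with e | e | e
    · exact ⟨1, o.G.one_mem, by simp, rfl, rfl, rfl, by simp [e]⟩
    · exact ⟨c₃, hc₃G, hc₃u, c3, c4, cp₁, e.symm⟩
    · refine ⟨c₃ * c₃, o.G.mul_mem hc₃G hc₃G, ?_, ?_, ?_, ?_, ?_⟩
      · rw [mul_assoc, hc₃u, ← mul_assoc, hc₃u, mul_assoc]
      · rw [Perm.mul_apply, c3, c3]
      · rw [Perm.mul_apply, c4, c4]
      · rw [Perm.mul_apply, cp₁, cp₁]
      · rw [e, Perm.mul_apply]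
  have hT3 : ∀ δ, δ ∉ o.X → δ ≠ o.p → ∃ h ∈ o.H, h o.p = δ := by
    intro δ hδX hδp
    obtain ⟨δ1, δ2, δ3, δ4⟩ := o.toCfg.ne_of_notMem hδX
    have huδ : o.u δ ≠ δ := fun e => by
      rcases o.fxu e with e | e | e
      · exact δ1 e
      · exact δ2 e
      · exact hδp e
    obtain ⟨y, hy, hyu, y3, yp₁⟩ := conj_J o.h4 o.hni o.huG o.huG o.huu o.huu (a := o.x₃)
      (c := o.p₁) (a' := o.x₃) (c' := δ) hu3 o.up₁ q3 (by rw [o.u3]; exact q4) hu3 huδ δ3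
      (by rw [o.u3]; exact δ4)
    have y4 : y o.x₄ = o.x₄ := by
      have := congrArg (fun f : Perm α => f o.x₃) hyu
      simp only [Perm.mul_apply] at this
      rw [o.u3, y3, o.u3] at this
      exact this
    have hyinv : y⁻¹ * o.u = o.u * y⁻¹ := by
      calc y⁻¹ * o.u = y⁻¹ * (o.u * y) * y⁻¹ := by group
        _ = y⁻¹ * (y * o.u) * y⁻¹ := by rw [hyu]
        _ = o.u * y⁻¹ := by group
    have hyp : y⁻¹ o.p ∈ fx o.u := (fx_conj hyinv o.p).mp (mem_fx.mpr o.up)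
    obtain ⟨e, heG, heu, e3', e4', ep₁, ep⟩ := hE _ hyp
    have y'p : (y * e) o.p = o.p := by rw [Perm.mul_apply, ep, Miller.app_inv]
    have y'u : (y * e) * o.u = o.u * (y * e) := by
      rw [mul_assoc, heu, ← mul_assoc, hyu, mul_assoc]
    have y'3 : (y * e) o.x₃ = o.x₃ := by rw [Perm.mul_apply, e3', y3]
    have y'4 : (y * e) o.x₄ = o.x₄ := by rw [Perm.mul_apply, e4', y4]
    have y'p₁ : (y * e) o.p₁ = δ := by rw [Perm.mul_apply, ep₁, yp₁]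
    have y'G : y * e ∈ o.G := o.G.mul_mem hy heG
    have h1 : (y * e) o.x₁ = o.x₁ ∨ (y * e) o.x₁ = o.x₂ := by
      rcases o.fxu (mem_fx.mp ((fx_conj y'u o.x₁).mp (mem_fx.mpr o.u1))) with f | f | f
      · exact Or.inl f
      · exact Or.inr f
      · exact absurd ((y * e).injective (f.trans y'p.symm)) (Ne.symm np1)
    have h2 : (y * e) o.x₂ = o.x₁ ∨ (y * e) o.x₂ = o.x₂ := by
      rcases o.fxu (mem_fx.mp ((fx_conj y'u o.x₂).mp (mem_fx.mpr o.u2))) with f | f | f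
      · exact Or.inl f
      · exact Or.inr f
      · exact absurd ((y * e).injective (f.trans y'p.symm)) (Ne.symm np2)
    rcases h1 with h1 | h1
    · have h2' : (y * e) o.x₂ = o.x₂ := by
        rcases h2 with h2 | h2
        · exact absurd ((y * e).injective (h1.trans h2.symm)) o.h12
        · exact h2
      exact ⟨(y * e) * k₁, o.H.mul_mem (o.toCfg.mem_H.mpr ⟨y'G, h1, h2', y'3, y'4⟩) hk₁, by
        rw [Perm.mul_apply, ek₁, y'p₁]⟩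
    · have h2' : (y * e) o.x₂ = o.x₁ := by
        rcases h2 with h2 | h2
        · exact h2
        · exact absurd ((y * e).injective (h1.trans h2.symm)) o.h12
      refine ⟨(y * e * o.w) * k₂, o.H.mul_mem
        (o.toCfg.mem_H.mpr ⟨o.G.mul_mem y'G o.hwG, ?_, ?_, ?_, ?_⟩) hk₂, ?_⟩
      · rw [Perm.mul_apply, o.w1, h2']
      · rw [Perm.mul_apply, o.w2, h1]
      · rw [Perm.mul_apply, o.w3, y'3]
      · rw [Perm.mul_apply, o.w4, y'4]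
      · rw [Perm.mul_apply, ek₂, Perm.mul_apply, o.wp₂, y'p₁]
  have htr : ∀ δ ∉ o.X, ∀ δ' ∉ o.X, ∃ h ∈ o.G, (∀ q ∈ o.X, h q = q) ∧ h δ = δ' := by
    have hall : ∀ δ, δ ∉ o.X → ∃ h ∈ o.H, h o.p = δ := by
      intro δ hδ
      by_cases hδp : δ = o.p
      · exact ⟨1, o.H.one_mem, by simp [hδp]⟩
      · exact hT3 δ hδ hδp
    intro δ hδ δ' hδ'
    obtain ⟨h, hh, e⟩ := hall δ hδ
    obtain ⟨h', hh', e'⟩ := hall δ' hδ'
    have hm := o.H.mul_mem hh' (o.H.inv_mem hh)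
    exact ⟨h' * h⁻¹, hm.1, hm.2, by rw [Perm.mul_apply, ← e, Miller.inv_app, e']⟩
  have h9 : 9 ≤ Fintype.card α := by
    have h8 := o.h8
    have hodd' : Odd (Fintype.card α) := Nat.not_even_iff_odd.mp o.hodd
    obtain ⟨k, hk⟩ := hodd'
    omega
  exact trans_false o.h4 o.hni h9 o.hodd o.X o.toCfg.X_card htr

end OCfg

/-- M. Hall's theorem, main case: degree at least 8 forces degree 11 and trivial four-point
stabilisers -/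
theorem main8 {G : Subgroup (Perm α)} (h4 : T4 G) (hni : NI G) (h8 : 8 ≤ Fintype.card α)
    {x₁ x₂ x₃ x₄ : α} (h12 : x₁ ≠ x₂) (h13 : x₁ ≠ x₃) (h14 : x₁ ≠ x₄) (h23 : x₂ ≠ x₃)
    (h24 : x₂ ≠ x₄) (h34 : x₃ ≠ x₄) :
    Fintype.card α = 11 ∧
      ∀ g ∈ G, g x₁ = x₁ → g x₂ = x₂ → g x₃ = x₃ → g x₄ = x₄ → g = 1 := by
  by_cases hev : Even (Fintype.card α)
  · exact (even_case h4 hni h8 hev).elim
  obtain ⟨c, rfl, rfl, rfl, rfl, rfl⟩ := exists_cfg h4 hni h8 h12 h13 h14 h23 h24 h34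
  obtain ⟨o, rfl⟩ := exists_ocfg c hev
  by_cases hT : ∃ h₀ ∈ o.H, o.a * h₀ = h₀ * o.a ∧ h₀ o.p ≠ o.p
  · obtain ⟨h₀, hh₀, hc, hm⟩ := hT
    exact (o.t_case hh₀ hc hm).elim
  · push Not at hT
    obtain ⟨hn, hH⟩ := o.fx_case hT
    exact ⟨hn, fun g hg g1 g2 g3 g4 => hH g (o.toCfg.mem_H.mpr ⟨hg, g1, g2, g3, g4⟩)⟩

end Cfsg.Agent.Lib.Helper75.Hall
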