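import Cfsg.Agent.Lib.Helper96.HyDefs

/-!
Project HY (S5992, helper96), piece INVSUM: for an orthogonal decomposition `V = A ⊥ E` with
`dim A` odd and an even `m` with `2 ≤ m`, `m + 1 ≤ dim V` (excluding `dim A = 1`,
`m + 1 = dim V`), there are `X ≤ A`, `Y ≤ E` with `X ⊔ Y` hyperbolic of dimension `m`.
-/

set_option autoImplicit false
set_option linter.unusedSectionVars false
set_option linter.unusedVariables false

namespace Cfsg.Agent.Lib.Helper75.Hy

open Module Polynomial Cfsg.Agent.Lib.Helper96.Sp Cfsg.Agent.Lib.Helper96.Hy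
  Cfsg.Agent.Lib.Helper47

universe u

variable {F : Type u} [Field F] [Fintype F] {V : Type u} [AddCommGroup V] [Module F V]
  [FiniteDimensional F V] {B : LinearMap.BilinForm F V}

theorem invol_sum (hS : B.IsSymm) (h2 : (2 : F) ≠ 0) (hN : ND B ⊤) (hF : Facts B)
    (A E : Submodule F V) (hA : ND B A) (hE : ND B E) (hAE : Orth B A E)
    (hAodd : Odd (finrank F A)) (hsum : finrank F A + finrank F E = finrank F V)
    (m : ℕ) (hme : Even m) (hm2 : 2 ≤ m) (hmn : m + 1 ≤ finrank F V)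
    (hex : ¬ (finrank F A = 1 ∧ m + 1 = finrank F V)) :
    ∃ X Y : Submodule F V, X ≤ A ∧ Y ≤ E ∧ Hyp B (X ⊔ Y) ∧ finrank F ↥(X ⊔ Y) = m := by
  obtain ⟨c, hc⟩ := hAodd
  obtain ⟨w, hw⟩ := hme
  by_cases h1 : m + 1 ≤ finrank F A
  · -- case (i)
    obtain ⟨X, hXA, hXH, hXf⟩ := hF.hyp_sub A hA w (by omega)
    refine ⟨X, ⊥, hXA, bot_le, ?_, ?_⟩
    · rw [sup_bot_eq]; exact hXH
    · rw [sup_bot_eq, hXf]; omega
  · by_cases h3 : finrank F A = 1
    · -- case (iii)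
      have hE1 : 2 * w + 1 ≤ finrank F E := by
        have : m + 1 ≠ finrank F V := fun h => hex ⟨h3, h⟩
        omega
      obtain ⟨Y, hYE, hYH, hYf⟩ := hF.hyp_sub E hE w hE1
      refine ⟨⊥, Y, bot_le, hYE, ?_, ?_⟩
      · rw [bot_sup_eq]; exact hYH
      · rw [bot_sup_eq, hYf]; omega
    · -- case (ii): finrank A = 2c+1 with c ≥ 1, m ≥ 2c+2
      have hc1 : 1 ≤ c := by omega
      -- Y ≤ E nondegenerate of dimension m - 2c = 2 (w - c)
      obtain ⟨Y, hYE, hYN, hYf⟩ := hF.nd_sub E hE (2 * (w - c - 1) + 2) (by omega)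
      have key : ∀ ε : ℤ, (ε = 1 ∨ ε = -1) → Typ B Y ε →
          ∃ X : Submodule F V, X ≤ A ∧ ND B X ∧ finrank F X = 2 * c ∧ Typ B X ε := by
        intro ε hε hT
        rcases hε with rfl | rfl
        · obtain ⟨X, hXA, hXH, hXf⟩ := hF.hyp_sub A hA c (by omega)
          exact ⟨X, hXA, hXH.1, hXf, hF.typ_of_hyp X hXH (by omega)⟩
        · obtain ⟨X, hXA, hXN, hXf, hXT⟩ := hF.ell_sub A hA c hc1 (by omega)
          exact ⟨X, hXA, hXN, hXf, hXT⟩
      have fin : ∀ ε : ℤ, (ε = 1 ∨ ε = -1) → Typ B Y ε →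
          ∃ X Y : Submodule F V, X ≤ A ∧ Y ≤ E ∧ Hyp B (X ⊔ Y) ∧ finrank F ↥(X ⊔ Y) = m := by
        intro ε hε hT
        obtain ⟨X, hXA, hXN, hXf, hXT⟩ := key ε hε hT
        have hXY : Orth B X Y := orth_mono hAE hXA hYE
        have hsup := Cfsg.Agent.Lib.Helper98.O72.nd_sup hS h2 hXN hYN hXY
        have hTs := hF.typ_sup X Y ε ε hXN hYN hXY hXT hT
        have hεε : ε * ε = 1 := by rcases hε with rfl | rfl <;> norm_num
        rw [hεε] at hTs
        refine ⟨X, Y, hXA, hYE, hF.hyp_of_typ _ hsup.1 hTs, ?_⟩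
        rw [hsup.2, hXf, hYf]; omega
      rcases hF.typ_ex Y hYN (w - c - 1) hYf with hT | hT
      · exact fin 1 (Or.inl rfl) hT
      · exact fin (-1) (Or.inr rfl) hT

end Cfsg.Agent.Lib.Helper75.Hy
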