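import Mathlib
import Cfsg.Agent.Lib.Helper58.JEDefs
import Cfsg.Agent.Lib.Helper94.JcTH

/-!
Project JE (S2948, helper58), piece A2: for `T ∈ 𝒯*(M)` with `N(J(T)) ≤ M`, a 2-local `L ≰ M`
and a Sylow 2-subgroup `T₀` of `L` containing `J(T)`: `J(T) = J(T₀)` and `T₀` straddles `M`.
-/

set_option autoImplicit false

namespace Cfsg.Agent.Lib.Helper75.JE

open Cfsg.Agent.Lib.Helper58.JE Cfsg.Agent.Lib.Helper72.JL Cfsg.Agent.Lib.Helper72.SC
  Cfsg.Agent.Lib.Helper78.Jc Cfsg.Agent.Lib.Helper94.Jc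

universe u

private theorem a2_maxOrder {G : Type u} [Group G] [Finite G] (T A : Subgroup G)
    (hA : IsMaxEA T A) : Cfsg.maxElemAbelianOrder T = Nat.card A := by
  unfold Cfsg.maxElemAbelianOrder
  have hmem := th_mem_of T A hA
  have hcard := (th_ea_of T A hA.1 hA.2.1 hA.2.2.1).2
  have himg : (fun A : Subgroup ↥T => Nat.card ↥A) '' Cfsg.maxElementaryAbelianSubgroups 2 ↥T
      = {Nat.card A} := by
    ext n
    constructor
    · rintro ⟨B, hB, rfl⟩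
      rw [Set.mem_singleton_iff, ← hcard]
      exact le_antisymm (hmem.2 B hB.1) (hB.2 _ hmem.1)
    · intro hn
      rw [Set.mem_singleton_iff] at hn
      exact ⟨A.subgroupOf T, hmem, by rw [hn]; exact hcard⟩
  rw [himg, csSup_singleton]

private theorem a2_norm_th {G : Type u} [Group G] [Finite G] (S : Subgroup G) (x : G)
    (hx : x ∈ Subgroup.normalizer (S : Set G)) :
    x ∈ Subgroup.normalizer (Cfsg.thompsonSubgroupOf 2 S : Set G) := by
  have key : ∀ g : G, (∀ s ∈ S, g * s * g⁻¹ ∈ S) →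
      ∀ y ∈ Cfsg.thompsonSubgroupOf 2 S, g * y * g⁻¹ ∈ Cfsg.thompsonSubgroupOf 2 S := by
    intro g hg
    have hle : Cfsg.thompsonSubgroupOf 2 S ≤
        (Cfsg.thompsonSubgroupOf 2 S).comap (MulAut.conj g).toMonoidHom := by
      apply th_le_of_forall
      intro A hA
      rw [← Subgroup.map_le_iff_le_comap]
      exact th_le S _ (maxEA_conj S A hA g (fun a ha => hg a (hA.1 ha)))
    intro y hy
    exact hle hy
  rw [Subgroup.mem_normalizer_iff] at hx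
  have h1 : ∀ s ∈ S, x * s * x⁻¹ ∈ S := fun s hs => (hx s).mp hs
  have h2 : ∀ s ∈ S, x⁻¹ * s * x⁻¹⁻¹ ∈ S := by
    intro s hs
    apply (hx _).mpr
    have e : x * (x⁻¹ * s * x⁻¹⁻¹) * x⁻¹ = s := by group
    rw [e]; exact hs
  rw [Subgroup.mem_normalizer_iff]
  intro y
  constructor
  · exact key x h1 y
  · intro hy
    have h3 := key x⁻¹ h2 _ hy
    have e : x⁻¹ * (x * y * x⁻¹) * x⁻¹⁻¹ = y := by group
    rw [e] at h3
    exact h3

theorem a2 : A2Stmt.{u} := by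
  intro G _ _ M T L T₀ hT hN hL hLM hT₀ hJ
  obtain ⟨hTs, hTmax⟩ := hT
  obtain ⟨hT2, hTne, hTM, -⟩ := hTs
  obtain ⟨hT₀L, hT₀2, hT₀odd⟩ := hT₀
  have : Fact (Nat.Prime 2) := ⟨Nat.prime_two⟩
  obtain ⟨A, hA⟩ := th_exists T
  have hAJ : A ≤ Cfsg.thompsonSubgroupOf 2 T := th_le T A hA
  have hJT : Cfsg.thompsonSubgroupOf 2 T ≤ T := th_le_self T
  have hAne : A ≠ ⊥ := by
    obtain ⟨n, hn⟩ := hT2.exists_card_eq
    have hn0 : n ≠ 0 := by
      rintro rfl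
      rw [pow_zero] at hn
      exact hTne (Subgroup.card_eq_one.mp hn)
    have hdvd : 2 ∣ Nat.card ↥T := by rw [hn]; exact dvd_pow_self 2 hn0
    obtain ⟨z, hz⟩ := exists_prime_orderOf_dvd_card' 2 hdvd
    have hz2 : (z : G) * (z : G) = 1 := by
      have h1 := pow_orderOf_eq_one z
      rw [hz, sq] at h1
      exact congrArg Subtype.val h1
    have hcardB : Nat.card (Subgroup.zpowers (z : G)) = 2 := by
      rw [Nat.card_zpowers, Subgroup.orderOf_coe, hz]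
    have hB := hA.2.2.2 (Subgroup.zpowers (z : G)) (by rw [Subgroup.zpowers_le]; exact z.2)
      (by
        rintro a ⟨i, rfl⟩ b ⟨j, rfl⟩
        exact (Commute.zpow_zpow_self _ i j).eq)
      (by
        rintro a ⟨i, rfl⟩
        show (z : G) ^ i * (z : G) ^ i = 1
        rw [← (Commute.refl (z : G)).mul_zpow, hz2, one_zpow])
    rw [hcardB] at hB
    intro h
    rw [h, Subgroup.card_bot] at hB
    omega
  have hJne : Cfsg.thompsonSubgroupOf 2 T ≠ ⊥ := fun h => hAne (le_bot_iff.mp (h ▸ hAJ))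
  obtain ⟨T₁, hT₁def⟩ : ∃ T₁ : Subgroup G, T₁ = T₀ ⊓ M := ⟨_, rfl⟩
  have hT₁T₀ : T₁ ≤ T₀ := by rw [hT₁def]; exact inf_le_left
  have hT₁M : T₁ ≤ M := by rw [hT₁def]; exact inf_le_right
  have hJT₁ : Cfsg.thompsonSubgroupOf 2 T ≤ T₁ := by
    rw [hT₁def]; exact le_inf hJ (hJT.trans hTM)
  have hT₁2 : IsPGroup 2 ↥T₁ := hT₀2.to_le hT₁T₀
  have hT₁ne : T₁ ≠ ⊥ := fun h => hJne (le_bot_iff.mp (h ▸ hJT₁))
  have hT₁s : T₁ ∈ Cfsg.straddlingTwoSubgroups M :=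
    ⟨hT₁2, hT₁ne, hT₁M, L, hL, hT₁T₀.trans hT₀L, hLM⟩
  obtain ⟨hle, himp⟩ := hTmax T₁ hT₁s
  obtain ⟨A₁, hA₁⟩ := th_exists T₁
  rw [a2_maxOrder T₁ A₁ hA₁, a2_maxOrder T A hA] at hle himp
  have hAT₁ : A ≤ T₁ := hAJ.trans hJT₁
  have hge : Nat.card A ≤ Nat.card A₁ := hA₁.2.2.2 A hAT₁ hA.2.1 hA.2.2.1
  have heq : Nat.card A₁ = Nat.card A := le_antisymm hle hge
  obtain ⟨hJle, -⟩ := himp heq
  have hmax : ∀ A' : Subgroup G, IsMaxEA T A' → IsMaxEA T₁ A' := by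
    intro A' hA'
    refine ⟨(th_le T A' hA').trans hJT₁, hA'.2.1, hA'.2.2.1, ?_⟩
    intro B hB hBc hB2
    calc Nat.card B ≤ Nat.card A₁ := hA₁.2.2.2 B hB hBc hB2
      _ = Nat.card A := heq
      _ ≤ Nat.card A' := hA'.2.2.2 A hA.1 hA.2.1 hA.2.2.1
  have hJJ : Cfsg.thompsonSubgroupOf 2 T ≤ Cfsg.thompsonSubgroupOf 2 T₁ :=
    th_le_of_forall T _ (fun A' hA' => th_le T₁ A' (hmax A' hA'))
  have hJeq : Cfsg.thompsonSubgroupOf 2 T = Cfsg.thompsonSubgroupOf 2 T₁ :=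
    Subgroup.eq_of_le_of_card_ge hJJ hJle
  have hnorm : ∀ x ∈ T₀, x ∈ Subgroup.normalizer (T₁ : Set G) → x ∈ T₁ := by
    intro x hx hxn
    have h1 := a2_norm_th T₁ x hxn
    rw [← hJeq] at h1
    rw [hT₁def]
    exact ⟨hx, hN h1⟩
  have hT₀T₁ : T₀ ≤ T₁ := by
    have hnil : Group.IsNilpotent ↥T₀ := hT₀2.isNilpotent
    have hNC := Group.normalizerCondition_of_isNilpotent (G := ↥T₀)
    by_contra hcon
    have hlt : T₁.subgroupOf T₀ < ⊤ := by
      rw [lt_top_iff_ne_top]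
      intro h
      exact hcon (Subgroup.subgroupOf_eq_top.mp h)
    have h2 := hNC _ hlt
    have h3 : Subgroup.normalizer ((T₁.subgroupOf T₀ : Subgroup ↥T₀) : Set ↥T₀) ≤
        T₁.subgroupOf T₀ := by
      intro x hx
      rw [Subgroup.mem_subgroupOf]
      apply hnorm x.1 x.2
      rw [Subgroup.mem_normalizer_iff] at hx ⊢
      intro h
      constructor
      · intro hh
        have h4 := (hx ⟨h, hT₁T₀ hh⟩).mp (Subgroup.mem_subgroupOf.mpr hh)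
        exact Subgroup.mem_subgroupOf.mp h4
      · intro hh
        have hhT₀ : h ∈ T₀ := by
          have e : h = (x : G)⁻¹ * ((x : G) * h * (x : G)⁻¹) * (x : G) := by group
          rw [e]
          exact T₀.mul_mem (T₀.mul_mem (T₀.inv_mem x.2) (hT₁T₀ hh)) x.2
        have h4 := (hx ⟨h, hhT₀⟩).mpr (Subgroup.mem_subgroupOf.mpr hh)
        exact Subgroup.mem_subgroupOf.mp h4
    exact absurd h2 (not_lt_of_ge h3)
  have hT₁eq : T₁ = T₀ := le_antisymm hT₁T₀ hT₀T₁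
  rw [hT₁eq] at hJeq hT₁s
  exact ⟨hJeq, hT₁s⟩

end Cfsg.Agent.Lib.Helper75.JE
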