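import Mathlib
import Cfsg.Agent.Lib.Helper75.Miller1

set_option autoImplicit false
set_option linter.unusedSectionVars false

namespace Cfsg.Agent.Lib.Helper75.Miller

open Equiv MulAction

variable {α : Type*} [Fintype α] [DecidableEq α]

/-- `z` acts on `Δ` as the 3-cycle `u → v → w → u` -/
structure Is3 (Δ : Finset α) (z : Perm α) (u v w : α) : Prop where
  hu : u ∈ Δ
  hv : v ∈ Δ
  hw : w ∈ Δ
  huv : u ≠ v
  hvw : v ≠ w
  huw : u ≠ w
  zu : z u = v
  zv : z v = w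
  zw : z w = u
  fix : ∀ d ∈ Δ, d ≠ u → d ≠ v → d ≠ w → z d = d

/-- `z` acts on `Δ` as the double transposition `(a b)(c d)` -/
structure Is22 (Δ : Finset α) (z : Perm α) (a b c d : α) : Prop where
  ha : a ∈ Δ
  hb : b ∈ Δ
  hc : c ∈ Δ
  hd : d ∈ Δ
  hab : a ≠ b
  hac : a ≠ c
  had : a ≠ d
  hbc : b ≠ c
  hbd : b ≠ d
  hcd : c ≠ d
  za : z a = b
  zb : z b = a
  zc : z c = d
  zd : z d = c
  fix : ∀ q ∈ Δ, q ≠ a → q ≠ b → q ≠ c → q ≠ d → z q = q

/-- `N` induces the full symmetric group on `Δ` and normalizes `M ≤ N` -/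
structure NormOn (Δ : Finset α) (N M : Subgroup (Perm α)) : Prop where
  pres : ∀ g ∈ N, ∀ q, q ∈ Δ ↔ g q ∈ Δ
  witt : ∀ σ : Perm α, (∀ q, q ∈ Δ ↔ σ q ∈ Δ) → ∃ g ∈ N, ∀ d ∈ Δ, g d = σ d
  le : M ≤ N
  conj : ∀ g ∈ N, ∀ x ∈ M, g * x * g⁻¹ ∈ M

omit [Fintype α] [DecidableEq α] in
theorem pres_inv {Δ : Finset α} {g : Perm α} (hg : ∀ q, q ∈ Δ ↔ g q ∈ Δ) (q : α) :
    q ∈ Δ ↔ g⁻¹ q ∈ Δ := by
  rw [hg (g⁻¹ q), app_inv]

omit [Fintype α] [DecidableEq α] in
theorem Is3.conj {Δ : Finset α} {z : Perm α} {u v w : α} (h : Is3 Δ z u v w) (g : Perm α)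
    (hg : ∀ q, q ∈ Δ ↔ g q ∈ Δ) : Is3 Δ (g * z * g⁻¹) (g u) (g v) (g w) where
  hu := (hg u).mp h.hu
  hv := (hg v).mp h.hv
  hw := (hg w).mp h.hw
  huv := fun e => h.huv (g.injective e)
  hvw := fun e => h.hvw (g.injective e)
  huw := fun e => h.huw (g.injective e)
  zu := by simp only [Perm.mul_apply, inv_app, h.zu]
  zv := by simp only [Perm.mul_apply, inv_app, h.zv]
  zw := by simp only [Perm.mul_apply, inv_app, h.zw]
  fix := by
    intro d hd h1 h2 h3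
    simp only [Perm.mul_apply]
    rw [h.fix (g⁻¹ d) ((pres_inv hg d).mp hd) (fun e => h1 (by rw [← e, app_inv]))
      (fun e => h2 (by rw [← e, app_inv])) (fun e => h3 (by rw [← e, app_inv])), app_inv]

omit [Fintype α] [DecidableEq α] in
theorem Is22.conj {Δ : Finset α} {z : Perm α} {a b c d : α} (h : Is22 Δ z a b c d)
    (g : Perm α) (hg : ∀ q, q ∈ Δ ↔ g q ∈ Δ) :
    Is22 Δ (g * z * g⁻¹) (g a) (g b) (g c) (g d) where
  ha := (hg a).mp h.ha
  hb := (hg b).mp h.hb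
  hc := (hg c).mp h.hc
  hd := (hg d).mp h.hd
  hab := fun e => h.hab (g.injective e)
  hac := fun e => h.hac (g.injective e)
  had := fun e => h.had (g.injective e)
  hbc := fun e => h.hbc (g.injective e)
  hbd := fun e => h.hbd (g.injective e)
  hcd := fun e => h.hcd (g.injective e)
  za := by simp only [Perm.mul_apply, inv_app, h.za]
  zb := by simp only [Perm.mul_apply, inv_app, h.zb]
  zc := by simp only [Perm.mul_apply, inv_app, h.zc]
  zd := by simp only [Perm.mul_apply, inv_app, h.zd]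
  fix := by
    intro q hq h1 h2 h3 h4
    simp only [Perm.mul_apply]
    rw [h.fix (g⁻¹ q) ((pres_inv hg q).mp hq) (fun e => h1 (by rw [← e, app_inv]))
      (fun e => h2 (by rw [← e, app_inv])) (fun e => h3 (by rw [← e, app_inv]))
      (fun e => h4 (by rw [← e, app_inv])), app_inv]

omit [Fintype α] [DecidableEq α] in
theorem Is22.pow_odd {Δ : Finset α} {z : Perm α} {a b c d : α} (h : Is22 Δ z a b c d)
    {m : ℕ} (hm : Odd m) : (z ^ m) a = b := by
  obtain ⟨j, rfl⟩ := hm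
  have h2 : (z ^ 2) b = b := by
    rw [pow_two, Perm.mul_apply, h.zb, h.za]
  rw [pow_succ, pow_mul, Perm.mul_apply, h.za]
  exact Perm.pow_apply_eq_self_of_apply_eq_self h2 j

omit [Fintype α] [DecidableEq α] in
theorem Is3.pow_ne {Δ : Finset α} {z : Perm α} {u v w : α} (h : Is3 Δ z u v w)
    {m : ℕ} (hm : ¬ 3 ∣ m) : (z ^ m) u ≠ u := by
  have h3v : (z ^ 3) v = v := by
    rw [pow_succ, pow_two, Perm.mul_apply, Perm.mul_apply, h.zv, h.zw, h.zu]
  have h3w : (z ^ 3) w = w := by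
    rw [pow_succ, pow_two, Perm.mul_apply, Perm.mul_apply, h.zw, h.zu, h.zv]
  have hm' : m % 3 = 1 ∨ m % 3 = 2 := by omega
  rcases hm' with h1 | h1
  · have : m = 3 * (m / 3) + 1 := by omega
    rw [this, pow_succ, pow_mul, Perm.mul_apply, h.zu,
      Perm.pow_apply_eq_self_of_apply_eq_self h3v]
    exact h.huv.symm
  · have : m = 3 * (m / 3) + 2 := by omega
    rw [this, pow_add, pow_mul, Perm.mul_apply, pow_two, Perm.mul_apply, h.zu, h.zv,
      Perm.pow_apply_eq_self_of_apply_eq_self h3w]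
    exact h.huw.symm

/-- choose a point of `Δ` outside a small list -/
theorem exists_mem_not_mem (Δ : Finset α) (l : Finset α) (h : l.card < Δ.card) :
    ∃ e ∈ Δ, e ∉ l := by
  by_contra hcon
  push Not at hcon
  have : Δ ⊆ l := fun e he => hcon e he
  have := Finset.card_le_card this
  omega

theorem NormOn.exists_swap {Δ : Finset α} {N M : Subgroup (Perm α)} (h : NormOn Δ N M)
    {b e : α} (hb : b ∈ Δ) (he : e ∈ Δ) :
    ∃ g ∈ N, (∀ q, q ∈ Δ ↔ g q ∈ Δ) ∧ (∀ d ∈ Δ, g d = swap b e d) ∧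
      (∀ d ∈ Δ, g⁻¹ d = swap b e d) := by
  have hσ : ∀ q, q ∈ Δ ↔ swap b e q ∈ Δ := Cfsg.Agent.S0713.swap_mem_iff Δ hb he
  obtain ⟨g, hgN, hg⟩ := h.witt (swap b e) hσ
  refine ⟨g, hgN, h.pres g hgN, hg, ?_⟩
  have := Cfsg.Agent.S0713.inv_eq_on Δ g (swap b e) hσ hg
  intro d hd
  rw [this d hd, swap_inv]

/-- a nontrivial element on `Δ` in a normalized subgroup gives a 3-cycle or double
transposition on `Δ` -/
theorem NormOn.exists_Is3_or_Is22 {Δ : Finset α} {N M : Subgroup (Perm α)} (h : NormOn Δ N M)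
    (x : Perm α) (hx : x ∈ M) (a : α) (ha : a ∈ Δ) (hxa : x a ≠ a) (h3 : 3 ≤ Δ.card) :
    (∃ z ∈ M, ∃ u v w, Is3 Δ z u v w) ∨ (∃ z ∈ M, ∃ a b c d, Is22 Δ z a b c d) := by
  have hxΔ := h.pres x (h.le hx)
  obtain ⟨b, hb⟩ : ∃ b, b = x a := ⟨_, rfl⟩
  have hbΔ : b ∈ Δ := hb ▸ (hxΔ a).mp ha
  have hba : b ≠ a := hb ▸ hxa
  obtain ⟨e, heΔ, hel⟩ := exists_mem_not_mem Δ {a, b} (by
    have : ({a, b} : Finset α).card ≤ 2 := Finset.card_le_two
    omega)
  have hea : e ≠ a := fun h' => hel (by simp [h'])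
  have heb : e ≠ b := fun h' => hel (by simp [h'])
  obtain ⟨g, hgN, hgΔ, hg, hginv⟩ := h.exists_swap hbΔ heΔ
  obtain ⟨u, hu⟩ : ∃ u, u = x b := ⟨_, rfl⟩
  obtain ⟨v, hv⟩ : ∃ v, v = x e := ⟨_, rfl⟩
  have huΔ : u ∈ Δ := hu ▸ (hxΔ b).mp hbΔ
  have hvΔ : v ∈ Δ := hv ▸ (hxΔ e).mp heΔ
  have huv : u ≠ v := by rw [hu, hv]; exact fun h' => heb (x.injective h').symm
  have hub : u ≠ b := by
    intro h'
    rw [hu, hb] at h'
    exact hxa (x.injective h')
  have hvb : v ≠ b := by rw [hv, hb]; exact fun h' => hea (x.injective h')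
  have hzM : x * g * x⁻¹ * g⁻¹ ∈ M := by
    have h1 := h.conj g hgN x⁻¹ (M.inv_mem hx)
    have h2 := M.mul_mem hx h1
    have e1 : x * (g * x⁻¹ * g⁻¹) = x * g * x⁻¹ * g⁻¹ := by group
    rwa [e1] at h2
  have hz : ∀ d ∈ Δ, (x * g * x⁻¹ * g⁻¹) d = swap u v (swap b e d) := by
    intro d hd
    simp only [Perm.mul_apply]
    rw [hginv d hd]
    have h1 : swap b e d ∈ Δ := (Cfsg.Agent.S0713.swap_mem_iff Δ hbΔ heΔ d).mp hd
    have h2 : x⁻¹ (swap b e d) ∈ Δ := (pres_inv hxΔ _).mp h1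
    rw [hg _ h2, hu, hv, Equiv.swap_apply_apply]
    simp only [Perm.mul_apply]
  by_cases hue : u = e
  · left
    refine ⟨_, hzM, b, v, e, ?_⟩
    have hve : v ≠ e := fun h' => huv (hue.trans h'.symm)
    exact
      { hu := hbΔ, hv := hvΔ, hw := heΔ, huv := hvb.symm, hvw := hve, huw := heb.symm
        zu := by rw [hz b hbΔ, swap_apply_left, hue, swap_apply_left]
        zv := by
          rw [hz v hvΔ, swap_apply_of_ne_of_ne hvb hve, hue, swap_apply_right]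
        zw := by
          rw [hz e heΔ, swap_apply_right, hue, swap_apply_of_ne_of_ne heb.symm hvb.symm]
        fix := by
          intro d hd h1 h2 h3
          rw [hz d hd, swap_apply_of_ne_of_ne h1 h3, hue, swap_apply_of_ne_of_ne h3 h2] }
  by_cases hve : v = e
  · left
    refine ⟨_, hzM, b, u, e, ?_⟩
    exact
      { hu := hbΔ, hv := huΔ, hw := heΔ, huv := hub.symm, hvw := hue, huw := heb.symm
        zu := by rw [hz b hbΔ, swap_apply_left, hve, swap_apply_right]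
        zv := by
          rw [hz u huΔ, swap_apply_of_ne_of_ne hub hue, hve, swap_apply_left]
        zw := by
          rw [hz e heΔ, swap_apply_right, hve, swap_apply_of_ne_of_ne hub.symm heb.symm]
        fix := by
          intro d hd h1 h2 h3
          rw [hz d hd, swap_apply_of_ne_of_ne h1 h3, hve, swap_apply_of_ne_of_ne h2 h3] }
  · right
    refine ⟨_, hzM, u, v, b, e, ?_⟩
    exact
      { ha := huΔ, hb := hvΔ, hc := hbΔ, hd := heΔ, hab := huv, hac := hub, had := hue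
        hbc := hvb, hbd := hve, hcd := heb.symm
        za := by rw [hz u huΔ, swap_apply_of_ne_of_ne hub hue, swap_apply_left]
        zb := by rw [hz v hvΔ, swap_apply_of_ne_of_ne hvb hve, swap_apply_right]
        zc := by rw [hz b hbΔ, swap_apply_left, swap_apply_of_ne_of_ne (Ne.symm hue) (Ne.symm hve)]
        zd := by rw [hz e heΔ, swap_apply_right, swap_apply_of_ne_of_ne hub.symm hvb.symm]
        fix := by
          intro d hd h1 h2 h3 h4
          rw [hz d hd, swap_apply_of_ne_of_ne h3 h4, swap_apply_of_ne_of_ne h1 h2] }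

/-- from a 3-cycle on `Δ` to a double transposition on `Δ` when `Δ` has at least four points -/
theorem NormOn.exists_Is22_of_Is3 {Δ : Finset α} {N M : Subgroup (Perm α)} (h : NormOn Δ N M)
    {z : Perm α} (hz : z ∈ M) {u v w : α} (h3 : Is3 Δ z u v w) (h4 : 4 ≤ Δ.card) :
    ∃ y ∈ M, ∃ a b c d, Is22 Δ y a b c d := by
  obtain ⟨d, hdΔ, hdl⟩ := exists_mem_not_mem Δ {u, v, w} (by
    have : ({u, v, w} : Finset α).card ≤ 3 := Finset.card_le_three
    omega)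
  have hdu : d ≠ u := fun h' => hdl (by simp [h'])
  have hdv : d ≠ v := fun h' => hdl (by simp [h'])
  have hdw : d ≠ w := fun h' => hdl (by simp [h'])
  obtain ⟨g, hgN, hgΔ, hg, -⟩ := h.exists_swap h3.hw hdΔ
  have h3' := h3.conj g hgΔ
  rw [hg u h3.hu, hg v h3.hv, hg w h3.hw, swap_apply_of_ne_of_ne h3.huw hdu.symm,
    swap_apply_of_ne_of_ne h3.hvw hdv.symm, swap_apply_left] at h3'
  refine ⟨z * (g * z * g⁻¹), M.mul_mem hz (h.conj g hgN z hz), u, w, v, d, ?_⟩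
  exact
    { ha := h3.hu, hb := h3.hw, hc := h3.hv, hd := hdΔ, hab := h3.huw, hac := h3.huv
      had := hdu.symm, hbc := h3.hvw.symm, hbd := hdw.symm, hcd := hdv.symm
      za := by rw [Perm.mul_apply, h3'.zu, h3.zv]
      zb := by
        rw [Perm.mul_apply, h3'.fix w h3.hw h3.huw.symm h3.hvw.symm hdw.symm, h3.zw]
      zc := by
        rw [Perm.mul_apply, h3'.zv, h3.fix d hdΔ hdu hdv hdw]
      zd := by rw [Perm.mul_apply, h3'.zw, h3.zu]
      fix := by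
        intro q hq h1 h2 h3q h4q
        rw [Perm.mul_apply, h3'.fix q hq h1 h3q h4q, h3.fix q hq h1 h3q h2] }

/-- two non-commuting (on `Δ`) elements from a 3-cycle on `Δ`, `4 ≤ |Δ|` -/
theorem NormOn.exists_noncomm_of_Is3 {Δ : Finset α} {N M : Subgroup (Perm α)}
    (h : NormOn Δ N M) {z : Perm α} (hz : z ∈ M) {u v w : α} (h3 : Is3 Δ z u v w)
    (h4 : 4 ≤ Δ.card) :
    ∃ y₁ ∈ M, ∃ y₂ ∈ M, ∃ q ∈ Δ, (y₁ * y₂ * y₁⁻¹ * y₂⁻¹) q ≠ q := by
  obtain ⟨d, hdΔ, hdl⟩ := exists_mem_not_mem Δ {u, v, w} (by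
    have : ({u, v, w} : Finset α).card ≤ 3 := Finset.card_le_three
    omega)
  have hdu : d ≠ u := fun h' => hdl (by simp [h'])
  have hdv : d ≠ v := fun h' => hdl (by simp [h'])
  have hdw : d ≠ w := fun h' => hdl (by simp [h'])
  obtain ⟨g, hgN, hgΔ, hg, -⟩ := h.exists_swap h3.hw hdΔ
  have h3' := h3.conj g hgΔ
  rw [hg u h3.hu, hg v h3.hv, hg w h3.hw, swap_apply_of_ne_of_ne h3.huw hdu.symm,
    swap_apply_of_ne_of_ne h3.hvw hdv.symm, swap_apply_left] at h3'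
  refine ⟨z, hz, g * z * g⁻¹, h.conj g hgN z hz, u, h3.hu, ?_⟩
  have e1 : (g * z * g⁻¹)⁻¹ u = d := by rw [Perm.inv_eq_iff_eq, h3'.zw]
  have e2 : z⁻¹ d = d := by rw [Perm.inv_eq_iff_eq, h3.fix d hdΔ hdu hdv hdw]
  rw [Perm.mul_apply, Perm.mul_apply, Perm.mul_apply, e1, e2, h3'.zw, h3.zu]
  exact h3.huv.symm

/-- two non-commuting (on `Δ`) elements from a double transposition on `Δ`, `5 ≤ |Δ|` -/
theorem NormOn.exists_noncomm_of_Is22 {Δ : Finset α} {N M : Subgroup (Perm α)}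
    (h : NormOn Δ N M) {y : Perm α} (hy : y ∈ M) {a b c d : α} (h22 : Is22 Δ y a b c d)
    (h5 : 5 ≤ Δ.card) :
    ∃ y₁ ∈ M, ∃ y₂ ∈ M, ∃ q ∈ Δ, (y₁ * y₂ * y₁⁻¹ * y₂⁻¹) q ≠ q := by
  obtain ⟨e, heΔ, hel⟩ := exists_mem_not_mem Δ {a, b, c, d} (by
    have : ({a, b, c, d} : Finset α).card ≤ 4 := Finset.card_le_four
    omega)
  have hea : e ≠ a := fun h' => hel (by simp [h'])
  have heb : e ≠ b := fun h' => hel (by simp [h'])
  have hec : e ≠ c := fun h' => hel (by simp [h'])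
  have hed : e ≠ d := fun h' => hel (by simp [h'])
  obtain ⟨g, hgN, hgΔ, hg, -⟩ := h.exists_swap h22.hd heΔ
  have h22' := h22.conj g hgΔ
  rw [hg a h22.ha, hg b h22.hb, hg c h22.hc, hg d h22.hd,
    swap_apply_of_ne_of_ne h22.had hea.symm, swap_apply_of_ne_of_ne h22.hbd heb.symm,
    swap_apply_of_ne_of_ne h22.hcd hec.symm, swap_apply_left] at h22'
  refine ⟨y, hy, g * y * g⁻¹, h.conj g hgN y hy, c, h22.hc, ?_⟩
  have e1 : (g * y * g⁻¹)⁻¹ c = e := by rw [Perm.inv_eq_iff_eq, h22'.zd]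
  have e2 : y⁻¹ e = e := by rw [Perm.inv_eq_iff_eq, h22.fix e heΔ hea heb hec hed]
  rw [Perm.mul_apply, Perm.mul_apply, Perm.mul_apply, e1, e2, h22'.zd, h22.zc]
  exact h22.hcd.symm

end Cfsg.Agent.Lib.Helper75.Miller
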