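import Mathlib
import Cfsg.Agent.Lib.Helper75.Miller2
import Cfsg.Agent.Lib.Helper75.Pronormal

set_option autoImplicit false
set_option linter.unusedSectionVars false

namespace Cfsg.Agent.Lib.Helper75.Miller

open Equiv MulAction
open Cfsg.Agent.Lib.Helper75.Pron

variable {α : Type*} [Fintype α] [DecidableEq α]

/-- the Miller configuration: `G` is `(r+1)`-transitive of degree `k p + r`, `Δ` a set of `r`
points and `P` a Sylow `p`-subgroup of its pointwise stabilizer -/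
structure Cfg (α : Type*) [Fintype α] [DecidableEq α] where
  G : Subgroup (Perm α)
  p : ℕ
  k : ℕ
  r : ℕ
  hp : p.Prime
  hcard : Fintype.card α = k * p + r
  hk : 1 ≤ k
  hkp : k < p
  hr3 : 3 ≤ r
  htr : IsMultiplyPretransitive G α (r + 1)
  Δ : Finset α
  hΔ : Δ.card = r
  P : Subgroup (Perm α)
  hP : SylIn p P (Cfsg.Agent.S0713.fixG G Δ)

namespace Cfg

variable {c : Cfg α}

/-- pointwise stabilizer of `Δ` -/
def H (c : Cfg α) : Subgroup (Perm α) := Cfsg.Agent.S0713.fixG c.G c.Δ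

theorem mem_H {t : Perm α} : t ∈ c.H ↔ t ∈ c.G ∧ ∀ d ∈ c.Δ, t d = d := Iff.rfl

theorem P_le_H : c.P ≤ c.H := c.hP.2.1

theorem P_le_G : c.P ≤ c.G := fun _ ht => (c.P_le_H ht).1

theorem P_fix {t : Perm α} (ht : t ∈ c.P) {d : α} (hd : d ∈ c.Δ) : t d = d :=
  (c.P_le_H ht).2 d hd

theorem card_compl : c.Δᶜ.card = c.k * c.p := by
  rw [Finset.card_compl, c.hcard, c.hΔ]; omega

theorem kp_pos : 0 < c.k * c.p := Nat.mul_pos c.hk c.hp.pos

theorem r_succ_le : c.r + 1 ≤ Fintype.card α := by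
  rw [c.hcard]; have := c.kp_pos; omega

/-- elements fixing `Δ` pointwise preserve `Δ` -/
theorem fix_pres {Δ : Finset α} {t : Perm α} (ht : ∀ d ∈ Δ, t d = d) (q : α) :
    q ∈ Δ ↔ t q ∈ Δ := by
  constructor
  · intro h; rw [ht q h]; exact h
  · intro h
    have h1 := ht (t q) h
    have h2 : t q = q := t.injective h1
    rw [← h2]; exact h

theorem P_pres {t : Perm α} (ht : t ∈ c.P) (q : α) : q ∈ c.Δ ↔ t q ∈ c.Δ :=
  fix_pres (fun _ hd => c.P_fix ht hd) q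

theorem H_trans {γ γ' : α} (hγ : γ ∉ c.Δ) (hγ' : γ' ∉ c.Δ) : ∃ h ∈ c.H, h γ = γ' := by
  have hcard : (insert γ c.Δ).card ≤ c.r + 1 := by
    rw [Finset.card_insert_of_notMem hγ, c.hΔ]
  obtain ⟨x, hxG, hx⟩ := exists_agree c.G c.htr c.r_succ_le (insert γ c.Δ) hcard (swap γ γ')
  refine ⟨x, ⟨hxG, ?_⟩, ?_⟩
  · intro d hd
    rw [hx d (Finset.mem_insert_of_mem hd)]
    exact swap_apply_of_ne_of_ne (fun h => hγ (h ▸ hd)) (fun h => hγ' (h ▸ hd))
  · rw [hx γ (Finset.mem_insert_self _ _), swap_apply_left]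

/-- `P` fixes no point outside `Δ` -/
theorem not_fixed {γ : α} (hγ : γ ∉ c.Δ) : ∃ t ∈ c.P, t γ ≠ γ := by
  by_contra hcon
  push Not at hcon
  have horb : MulAction.orbit c.H γ = {q | q ∉ c.Δ} := by
    ext q
    constructor
    · rintro ⟨h, rfl⟩
      intro hq
      exact hγ ((fix_pres h.2.2 γ).mpr hq)
    · intro hq
      obtain ⟨h, hh, hhγ⟩ := c.H_trans hγ hq
      exact ⟨⟨h, hh⟩, hhγ⟩
  have hcardorb : (MulAction.orbit c.H γ).ncard = c.k * c.p := by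
    rw [horb, ← c.card_compl, ← Set.ncard_coe_finset]
    congr 1
    ext q; simp
  have hidx : (MulAction.stabilizer c.H γ).index = c.k * c.p := by
    rw [MulAction.index_stabilizer, hcardorb]
  have hle : c.P.subgroupOf c.H ≤ MulAction.stabilizer c.H γ := by
    intro h hh
    rw [MulAction.mem_stabilizer_iff]
    exact hcon h.1 hh
  have hdvd := Subgroup.index_dvd_of_le hle
  rw [hidx] at hdvd
  exact c.hP.2.2 (dvd_trans (Dvd.intro_left _ rfl) hdvd)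

/-- same `P`-orbit -/
def Rel (c : Cfg α) (γ γ' : α) : Prop := ∃ t ∈ c.P, t γ = γ'

theorem rel_refl (c : Cfg α) (γ : α) : c.Rel γ γ := ⟨1, c.P.one_mem, rfl⟩

theorem Rel.symm {γ γ' : α} (h : c.Rel γ γ') : c.Rel γ' γ := by
  obtain ⟨t, ht, rfl⟩ := h
  exact ⟨t⁻¹, c.P.inv_mem ht, inv_app t γ⟩

theorem Rel.trans {γ γ' γ'' : α} (h : c.Rel γ γ') (h' : c.Rel γ' γ'') : c.Rel γ γ'' := by
  obtain ⟨t, ht, rfl⟩ := h
  obtain ⟨s, hs, rfl⟩ := h'
  exact ⟨s * t, c.P.mul_mem hs ht, rfl⟩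

theorem Rel.not_mem {γ γ' : α} (h : c.Rel γ γ') (hγ : γ ∉ c.Δ) : γ' ∉ c.Δ := by
  obtain ⟨t, ht, rfl⟩ := h
  exact fun h' => hγ ((c.P_pres ht γ).mpr h')

/-- the `P`-orbit as a finset -/
noncomputable def orb (c : Cfg α) (γ : α) : Finset α := by
  classical exact Finset.univ.filter (fun q => c.Rel γ q)

theorem mem_orb {γ q : α} : q ∈ c.orb γ ↔ c.Rel γ q := by
  classical
  unfold orb
  simp

theorem orb_subset {γ : α} (hγ : γ ∉ c.Δ) : c.orb γ ⊆ c.Δᶜ := by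
  intro q hq
  rw [mem_orb] at hq
  exact Finset.mem_compl.mpr (hq.not_mem hγ)

theorem coe_orb (γ : α) : (c.orb γ : Set α) = MulAction.orbit c.P γ := by
  ext q
  rw [Finset.mem_coe, mem_orb]
  constructor
  · rintro ⟨t, ht, rfl⟩
    exact ⟨⟨t, ht⟩, rfl⟩
  · rintro ⟨t, rfl⟩
    exact ⟨t.1, t.2, rfl⟩

theorem card_orb {γ : α} (hγ : γ ∉ c.Δ) : (c.orb γ).card = c.p := by
  have : Fact c.p.Prime := ⟨c.hp⟩
  have hpg : IsPGroup c.p c.P := c.hP.1
  obtain ⟨n, hn⟩ := hpg.card_orbit γ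
  have he : Nat.card (MulAction.orbit c.P γ) = (c.orb γ).card := by
    rw [Nat.card_coe_set_eq, ← coe_orb, Set.ncard_coe_finset]
  rw [he] at hn
  have h1 : (c.orb γ).card ≠ 1 := by
    intro h
    obtain ⟨t, ht, htγ⟩ := c.not_fixed hγ
    obtain ⟨a, ha⟩ := Finset.card_eq_one.mp h
    have e1 : γ = a := by
      have : γ ∈ c.orb γ := mem_orb.mpr (c.rel_refl γ)
      rw [ha] at this; exact Finset.mem_singleton.mp this
    have e2 : t γ = a := by
      have : t γ ∈ c.orb γ := mem_orb.mpr ⟨t, ht, rfl⟩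
      rw [ha] at this; exact Finset.mem_singleton.mp this
    exact htγ (e2.trans e1.symm)
  have h2 : (c.orb γ).card ≤ c.k * c.p := by
    rw [← c.card_compl]; exact Finset.card_le_card (orb_subset hγ)
  rw [hn] at h1 h2 ⊢
  have hp2 := c.hp.two_le
  rcases Nat.lt_or_ge n 2 with h | h
  · interval_cases n
    · simp at h1
    · simp
  · exfalso
    have h3 : c.p ^ 2 ≤ c.p ^ n := Nat.pow_le_pow_right c.hp.pos h
    have h4 : c.k * c.p < c.p * c.p := Nat.mul_lt_mul_of_pos_right c.hkp c.hp.pos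
    rw [pow_two] at h3
    omega

theorem index_stab {γ : α} (hγ : γ ∉ c.Δ) : (MulAction.stabilizer c.P γ).index = c.p := by
  rw [MulAction.index_stabilizer, ← coe_orb, Set.ncard_coe_finset, card_orb hγ]

theorem stab_normal {γ : α} (hγ : γ ∉ c.Δ) : (MulAction.stabilizer c.P γ).Normal := by
  have : Fact c.p.Prime := ⟨c.hp⟩
  have hpg : IsPGroup c.p c.P := c.hP.1
  obtain ⟨n, hn⟩ := IsPGroup.iff_card.mp hpg
  apply Subgroup.normal_of_index_eq_minFac_card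
  rw [index_stab hγ, hn]
  have hn0 : n ≠ 0 := by
    rintro rfl
    have h1 := index_stab hγ
    have h2 : (MulAction.stabilizer c.P γ).index ∣ Nat.card c.P := Subgroup.index_dvd_card _
    rw [hn, h1, pow_zero] at h2
    exact c.hp.one_lt.ne' (Nat.dvd_one.mp h2)
  exact (c.hp.pow_minFac hn0).symm

theorem card_quot {γ : α} (hγ : γ ∉ c.Δ) :
    Nat.card (c.P ⧸ MulAction.stabilizer c.P γ) = c.p := by
  rw [← Subgroup.index_eq_card, index_stab hγ]

theorem pow_p_fix {γ : α} (hγ : γ ∉ c.Δ) {t : Perm α} (ht : t ∈ c.P) : (t ^ c.p) γ = γ := by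
  have := stab_normal hγ
  have h1 : ((⟨t, ht⟩ : c.P) : c.P ⧸ MulAction.stabilizer c.P γ) ^ c.p = 1 := by
    rw [← card_quot hγ]; exact pow_card_eq_one'
  rw [← QuotientGroup.mk_pow, QuotientGroup.eq_one_iff] at h1
  exact h1

theorem P_pow_p {t : Perm α} (ht : t ∈ c.P) : t ^ c.p = 1 := by
  ext q
  by_cases hq : q ∈ c.Δ
  · exact c.P_fix (c.P.pow_mem ht _) hq
  · exact pow_p_fix hq ht

/-- an element of `P` fixing a point outside `Δ` fixes its whole orbit -/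
theorem fix_orbit {γ : α} (hγ : γ ∉ c.Δ) {t : Perm α} (ht : t ∈ c.P) (h : t γ = γ)
    {s : Perm α} (hs : s ∈ c.P) : t (s γ) = s γ := by
  have h1 : (⟨t, ht⟩ : c.P) ∈ MulAction.stabilizer c.P γ := h
  have h2 := (stab_normal hγ).conj_mem _ h1 (⟨s, hs⟩⁻¹ : c.P)
  have h3 : (s⁻¹ * t * s⁻¹⁻¹) γ = γ := h2
  rw [inv_inv, Perm.mul_apply, Perm.mul_apply, Perm.inv_eq_iff_eq] at h3
  exact h3

theorem fix_rel {γ γ' : α} (hγ : γ ∉ c.Δ) {t : Perm α} (ht : t ∈ c.P) (h : t γ = γ)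
    (hr : c.Rel γ γ') : t γ' = γ' := by
  obtain ⟨s, hs, rfl⟩ := hr
  exact fix_orbit hγ ht h hs

theorem move_rel {γ γ' : α} (hγ : γ ∉ c.Δ) {t : Perm α} (ht : t ∈ c.P) (h : t γ ≠ γ)
    (hr : c.Rel γ γ') : t γ' ≠ γ' :=
  fun h' => h (fix_rel (hr.not_mem hγ) ht h' hr.symm)

/-- on an orbit every element of `P` is a power of any element acting nontrivially -/
theorem exists_pow_eqOn {γ : α} (hγ : γ ∉ c.Δ) {t₀ : Perm α} (ht₀ : t₀ ∈ c.P) (h0 : t₀ γ ≠ γ)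
    {t : Perm α} (ht : t ∈ c.P) : ∃ j : ℕ, ∀ s ∈ c.P, t (s γ) = (t₀ ^ j) (s γ) := by
  have := stab_normal hγ
  have : Fact c.p.Prime := ⟨c.hp⟩
  have hne : ((⟨t₀, ht₀⟩ : c.P) : c.P ⧸ MulAction.stabilizer c.P γ) ≠ 1 := by
    rw [Ne, QuotientGroup.eq_one_iff]
    exact h0
  have htop := zpowers_eq_top_of_prime_card (card_quot hγ) hne
  have hmem : ((⟨t, ht⟩ : c.P) : c.P ⧸ MulAction.stabilizer c.P γ) ∈
      Subgroup.zpowers ((⟨t₀, ht₀⟩ : c.P) : c.P ⧸ MulAction.stabilizer c.P γ) := by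
    rw [htop]; trivial
  rw [← mem_powers_iff_mem_zpowers] at hmem
  obtain ⟨j, hj⟩ := hmem
  refine ⟨j, ?_⟩
  have hu : (⟨t₀, ht₀⟩ ^ j : c.P)⁻¹ * ⟨t, ht⟩ ∈ MulAction.stabilizer c.P γ := by
    rw [← QuotientGroup.eq]
    exact hj
  intro s hs
  have hu' : ((t₀ ^ j)⁻¹ * t) γ = γ := hu
  have h4 := fix_orbit hγ (c.P.mul_mem (c.P.inv_mem (c.P.pow_mem ht₀ j)) ht) hu' hs
  rw [Perm.mul_apply, Perm.inv_eq_iff_eq] at h4
  exact h4

/-- two permutations agree on the `P`-orbit of `γ` -/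
def EqOn (c : Cfg α) (γ : α) (t t' : Perm α) : Prop := ∀ s ∈ c.P, t (s γ) = t' (s γ)

theorem EqOn.refl (c : Cfg α) (γ : α) (t : Perm α) : c.EqOn γ t t := fun _ _ => rfl

theorem EqOn.symm {γ : α} {t t' : Perm α} (h : c.EqOn γ t t') : c.EqOn γ t' t :=
  fun s hs => (h s hs).symm

theorem EqOn.trans {γ : α} {t t' t'' : Perm α} (h : c.EqOn γ t t') (h' : c.EqOn γ t' t'') :
    c.EqOn γ t t'' := fun s hs => (h s hs).trans (h' s hs)

theorem EqOn.pow {γ : α} {t t' : Perm α} (h : c.EqOn γ t t') (ht' : t' ∈ c.P) (m : ℕ) :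
    c.EqOn γ (t ^ m) (t' ^ m) := by
  induction m with
  | zero => intro s _; simp
  | succ m ih =>
    intro s hs
    rw [pow_succ, pow_succ, Perm.mul_apply, Perm.mul_apply, h s hs]
    exact ih (t' * s) (c.P.mul_mem ht' hs)

theorem EqOn.rel {γ γ' : α} {t t' : Perm α} (h : c.EqOn γ t t') (hr : c.Rel γ γ') :
    c.EqOn γ' t t' := by
  obtain ⟨u, hu, rfl⟩ := hr
  intro s hs
  exact h (s * u) (c.P.mul_mem hs hu)

theorem eqOn_pow_of {γ : α} (hγ : γ ∉ c.Δ) {t₀ : Perm α} (ht₀ : t₀ ∈ c.P) (h0 : t₀ γ ≠ γ)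
    {t : Perm α} (ht : t ∈ c.P) : ∃ j : ℕ, c.EqOn γ t (t₀ ^ j) :=
  exists_pow_eqOn hγ ht₀ h0 ht

/-- powers of elements of `P` depend only on the exponent modulo `p` -/
theorem pow_congr {t : Perm α} (ht : t ∈ c.P) {a b : ℕ} (h : a ≡ b [MOD c.p]) :
    t ^ a = t ^ b := by
  rw [pow_eq_pow_mod a (P_pow_p ht), pow_eq_pow_mod b (P_pow_p ht), h]

theorem dvd_of_pow_fix {γ : α} {t : Perm α} (ht : t ∈ c.P) (h0 : t γ ≠ γ) {m : ℕ}
    (hm : (t ^ m) γ = γ) : c.p ∣ m := by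
  by_contra hnd
  have hcop : Nat.Coprime m c.p := (Nat.Prime.coprime_iff_not_dvd c.hp).mpr hnd |>.symm
  obtain ⟨u, -, hu⟩ := Nat.exists_mul_mod_eq_one_of_coprime hcop c.hp.one_lt
  have h1 : t ^ (m * u) = t := by
    rw [pow_eq_pow_mod (m * u) (P_pow_p ht), hu, pow_one]
  apply h0
  conv_lhs => rw [← h1, pow_mul]
  exact Perm.pow_apply_eq_self_of_apply_eq_self hm u

theorem modEq_of_pow_eq {γ : α} {t : Perm α} (ht : t ∈ c.P) (h0 : t γ ≠ γ) {a b : ℕ}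
    (h : (t ^ a) γ = (t ^ b) γ) : a ≡ b [MOD c.p] := by
  wlog hab : a ≤ b generalizing a b
  · exact (this h.symm (by omega)).symm
  have e : b = a + (b - a) := by omega
  rw [e, pow_add, Perm.mul_apply] at h
  have h1 : (t ^ (b - a)) γ = γ := ((t ^ a).injective h).symm
  have h2 := dvd_of_pow_fix ht h0 h1
  exact (Nat.modEq_iff_dvd' hab).mpr h2

end Cfg

end Cfsg.Agent.Lib.Helper75.Miller
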