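import Mathlib
import Cfsg.Agent.Lib.Helper75.Miller3

set_option autoImplicit false
set_option linter.unusedSectionVars false

namespace Cfsg.Agent.Lib.Helper75.Miller

open Equiv MulAction
open Cfsg.Agent.Lib.Helper75.Pron

variable {α : Type*} [Fintype α] [DecidableEq α]

namespace Cfg

variable {c : Cfg α}

/-- the normalizer of `P` in `G` -/
def N (c : Cfg α) : Subgroup (Perm α) := c.G ⊓ Subgroup.normalizer (c.P : Set (Perm α))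

theorem mem_N {g : Perm α} : g ∈ c.N ↔ g ∈ c.G ∧ ∀ t, t ∈ c.P ↔ g * t * g⁻¹ ∈ c.P := by
  unfold N
  rw [Subgroup.mem_inf, Subgroup.mem_normalizer_iff]

theorem N_le_G : c.N ≤ c.G := inf_le_left

theorem N_conj {g t : Perm α} (hg : g ∈ c.N) (ht : t ∈ c.P) : g * t * g⁻¹ ∈ c.P :=
  ((mem_N.mp hg).2 t).mp ht

theorem N_conj' {g t : Perm α} (hg : g ∈ c.N) (ht : t ∈ c.P) : g⁻¹ * t * g ∈ c.P := by
  have := N_conj (c.N.inv_mem hg) ht
  rwa [inv_inv] at this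

theorem N_pres {g : Perm α} (hg : g ∈ c.N) (q : α) : q ∈ c.Δ ↔ g q ∈ c.Δ := by
  have key : ∀ g ∈ c.N, ∀ q ∈ c.Δ, g q ∈ c.Δ := by
    intro g hg q hq
    by_contra hgq
    obtain ⟨t, ht, htq⟩ := c.not_fixed hgq
    have h1 := c.P_fix (N_conj' hg ht) hq
    rw [Perm.mul_apply, Perm.mul_apply, Perm.inv_eq_iff_eq] at h1
    exact htq h1
  constructor
  · exact key g hg q
  · intro h
    have := key g⁻¹ (c.N.inv_mem hg) (g q) h
    rwa [inv_app] at this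

theorem N_rel {g : Perm α} (hg : g ∈ c.N) {γ γ' : α} (h : c.Rel γ γ') :
    c.Rel (g γ) (g γ') := by
  obtain ⟨t, ht, rfl⟩ := h
  exact ⟨g * t * g⁻¹, N_conj hg ht, by simp only [Perm.mul_apply, inv_app]⟩

theorem cj_H {x : Perm α} (hx : x ∈ c.G) (hxΔ : ∀ q, q ∈ c.Δ ↔ x q ∈ c.Δ) :
    cj x c.H = c.H := by
  ext y
  rw [mem_cj, mem_H, mem_H]
  constructor
  · rintro ⟨h1, h2⟩
    refine ⟨?_, ?_⟩
    · have := c.G.mul_mem (c.G.mul_mem hx h1) (c.G.inv_mem hx)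
      have e : x * (x⁻¹ * y * x) * x⁻¹ = y := by group
      rwa [e] at this
    · intro d hd
      have h3 := h2 (x⁻¹ d) ((pres_inv hxΔ d).mp hd)
      rw [Perm.mul_apply, Perm.mul_apply, app_inv, Perm.inv_eq_iff_eq, app_inv] at h3
      exact h3
  · rintro ⟨h1, h2⟩
    refine ⟨c.G.mul_mem (c.G.mul_mem (c.G.inv_mem hx) h1) hx, ?_⟩
    intro d hd
    rw [Perm.mul_apply, Perm.mul_apply, h2 (x d) ((hxΔ d).mp hd), inv_app]

/-- Witt's lemma: `N` induces the full symmetric group on `Δ` -/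
theorem witt (σ : Perm α) (hσ : ∀ q, q ∈ c.Δ ↔ σ q ∈ c.Δ) :
    ∃ g ∈ c.N, ∀ d ∈ c.Δ, g d = σ d := by
  have : Fact c.p.Prime := ⟨c.hp⟩
  obtain ⟨x, hxG, hx⟩ := exists_agree c.G c.htr c.r_succ_le c.Δ (by rw [c.hΔ]; omega) σ
  have hxinv := Cfsg.Agent.S0713.inv_eq_on c.Δ x σ hσ hx
  have hxΔ : ∀ q, q ∈ c.Δ ↔ x q ∈ c.Δ := by
    intro q
    constructor
    · intro h; rw [hx q h]; exact (hσ q).mp h
    · intro h
      have h1 := hxinv (x q) h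
      rw [inv_app] at h1
      rw [h1]
      exact (pres_inv hσ _).mp h
  have h1 : SylIn c.p (cj x c.P) c.H := by
    have h0 := c.hP.conj x
    have e : cj x (Cfsg.Agent.S0713.fixG c.G c.Δ) = c.H := cj_H hxG hxΔ
    rwa [e] at h0
  obtain ⟨m, hm, hme⟩ := h1.exists_cj_eq (show SylIn c.p c.P c.H from c.hP)
  rw [← cj_mul] at hme
  refine ⟨m * x, Subgroup.mem_inf.mpr ⟨c.G.mul_mem hm.1 hxG, mem_normalizer_of_cj hme⟩, ?_⟩
  intro d hd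
  rw [Perm.mul_apply, hx d hd]
  exact hm.2 (σ d) ((hσ d).mp hd)

/-- elements of `N` preserving every `P`-orbit -/
def N0 (c : Cfg α) : Subgroup (Perm α) where
  carrier := {g | g ∈ c.N ∧ ∀ γ, γ ∉ c.Δ → c.Rel γ (g γ)}
  one_mem' := ⟨c.N.one_mem, fun γ _ => c.rel_refl γ⟩
  mul_mem' := by
    rintro g h ⟨hg, hg'⟩ ⟨hh, hh'⟩
    refine ⟨c.N.mul_mem hg hh, fun γ hγ => ?_⟩
    exact (hh' γ hγ).trans (hg' (h γ) ((hh' γ hγ).not_mem hγ))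
  inv_mem' := by
    rintro g ⟨hg, hg'⟩
    refine ⟨c.N.inv_mem hg, fun γ hγ => ?_⟩
    have h1 : g⁻¹ γ ∉ c.Δ := fun h => hγ ((pres_inv (N_pres hg) γ).mpr h)
    have h2 := hg' (g⁻¹ γ) h1
    rw [app_inv] at h2
    exact h2.symm

theorem mem_N0 {g : Perm α} : g ∈ c.N0 ↔ g ∈ c.N ∧ ∀ γ, γ ∉ c.Δ → c.Rel γ (g γ) := Iff.rfl

theorem N0_le_N : c.N0 ≤ c.N := fun _ h => h.1

theorem N0_conj {g x : Perm α} (hg : g ∈ c.N) (hx : x ∈ c.N0) : g * x * g⁻¹ ∈ c.N0 := by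
  refine ⟨c.N.mul_mem (c.N.mul_mem hg hx.1) (c.N.inv_mem hg), fun γ hγ => ?_⟩
  have h1 : g⁻¹ γ ∉ c.Δ := fun h => hγ ((pres_inv (N_pres hg) γ).mpr h)
  have h2 := N_rel hg (hx.2 (g⁻¹ γ) h1)
  rw [app_inv] at h2
  exact h2

/-- the centralizer of `P` in `N0` -/
def K (c : Cfg α) : Subgroup (Perm α) where
  carrier := {g | g ∈ c.N0 ∧ ∀ t ∈ c.P, g * t = t * g}
  one_mem' := ⟨c.N0.one_mem, fun t _ => by rw [one_mul, mul_one]⟩
  mul_mem' := by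
    rintro g h ⟨hg, hg'⟩ ⟨hh, hh'⟩
    refine ⟨c.N0.mul_mem hg hh, fun t ht => ?_⟩
    rw [mul_assoc, hh' t ht, ← mul_assoc, hg' t ht, mul_assoc]
  inv_mem' := by
    rintro g ⟨hg, hg'⟩
    refine ⟨c.N0.inv_mem hg, fun t ht => ?_⟩
    have := hg' t ht
    calc g⁻¹ * t = g⁻¹ * (t * g) * g⁻¹ := by group
      _ = g⁻¹ * (g * t) * g⁻¹ := by rw [this]
      _ = t * g⁻¹ := by group

theorem mem_K {g : Perm α} : g ∈ c.K ↔ g ∈ c.N0 ∧ ∀ t ∈ c.P, g * t = t * g := Iff.rfl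

theorem K_le_N0 : c.K ≤ c.N0 := fun _ h => h.1

theorem K_le_N : c.K ≤ c.N := fun _ h => N0_le_N h.1

theorem K_conj {g x : Perm α} (hg : g ∈ c.N) (hx : x ∈ c.K) : g * x * g⁻¹ ∈ c.K := by
  refine ⟨N0_conj hg hx.1, fun t ht => ?_⟩
  have h1 := hx.2 (g⁻¹ * t * g) (N_conj' hg ht)
  calc g * x * g⁻¹ * t = g * (x * (g⁻¹ * t * g)) * g⁻¹ := by group
    _ = g * ((g⁻¹ * t * g) * x) * g⁻¹ := by rw [h1]
    _ = t * (g * x * g⁻¹) := by group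

/-- `p`-th powers of elements of `K` fix every point outside `Δ` -/
theorem K_pow {x : Perm α} (hx : x ∈ c.K) {γ : α} (hγ : γ ∉ c.Δ) : (x ^ c.p) γ = γ := by
  obtain ⟨t, ht, htγ⟩ := hx.1.2 γ hγ
  have hcomm : Commute x t := hx.2 t ht
  have key : ∀ m : ℕ, (x ^ m) γ = (t ^ m) γ := by
    intro m
    induction m with
    | zero => simp
    | succ m ih =>
      rw [pow_succ, Perm.mul_apply, ← htγ, ← Perm.mul_apply, (hcomm.pow_left m).eq,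
        Perm.mul_apply, ih, ← Perm.mul_apply, ← pow_succ']
  rw [key, P_pow_p ht, Perm.one_apply]

theorem N_normOn_K : NormOn c.Δ c.N c.K where
  pres := fun _ hg => N_pres hg
  witt := witt
  le := K_le_N
  conj := fun _ hg _ hx => K_conj hg hx

theorem N_normOn_N0 : NormOn c.Δ c.N c.N0 where
  pres := fun _ hg => N_pres hg
  witt := witt
  le := N0_le_N
  conj := fun _ hg _ hx => N0_conj hg hx

/-- `x` acts on `P`, restricted to the orbit of `γ`, as the `a`-th power map -/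
def PowOn (c : Cfg α) (x : Perm α) (γ : α) (a : ℕ) : Prop :=
  ∀ t ∈ c.P, c.EqOn γ (x * t * x⁻¹) (t ^ a)

theorem powOn_of_one {x : Perm α} (hx : x ∈ c.N0) {γ : α} (hγ : γ ∉ c.Δ) {t₀ : Perm α}
    (ht₀ : t₀ ∈ c.P) (h0 : t₀ γ ≠ γ) {a : ℕ} (h : c.EqOn γ (x * t₀ * x⁻¹) (t₀ ^ a)) :
    c.PowOn x γ a := by
  intro t ht
  obtain ⟨j, hj⟩ := eqOn_pow_of hγ ht₀ h0 ht
  intro s hs
  have hsγ : s γ ∉ c.Δ := fun h' => hγ ((c.P_pres hs γ).mpr h')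
  obtain ⟨u, hu, huγ⟩ := (c.N0.inv_mem hx).2 (s γ) hsγ
  have e1 : (x * t * x⁻¹) (s γ) = (x * t₀ ^ j * x⁻¹) (s γ) := by
    simp only [Perm.mul_apply]
    rw [← huγ]
    exact congrArg x (hj (u * s) (c.P.mul_mem hu hs))
  have e2 : x * t₀ ^ j * x⁻¹ = (x * t₀ * x⁻¹) ^ j := (conj_pow).symm
  have e3 := (h.pow (c.P.pow_mem ht₀ a) j) s hs
  have e4 := (hj.symm.pow ht a) s hs
  rw [e1, e2, e3, ← pow_mul, mul_comm, pow_mul, e4]

theorem exists_powOn {x : Perm α} (hx : x ∈ c.N0) {γ : α} (hγ : γ ∉ c.Δ) :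
    ∃ a, c.PowOn x γ a := by
  obtain ⟨t₀, ht₀, h0⟩ := c.not_fixed hγ
  obtain ⟨a, ha⟩ := eqOn_pow_of hγ ht₀ h0 (N_conj (N0_le_N hx) ht₀)
  exact ⟨a, powOn_of_one hx hγ ht₀ h0 ha⟩

theorem PowOn.rel {x : Perm α} {γ γ' : α} {a : ℕ} (h : c.PowOn x γ a) (hr : c.Rel γ γ') :
    c.PowOn x γ' a := fun t ht => (h t ht).rel hr

/-- commutators of elements of `N0` centralize `P` -/
theorem comm_mem_K {x y : Perm α} (hx : x ∈ c.N0) (hy : y ∈ c.N0) :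
    x⁻¹ * y⁻¹ * x * y ∈ c.K := by
  refine ⟨c.N0.mul_mem (c.N0.mul_mem (c.N0.mul_mem (c.N0.inv_mem hx) (c.N0.inv_mem hy)) hx) hy,
    fun t ht => ?_⟩
  have hxN := N0_le_N hx
  have hyN := N0_le_N hy
  have key : (x * y) * t * (x * y)⁻¹ = (y * x) * t * (y * x)⁻¹ := by
    ext q
    by_cases hq : q ∈ c.Δ
    · rw [c.P_fix (N_conj (c.N.mul_mem hxN hyN) ht) hq,
        c.P_fix (N_conj (c.N.mul_mem hyN hxN) ht) hq]
    · obtain ⟨a, ha⟩ := exists_powOn hx hq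
      obtain ⟨b, hb⟩ := exists_powOn hy hq
      have e1 : (x * y) * t * (x * y)⁻¹ = x * (y * t * y⁻¹) * x⁻¹ := by group
      have e2 : (y * x) * t * (y * x)⁻¹ = y * (x * t * x⁻¹) * y⁻¹ := by group
      have h1 := ha (y * t * y⁻¹) (N_conj hyN ht) 1 c.P.one_mem
      have h2 := ((hb t ht).pow (c.P.pow_mem ht b) a) 1 c.P.one_mem
      have h3 := hb (x * t * x⁻¹) (N_conj hxN ht) 1 c.P.one_mem
      have h4 := ((ha t ht).pow (c.P.pow_mem ht a) b) 1 c.P.one_mem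
      rw [Perm.one_apply] at h1 h2 h3 h4
      rw [e1, e2, h1, h2, h3, h4, ← pow_mul, ← pow_mul, mul_comm]
  calc x⁻¹ * y⁻¹ * x * y * t = (y * x)⁻¹ * ((x * y) * t * (x * y)⁻¹) * (x * y) := by group
    _ = (y * x)⁻¹ * ((y * x) * t * (y * x)⁻¹) * (x * y) := by rw [key]
    _ = t * (x⁻¹ * y⁻¹ * x * y) := by group

end Cfg

end Cfsg.Agent.Lib.Helper75.Miller
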