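import Mathlib
import Cfsg.Agent.Lib.Helper75.Miller4

set_option autoImplicit false
set_option linter.unusedSectionVars false

namespace Cfsg.Agent.Lib.Helper75.Miller

open Equiv MulAction
open Cfsg.Agent.Lib.Helper75.Pron

variable {α : Type*} [Fintype α] [DecidableEq α]

namespace Cfg

variable {c : Cfg α}

theorem four_trans (c : Cfg α) : IsMultiplyPretransitive c.G α 4 := by
  have := c.htr
  exact isMultiplyPretransitive_of_le (n := c.r + 1) (by have := c.hr3; omega)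
    (by rw [Nat.card_eq_fintype_card]; exact c.r_succ_le)

theorem prim (c : Cfg α) : IsPreprimitive c.G α :=
  prim_of_two c.G c.htr (by have := c.hr3; omega) c.r_succ_le

theorem exists_not_mem (c : Cfg α) : ∃ γ, γ ∉ c.Δ := by
  have h : 0 < c.Δᶜ.card := by rw [c.card_compl]; exact c.kp_pos
  obtain ⟨γ, hγ⟩ := Finset.card_pos.mp h
  exact ⟨γ, Finset.mem_compl.mp hγ⟩

theorem p_add_three_le (c : Cfg α) : c.p + 3 ≤ Fintype.card α := by
  rw [c.hcard]
  have h1 : c.p ≤ c.k * c.p := Nat.le_mul_of_pos_left _ c.hk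
  have := c.hr3
  omega

theorem nine_le (c : Cfg α) (h2 : 2 ≤ c.k) : 9 ≤ Fintype.card α := by
  rw [c.hcard]
  have h1 : 2 * 3 ≤ c.k * c.p := Nat.mul_le_mul h2 (by have := c.hkp; omega)
  have := c.hr3
  omega

/-- a nontrivial element of `G` supported on `Δ` forces `G` to contain the alternating group -/
theorem key_lemma (h7 : 7 ≤ Fintype.card α) {y : Perm α} (hy : y ∈ c.G)
    (hfix : ∀ γ, γ ∉ c.Δ → y γ = γ) {a : α} (hya : y a ≠ a) : alternatingGroup α ≤ c.G := by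
  obtain ⟨M, hM⟩ : ∃ M, M = Cfsg.Agent.S0713.fixG c.G c.Δᶜ := ⟨_, rfl⟩
  have hmem : ∀ m, m ∈ M ↔ m ∈ c.G ∧ ∀ d ∈ c.Δᶜ, m d = d := by
    intro m; rw [hM]; exact Iff.rfl
  have hcomm : ∀ m ∈ M, ∀ t ∈ c.P, m * t = t * m := by
    intro m hm t ht
    rw [hmem] at hm
    ext q
    simp only [Perm.mul_apply]
    by_cases hq : q ∈ c.Δ
    · have h1 : m q ∈ c.Δ := by
        by_contra h
        have h2 := hm.2 (m q) (Finset.mem_compl.mpr h)
        have h3 : m q = q := m.injective h2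
        exact h (h3.symm ▸ hq)
      rw [c.P_fix ht hq, c.P_fix ht h1]
    · have h1 : t q ∉ c.Δ := fun h => hq ((c.P_pres ht q).mpr h)
      rw [hm.2 q (Finset.mem_compl.mpr hq), hm.2 (t q) (Finset.mem_compl.mpr h1)]
  have hMN : M ≤ c.N := by
    intro m hm
    rw [mem_N]
    refine ⟨((hmem m).mp hm).1, fun t => ⟨fun ht => ?_, fun ht => ?_⟩⟩
    · have : m * t * m⁻¹ = t := by rw [hcomm m hm t ht]; group
      rw [this]; exact ht
    · have h1 := hcomm m hm _ ht
      have h2 : m * (m * t * m⁻¹) = m * t := by rw [h1]; group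
      have h3 := mul_left_cancel h2
      rw [← h3]; exact ht
  have hnorm : NormOn c.Δ c.N M :=
    { pres := fun _ hg => N_pres hg
      witt := witt
      le := hMN
      conj := by
        intro g hg m hm
        rw [hmem] at hm ⊢
        refine ⟨c.G.mul_mem (c.G.mul_mem (N_le_G hg) hm.1) (c.G.inv_mem (N_le_G hg)),
          fun q hq => ?_⟩
        have hq' : q ∉ c.Δ := Finset.mem_compl.mp hq
        have h1 : g⁻¹ q ∉ c.Δ := fun h => hq' ((pres_inv (N_pres hg) q).mpr h)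
        rw [Perm.mul_apply, Perm.mul_apply, hm.2 _ (Finset.mem_compl.mpr h1), app_inv] }
  have ha : a ∈ c.Δ := by
    by_contra h; exact hya (hfix a h)
  have hyM : y ∈ M := (hmem y).mpr ⟨hy, fun d hd => hfix d (Finset.mem_compl.mp hd)⟩
  rcases hnorm.exists_Is3_or_Is22 y hyM a ha hya (by rw [c.hΔ]; exact c.hr3) with
    ⟨z, hz, u, v, w, h3⟩ | ⟨z, hz, a₁, b₁, c₁, d₁, h22⟩
  · rw [hmem] at hz
    apply alt_le_of_small_support c.G c.four_trans h7 z hz.1
    · intro h1; rw [h1] at h3; exact h3.huv h3.zu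
    · have hsub : z.support ⊆ {u, v, w} := by
        intro q hq
        rw [Perm.mem_support] at hq
        by_contra hq'
        simp only [Finset.mem_insert, Finset.mem_singleton, not_or] at hq'
        by_cases hqΔ : q ∈ c.Δ
        · exact hq (h3.fix q hqΔ hq'.1 hq'.2.1 hq'.2.2)
        · exact hq (hz.2 q (Finset.mem_compl.mpr hqΔ))
      calc z.support.card ≤ ({u, v, w} : Finset α).card := Finset.card_le_card hsub
        _ ≤ 3 := Finset.card_le_three
        _ ≤ 4 := by norm_num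
  · rw [hmem] at hz
    apply alt_le_of_small_support c.G c.four_trans h7 z hz.1
    · intro h1; rw [h1] at h22; exact h22.hab h22.za
    · have hsub : z.support ⊆ {a₁, b₁, c₁, d₁} := by
        intro q hq
        rw [Perm.mem_support] at hq
        by_contra hq'
        simp only [Finset.mem_insert, Finset.mem_singleton, not_or] at hq'
        by_cases hqΔ : q ∈ c.Δ
        · exact hq (h22.fix q hqΔ hq'.1 hq'.2.1 hq'.2.2.1 hq'.2.2.2)
        · exact hq (hz.2 q (Finset.mem_compl.mpr hqΔ))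
      calc z.support.card ≤ ({a₁, b₁, c₁, d₁} : Finset α).card := Finset.card_le_card hsub
        _ ≤ 4 := Finset.card_le_four

/-- the set of `P`-orbits outside `Δ` -/
noncomputable def orbs (c : Cfg α) : Finset (Finset α) := c.Δᶜ.image c.orb

theorem orb_eq_of_rel {γ γ' : α} (h : c.Rel γ γ') : c.orb γ = c.orb γ' := by
  ext q
  rw [mem_orb, mem_orb]
  exact ⟨fun h1 => h.symm.trans h1, fun h1 => h.trans h1⟩

theorem card_orbs_le : c.orbs.card ≤ c.k := by
  have hdis : ∀ O ∈ c.orbs, ∀ O' ∈ c.orbs, O ≠ O' → Disjoint (id O) (id O') := by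
    intro O hO O' hO' hne
    obtain ⟨γ, hγ, rfl⟩ := Finset.mem_image.mp hO
    obtain ⟨γ', hγ', rfl⟩ := Finset.mem_image.mp hO'
    rw [id, id, Finset.disjoint_left]
    intro q hq hq'
    rw [mem_orb] at hq hq'
    exact hne (orb_eq_of_rel (hq.trans hq'.symm))
  have h1 := Finset.card_biUnion hdis
  have h2 : ∑ O ∈ c.orbs, (id O).card = c.orbs.card * c.p := by
    apply Finset.sum_const_nat
    intro O hO
    obtain ⟨γ, hγ, rfl⟩ := Finset.mem_image.mp hO
    exact card_orb (Finset.mem_compl.mp hγ)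
  have h3 : c.orbs.biUnion id ⊆ c.Δᶜ := by
    intro q hq
    obtain ⟨O, hO, hqO⟩ := Finset.mem_biUnion.mp hq
    obtain ⟨γ, hγ, rfl⟩ := Finset.mem_image.mp hO
    exact orb_subset (Finset.mem_compl.mp hγ) hqO
  have h4 := Finset.card_le_card h3
  rw [h1, h2, c.card_compl] at h4
  exact Nat.le_of_mul_le_mul_right h4 c.hp.pos

/-- a set of points outside `Δ` in pairwise distinct orbits -/
def Unrel (c : Cfg α) (S : Finset α) : Prop :=
  (∀ γ ∈ S, γ ∉ c.Δ) ∧ ∀ γ ∈ S, ∀ γ' ∈ S, c.Rel γ γ' → γ = γ'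

theorem Unrel.card_le {S : Finset α} (h : c.Unrel S) : S.card ≤ c.k := by
  have h1 : (S.image c.orb).card = S.card := Finset.card_image_of_injOn (by
    intro γ hγ γ' hγ' he
    apply h.2 γ hγ γ' hγ'
    have h2 : γ' ∈ c.orb γ := by
      have h3 : c.orb γ = c.orb γ' := he
      rw [h3, mem_orb]; exact c.rel_refl γ'
    exact mem_orb.mp h2)
  have h2 : S.image c.orb ⊆ c.orbs :=
    Finset.image_subset_image (fun γ hγ => Finset.mem_compl.mpr (h.1 γ hγ))
  calc S.card = (S.image c.orb).card := h1.symm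
    _ ≤ c.orbs.card := Finset.card_le_card h2
    _ ≤ c.k := card_orbs_le

theorem unrel_singleton {γ : α} (hγ : γ ∉ c.Δ) : c.Unrel {γ} := by
  refine ⟨fun q hq => ?_, fun q hq q' hq' _ => ?_⟩
  · rw [Finset.mem_singleton.mp hq]; exact hγ
  · rw [Finset.mem_singleton.mp hq, Finset.mem_singleton.mp hq']

theorem Unrel.insert {S : Finset α} (h : c.Unrel S) {γ : α} (hγ : γ ∉ c.Δ)
    (hun : ∀ γ' ∈ S, ¬ c.Rel γ' γ) :
    c.Unrel (insert γ S) ∧ (insert γ S).card = S.card + 1 := by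
  have hγS : γ ∉ S := fun h' => hun γ h' (c.rel_refl γ)
  refine ⟨⟨fun q hq => ?_, fun q hq q' hq' hr => ?_⟩, Finset.card_insert_of_notMem hγS⟩
  · rcases Finset.mem_insert.mp hq with h1 | h1
    · rw [h1]; exact hγ
    · exact h.1 q h1
  · rcases Finset.mem_insert.mp hq with h1 | h1
    · rcases Finset.mem_insert.mp hq' with h2 | h2
      · rw [h1, h2]
      · rw [h1] at hr
        exact absurd hr.symm (hun q' h2)
    · rcases Finset.mem_insert.mp hq' with h2 | h2
      · rw [h2] at hr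
        exact absurd hr (hun q h1)
      · exact h.2 q h1 q' h2 hr

theorem unrel2 {γ₁ γ₂ : α} (h1 : γ₁ ∉ c.Δ) (h2 : γ₂ ∉ c.Δ) (h12 : ¬ c.Rel γ₁ γ₂) : 2 ≤ c.k := by
  have hS1 := unrel_singleton h1
  obtain ⟨hS2, hc2⟩ := hS1.insert h2 (fun q hq => by
    rw [Finset.mem_singleton.mp hq]; exact h12)
  have := hS2.card_le
  rw [hc2, Finset.card_singleton] at this
  exact this

theorem unrel4 {γ₁ γ₂ γ₃ γ₄ : α} (h1 : γ₁ ∉ c.Δ) (h2 : γ₂ ∉ c.Δ) (h3 : γ₃ ∉ c.Δ)
    (h4 : γ₄ ∉ c.Δ) (h12 : ¬ c.Rel γ₁ γ₂) (h13 : ¬ c.Rel γ₁ γ₃) (h14 : ¬ c.Rel γ₁ γ₄)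
    (h23 : ¬ c.Rel γ₂ γ₃) (h24 : ¬ c.Rel γ₂ γ₄) (h34 : ¬ c.Rel γ₃ γ₄) : 4 ≤ c.k := by
  have hS1 := unrel_singleton h1
  obtain ⟨hS2, hc2⟩ := hS1.insert h2 (fun q hq => by
    rw [Finset.mem_singleton.mp hq]; exact h12)
  obtain ⟨hS3, hc3⟩ := hS2.insert h3 (fun q hq => by
    rcases Finset.mem_insert.mp hq with rfl | hq
    · exact h23
    · rw [Finset.mem_singleton.mp hq]; exact h13)
  obtain ⟨hS4, hc4⟩ := hS3.insert h4 (fun q hq => by
    rcases Finset.mem_insert.mp hq with rfl | hq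
    · exact h34
    rcases Finset.mem_insert.mp hq with rfl | hq
    · exact h24
    · rw [Finset.mem_singleton.mp hq]; exact h14)
  have := hS4.card_le
  rw [hc4, hc3, hc2, Finset.card_singleton] at this
  exact this

theorem image_orb {g : Perm α} (hg : g ∈ c.N) (γ : α) : (c.orb γ).image g = c.orb (g γ) := by
  ext q
  rw [Finset.mem_image, mem_orb]
  constructor
  · rintro ⟨q', hq', rfl⟩
    exact N_rel hg (mem_orb.mp hq')
  · intro h
    refine ⟨g⁻¹ q, ?_, app_inv g q⟩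
    rw [mem_orb]
    have := N_rel (c.N.inv_mem hg) h
    rwa [inv_app] at this

/-- the action of `N` on the set of orbits -/
noncomputable def orbEmb (c : Cfg α) (g : Perm α) (hg : g ∈ c.N) :
    {O // O ∈ c.orbs} ↪ {O // O ∈ c.orbs} where
  toFun O := ⟨O.1.image g, by
    obtain ⟨γ, hγ, hO⟩ := Finset.mem_image.mp O.2
    rw [← hO, image_orb hg]
    exact Finset.mem_image.mpr ⟨g γ, Finset.mem_compl.mpr
      (fun h => (Finset.mem_compl.mp hγ) ((N_pres hg γ).mpr h)), rfl⟩⟩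
  inj' := by
    intro O O' h
    have h1 : O.1.image g = O'.1.image g := congrArg Subtype.val h
    exact Subtype.ext (Finset.image_injective g.injective h1)

/-- some element of `N0` acts nontrivially on `Δ` -/
theorem exists_N0_move (hkr : c.k < c.r) : ∃ x ∈ c.N0, ∃ a ∈ c.Δ, x a ≠ a := by
  have hw : ∀ π : Perm {x // x ∈ c.Δ}, ∃ g, g ∈ c.N ∧ ∀ d ∈ c.Δ, g d = Perm.ofSubtype π d := by
    intro π
    obtain ⟨g, hg, hg'⟩ := witt (c := c) (Perm.ofSubtype π)
      (fun q => (Perm.ofSubtype_apply_mem_iff_mem π q).symm)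
    exact ⟨g, hg, hg'⟩
  choose gf hgf using hw
  obtain ⟨f, hf⟩ : ∃ f : Perm {x // x ∈ c.Δ} → ({O // O ∈ c.orbs} ↪ {O // O ∈ c.orbs}),
      ∀ π, f π = c.orbEmb (gf π) (hgf π).1 := ⟨fun π => c.orbEmb (gf π) (hgf π).1, fun _ => rfl⟩
  have hcard : Fintype.card ({O // O ∈ c.orbs} ↪ {O // O ∈ c.orbs}) <
      Fintype.card (Perm {x // x ∈ c.Δ}) := by
    rw [Fintype.card_embedding_eq, Nat.descFactorial_self, Fintype.card_perm, Fintype.card_coe,
      Fintype.card_coe, c.hΔ]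
    calc c.orbs.card.factorial ≤ c.k.factorial := Nat.factorial_le card_orbs_le
      _ < c.r.factorial := (Nat.factorial_lt (by have := c.hk; omega)).mpr hkr
  obtain ⟨π, π', hne, heq⟩ := Fintype.exists_ne_map_eq_of_card_lt f hcard
  rw [hf, hf] at heq
  refine ⟨(gf π)⁻¹ * gf π', ⟨c.N.mul_mem (c.N.inv_mem (hgf π).1) (hgf π').1, fun γ hγ => ?_⟩, ?_⟩
  · have hO : c.orb γ ∈ c.orbs := Finset.mem_image.mpr ⟨γ, Finset.mem_compl.mpr hγ, rfl⟩
    have h1 : (c.orb γ).image (gf π) = (c.orb γ).image (gf π') :=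
      congrArg (fun e : {O // O ∈ c.orbs} ↪ {O // O ∈ c.orbs} => (e ⟨c.orb γ, hO⟩).1) heq
    have h2 : gf π' γ ∈ (c.orb γ).image (gf π) := by
      rw [h1]
      exact Finset.mem_image_of_mem _ (mem_orb.mpr (c.rel_refl γ))
    obtain ⟨q, hq, hq'⟩ := Finset.mem_image.mp h2
    rw [Perm.mul_apply, ← hq', inv_app]
    exact mem_orb.mp hq
  · obtain ⟨d, hd⟩ : ∃ d, π d ≠ π' d := by
      by_contra h; push Not at h; exact hne (Equiv.ext h)
    refine ⟨d.1, d.2, ?_⟩
    rw [Perm.mul_apply, Ne, Perm.inv_eq_iff_eq, (hgf π).2 d.1 d.2, (hgf π').2 d.1 d.2,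
      Perm.ofSubtype_apply_coe, Perm.ofSubtype_apply_coe]
    exact fun h => hd (Subtype.ext h).symm

end Cfg

end Cfsg.Agent.Lib.Helper75.Miller
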