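import Mathlib
import Cfsg.Agent.Lib.Helper75.Miller5

set_option autoImplicit false
set_option linter.unusedSectionVars false

namespace Cfsg.Agent.Lib.Helper75.Miller

open Equiv MulAction
open Cfsg.Agent.Lib.Helper75.Pron

variable {α : Type*} [Fintype α] [DecidableEq α]

namespace Cfg

variable {c : Cfg α}

/-- every nontrivial element of `P` moves points of at least two orbits -/
def NS1 (c : Cfg α) : Prop :=
  ∀ t ∈ c.P, t ≠ 1 → ∀ γ, γ ∉ c.Δ → ∃ γ', γ' ∉ c.Δ ∧ ¬ c.Rel γ γ' ∧ t γ' ≠ γ'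

theorem alt_or_ns1 (c : Cfg α) : alternatingGroup α ≤ c.G ∨ c.NS1 := by
  by_cases h : c.NS1
  · exact Or.inr h
  · left
    unfold NS1 at h
    push Not at h
    obtain ⟨t, ht, ht1, γ, hγ, h'⟩ := h
    apply alt_le_of_pcycle c.G c.prim c.hp c.p_add_three_le t (c.P_le_G ht) ht1 (c.orb γ)
      (card_orb hγ) ?_ (P_pow_p ht)
    intro q hq
    rw [mem_orb]
    by_contra hrel
    by_cases hqΔ : q ∈ c.Δ
    · exact hq (c.P_fix ht hqΔ)
    · exact hq (h' q hqΔ hrel)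

theorem k_one (c : Cfg α) (h1 : c.k = 1) : alternatingGroup α ≤ c.G := by
  rcases c.alt_or_ns1 with h | hns
  · exact h
  · exfalso
    obtain ⟨γ, hγ⟩ := c.exists_not_mem
    obtain ⟨t, ht, htγ⟩ := c.not_fixed hγ
    obtain ⟨γ', hγ', hrel, -⟩ := hns t ht (by rintro rfl; exact htγ rfl) γ hγ
    have := unrel2 hγ hγ' hrel
    omega

theorem PowOn.congr {x : Perm α} {γ : α} {a b : ℕ} (h : c.PowOn x γ a)
    (hab : a ≡ b [MOD c.p]) : c.PowOn x γ b := by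
  intro t ht
  rw [← pow_congr ht hab]; exact h t ht

theorem PowOn.modEq {x : Perm α} {γ : α} (hγ : γ ∉ c.Δ) {a b : ℕ} (ha : c.PowOn x γ a)
    (hb : c.PowOn x γ b) : a ≡ b [MOD c.p] := by
  obtain ⟨t₀, ht₀, h0⟩ := c.not_fixed hγ
  have h1 := ha t₀ ht₀ 1 c.P.one_mem
  have h2 := hb t₀ ht₀ 1 c.P.one_mem
  rw [Perm.one_apply] at h1 h2
  exact modEq_of_pow_eq ht₀ h0 (h1.symm.trans h2)

/-- if `x` acts with different powers on the orbits of `γ₁` and `γ`, an element of `P` moving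
`γ₁` can be modified to fix `γ` as well as everything it already fixed -/
theorem kill {x : Perm α} (hx : x ∈ c.N0) {γ₁ γ : α} (hγ₁ : γ₁ ∉ c.Δ) {a : ℕ}
    (ha : c.PowOn x γ a) (hna : ¬ c.PowOn x γ₁ a) {t : Perm α} (ht : t ∈ c.P)
    (ht1 : t γ₁ ≠ γ₁) :
    ∃ t' ∈ c.P, t' γ₁ ≠ γ₁ ∧ t' γ = γ ∧ ∀ q, t q = q → t' q = q := by
  have hmem : x * t * x⁻¹ * (t ^ a)⁻¹ ∈ c.P :=
    c.P.mul_mem (N_conj (N0_le_N hx) ht) (c.P.inv_mem (c.P.pow_mem ht a))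
  refine ⟨x * t * x⁻¹ * (t ^ a)⁻¹, hmem, ?_, ?_, ?_⟩
  · intro hfix
    apply hna
    apply powOn_of_one hx hγ₁ ht ht1
    intro s hs
    have hu := fix_orbit hγ₁ hmem hfix (c.P.mul_mem (c.P.pow_mem ht a) hs)
    simpa only [Perm.mul_apply, inv_app] using hu
  · have h1 := ha t ht ((t ^ a)⁻¹) (c.P.inv_mem (c.P.pow_mem ht a))
    rw [app_inv] at h1
    rw [Perm.mul_apply]; exact h1
  · intro q hq
    have h1 : (t ^ a)⁻¹ q = q := by
      rw [Perm.inv_eq_iff_eq]; exact (Perm.pow_apply_eq_self_of_apply_eq_self hq a).symm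
    rw [Perm.mul_apply, h1]
    by_cases hqΔ : q ∈ c.Δ
    · exact c.P_fix (N_conj (N0_le_N hx) ht) hqΔ
    · obtain ⟨s, hs, hsq⟩ := (c.N0.inv_mem hx).2 q hqΔ
      simp only [Perm.mul_apply]
      rw [← hsq, fix_orbit hqΔ ht hq hs, hsq, app_inv]

/-- with at most three orbits, every element of `N0` acts on `P` as a uniform power map -/
theorem uniform (hk3 : c.k ≤ 3) (hns : c.NS1) {x : Perm α} (hx : x ∈ c.N0) :
    ∃ a, ∀ γ, γ ∉ c.Δ → c.PowOn x γ a := by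
  obtain ⟨γ₁, hγ₁⟩ := c.exists_not_mem
  obtain ⟨a₁, ha₁⟩ := exists_powOn hx hγ₁
  refine ⟨a₁, ?_⟩
  by_contra hcon
  push Not at hcon
  obtain ⟨γ₂, hγ₂, hna⟩ := hcon
  obtain ⟨a₂, ha₂⟩ := exists_powOn hx hγ₂
  have hna' : ¬ c.PowOn x γ₁ a₂ := fun h => hna (ha₂.congr (PowOn.modEq hγ₁ h ha₁))
  have h12 : ¬ c.Rel γ₁ γ₂ := fun h => hna (ha₁.rel h)
  obtain ⟨t₁, ht₁, ht₁m⟩ := c.not_fixed hγ₁
  obtain ⟨t₂, ht₂, ht₂m⟩ := c.not_fixed hγ₂
  obtain ⟨t', ht', ht'm, ht'f, -⟩ := kill hx hγ₂ ha₁ hna ht₂ ht₂m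
  obtain ⟨t'', ht'', ht''m, ht''f, -⟩ := kill hx hγ₁ ha₂ hna' ht₁ ht₁m
  obtain ⟨γ₃, hγ₃, h23, ht'3⟩ := hns t' ht' (by rintro rfl; exact ht'm rfl) γ₂ hγ₂
  have h13 : ¬ c.Rel γ₁ γ₃ := fun h => ht'3 (fix_rel hγ₁ ht' ht'f h)
  obtain ⟨a₃, ha₃⟩ := exists_powOn hx hγ₃
  by_cases h31 : c.PowOn x γ₃ a₁
  · obtain ⟨u, hu, hum, hu3, huf⟩ := kill hx hγ₂ h31 hna ht' ht'm
    have hu1 : u γ₁ = γ₁ := huf γ₁ ht'f
    obtain ⟨γ₄, hγ₄, h24, hu4⟩ := hns u hu (by rintro rfl; exact hum rfl) γ₂ hγ₂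
    have h14 : ¬ c.Rel γ₁ γ₄ := fun h => hu4 (fix_rel hγ₁ hu hu1 h)
    have h34 : ¬ c.Rel γ₃ γ₄ := fun h => hu4 (fix_rel hγ₃ hu hu3 h)
    have := unrel4 hγ₁ hγ₂ hγ₃ hγ₄ h12 h13 h14 h23 h24 h34
    omega
  · have hna3 : ¬ c.PowOn x γ₁ a₃ := fun h => h31 (ha₃.congr (PowOn.modEq hγ₁ h ha₁))
    obtain ⟨u, hu, hum, hu3, huf⟩ := kill hx hγ₁ ha₃ hna3 ht'' ht''m
    have hu2 : u γ₂ = γ₂ := huf γ₂ ht''f
    obtain ⟨γ₄, hγ₄, h14, hu4⟩ := hns u hu (by rintro rfl; exact hum rfl) γ₁ hγ₁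
    have h24 : ¬ c.Rel γ₂ γ₄ := fun h => hu4 (fix_rel hγ₂ hu hu2 h)
    have h34 : ¬ c.Rel γ₃ γ₄ := fun h => hu4 (fix_rel hγ₃ hu hu3 h)
    have := unrel4 hγ₁ hγ₂ hγ₃ hγ₄ h12 h13 h14 h23 h24 h34
    omega

/-- the generic case of Miller's theorem -/
theorem generic (c : Cfg α) (hkr : c.k < c.r) (h2 : 2 ≤ c.k) (hne : ¬ (c.p = 3 ∧ c.r = 3)) :
    alternatingGroup α ≤ c.G := by
  have h9 : 9 ≤ Fintype.card α := c.nine_le h2
  have hodd : Odd c.p := c.hp.odd_of_ne_two (by have := c.hkp; omega)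
  have hr3 := c.hr3
  by_cases hK : ∃ x ∈ c.K, ∃ a ∈ c.Δ, x a ≠ a
  · obtain ⟨x, hx, a, ha, hxa⟩ := hK
    have h22 : ∀ z ∈ c.K, ∀ a₁ b₁ c₁ d₁, Is22 c.Δ z a₁ b₁ c₁ d₁ → alternatingGroup α ≤ c.G := by
      intro z hz a₁ b₁ c₁ d₁ h
      have h1 := h.pow_odd hodd
      exact key_lemma (by omega) (c.G.pow_mem (N_le_G (K_le_N hz)) _)
        (fun γ hγ => K_pow hz hγ) (a := a₁) (by rw [h1]; exact h.hab.symm)
    rcases N_normOn_K.exists_Is3_or_Is22 x hx a ha hxa (by rw [c.hΔ]; exact c.hr3) with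
      ⟨z, hz, u, v, w, h3⟩ | ⟨z, hz, a₁, b₁, c₁, d₁, h⟩
    · by_cases hp3 : c.p = 3
      · have hr4 : 4 ≤ c.Δ.card := by
          rw [c.hΔ]
          by_contra hlt
          exact hne ⟨hp3, by omega⟩
        obtain ⟨y, hy, a₁, b₁, c₁, d₁, h⟩ := N_normOn_K.exists_Is22_of_Is3 hz h3 hr4
        exact h22 y hy _ _ _ _ h
      · have hnd : ¬ 3 ∣ c.p := by
          intro hd
          exact hp3 ((Nat.prime_dvd_prime_iff_eq Nat.prime_three c.hp).mp hd).symm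
        exact key_lemma (by omega) (c.G.pow_mem (N_le_G (K_le_N hz)) _)
          (fun γ hγ => K_pow hz hγ) (h3.pow_ne hnd)
    · exact h22 z hz _ _ _ _ h
  · push Not at hK
    obtain ⟨x₀, hx₀, a, ha, hx₀a⟩ := exists_N0_move hkr
    by_cases hk3 : c.k ≤ 3
    · rcases c.alt_or_ns1 with h | hns
      · exact h
      · exfalso
        obtain ⟨e, he⟩ := uniform hk3 hns hx₀
        have huni : ∀ t ∈ c.P, x₀ * t * x₀⁻¹ = t ^ e := by
          intro t ht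
          ext q
          by_cases hq : q ∈ c.Δ
          · rw [c.P_fix (N_conj (N0_le_N hx₀) ht) hq, c.P_fix (c.P.pow_mem ht e) hq]
          · have := he q hq t ht 1 c.P.one_mem
            rwa [Perm.one_apply] at this
        obtain ⟨b, hb⟩ : ∃ b, b = x₀ a := ⟨_, rfl⟩
        have hbΔ : b ∈ c.Δ := hb ▸ (N_pres (N0_le_N hx₀) a).mp ha
        have hba : b ≠ a := hb ▸ hx₀a
        obtain ⟨e', he'Δ, he'l⟩ := exists_mem_not_mem c.Δ {a, b} (by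
          have : ({a, b} : Finset α).card ≤ 2 := Finset.card_le_two
          rw [c.hΔ]; omega)
        have he'a : e' ≠ a := fun h' => he'l (by simp [h'])
        have he'b : e' ≠ b := fun h' => he'l (by simp [h'])
        obtain ⟨g, hgN, hgΔ, hg, hginv⟩ := N_normOn_N0.exists_swap hbΔ he'Δ
        have hw : x₀⁻¹ * (g * x₀ * g⁻¹) ∈ c.K := by
          refine ⟨c.N0.mul_mem (c.N0.inv_mem hx₀) (N0_conj hgN hx₀), fun t ht => ?_⟩
          have h1 := huni (g⁻¹ * t * g) (N_conj' hgN ht)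
          have h2 := huni t ht
          have h3 : (g * x₀ * g⁻¹) * t * (g * x₀ * g⁻¹)⁻¹ = x₀ * t * x₀⁻¹ := by
            calc (g * x₀ * g⁻¹) * t * (g * x₀ * g⁻¹)⁻¹
                = g * (x₀ * (g⁻¹ * t * g) * x₀⁻¹) * g⁻¹ := by group
              _ = g * (g⁻¹ * t * g) ^ e * g⁻¹ := by rw [h1]
              _ = (g * (g⁻¹ * t * g) * g⁻¹) ^ e := (conj_pow).symm
              _ = t ^ e := by congr 1; group
              _ = x₀ * t * x₀⁻¹ := h2.symm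
          calc x₀⁻¹ * (g * x₀ * g⁻¹) * t
              = x₀⁻¹ * ((g * x₀ * g⁻¹) * t * (g * x₀ * g⁻¹)⁻¹) * (g * x₀ * g⁻¹) := by group
            _ = x₀⁻¹ * (x₀ * t * x₀⁻¹) * (g * x₀ * g⁻¹) := by rw [h3]
            _ = t * (x₀⁻¹ * (g * x₀ * g⁻¹)) := by group
        have hwa := hK _ hw a ha
        simp only [Perm.mul_apply] at hwa
        rw [hginv a ha, swap_apply_of_ne_of_ne hba.symm he'a.symm, ← hb, hg b hbΔ,
          swap_apply_left, Perm.inv_eq_iff_eq, ← hb] at hwa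
        exact he'b hwa
    · exfalso
      have hr5 : 5 ≤ c.Δ.card := by rw [c.hΔ]; omega
      obtain ⟨z, hz, a₁, b₁, c₁, d₁, h22⟩ :
          ∃ z ∈ c.N0, ∃ a₁ b₁ c₁ d₁, Is22 c.Δ z a₁ b₁ c₁ d₁ := by
        rcases N_normOn_N0.exists_Is3_or_Is22 x₀ hx₀ a ha hx₀a (by omega) with
          ⟨z, hz, u, v, w, h3⟩ | h
        · exact N_normOn_N0.exists_Is22_of_Is3 hz h3 (by omega)
        · exact h
      obtain ⟨y₁, hy₁, y₂, hy₂, q, hq, hne'⟩ := N_normOn_N0.exists_noncomm_of_Is22 hz h22 hr5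
      have h1 := comm_mem_K (c.N0.inv_mem hy₁) (c.N0.inv_mem hy₂)
      rw [inv_inv, inv_inv] at h1
      exact hne' (hK _ h1 q hq)

end Cfg

end Cfsg.Agent.Lib.Helper75.Miller
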