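import Mathlib
import Cfsg.Agent.Lib.Helper75.Miller1
import Cfsg.Agent.S0415

set_option autoImplicit false
set_option linter.unusedSectionVars false

namespace Cfsg.Agent.Lib.Helper75.Miller

open Equiv MulAction

variable {α : Type*} [Fintype α] [DecidableEq α]

/-- a 4-transitive group of degree at least 8 containing a nontrivial element moving at most
five points contains the alternating group -/
theorem alt_le_of_support_le_five (G : Subgroup (Perm α)) (h4 : IsMultiplyPretransitive G α 4)
    (hn : 8 ≤ Fintype.card α) (y : Perm α) (hyG : y ∈ G) (hy : y ≠ 1)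
    (hs : y.support.card ≤ 5) : alternatingGroup α ≤ G := by
  have hprim : IsPreprimitive G α := prim_of_two G h4 (by norm_num) (by omega)
  have ho1 : orderOf y ≠ 1 := fun h => hy (orderOf_eq_one_iff.mp h)
  have ho0 : orderOf y ≠ 0 := (orderOf_pos y).ne'
  obtain ⟨q, hq⟩ : ∃ q, q = (orderOf y).minFac := ⟨_, rfl⟩
  have hqp : q.Prime := hq ▸ Nat.minFac_prime ho1
  have hqd : q ∣ orderOf y := hq ▸ Nat.minFac_dvd _
  obtain ⟨y', hy'⟩ : ∃ y', y' = y ^ (orderOf y / q) := ⟨_, rfl⟩
  have hord : orderOf y' = q := hy' ▸ orderOf_pow_orderOf_div ho0 hqd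
  have hy'G : y' ∈ G := hy' ▸ G.pow_mem hyG _
  have hy'1 : y' ≠ 1 := by
    intro h
    rw [h, orderOf_one] at hord
    exact hqp.one_lt.ne hord
  have hs' : y'.support.card ≤ 5 :=
    le_trans (Finset.card_le_card (hy' ▸ Perm.support_pow_le y _)) hs
  obtain ⟨m, hm⟩ := Perm.cycleType_prime_order (hord ▸ hqp)
  have hsum := Perm.sum_cycleType y'
  rw [hm, Multiset.sum_replicate, hord, smul_eq_mul] at hsum
  by_cases h5 : y'.support.card ≤ 4
  · exact alt_le_of_small_support G h4 (by omega) y' hy'G hy'1 h5
  · have hc5 : y'.support.card = 5 := by omega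
    have hq5 : q = 5 := by
      have hd : q ∣ 5 := by rw [← hc5, ← hsum]; exact Dvd.intro_left _ rfl
      exact (Nat.prime_dvd_prime_iff_eq hqp (by norm_num)).mp hd
    have hpow : y' ^ 5 = 1 := by rw [← hq5, ← hord]; exact pow_orderOf_eq_one y'
    exact alt_le_of_pcycle G hprim (p := 5) (by norm_num) (by omega) y' hy'G hy'1 y'.support hc5
      (fun q hq => Perm.mem_support.mpr hq) hpow

/-- a 4-transitive group of degree 9 contains the alternating group -/
theorem alt_le_of_nine (G : Subgroup (Perm α)) (h4 : IsMultiplyPretransitive G α 4)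
    (h9 : Fintype.card α = 9) : alternatingGroup α ≤ G := by
  by_contra hcon
  have hsharp : ∀ x : Fin 4 ↪ α, MulAction.stabilizer G x = ⊥ := by
    intro x
    rw [Subgroup.eq_bot_iff_forall]
    intro y hy
    by_contra hy1
    apply hcon
    rw [MulAction.mem_stabilizer_iff] at hy
    have hfix : ∀ i, (y : Perm α) (x i) = x i := by
      intro i
      have := congrArg (fun f : Fin 4 ↪ α => f i) hy
      exact this
    have hne : (y : Perm α) ≠ 1 := fun h => hy1 (Subtype.ext h)
    apply alt_le_of_support_le_five G h4 (by omega) (y : Perm α) y.2 hne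
    have hsub : (y : Perm α).support ⊆ (Finset.univ.map x)ᶜ := by
      intro q hq
      rw [Finset.mem_compl, Finset.mem_map]
      rintro ⟨i, -, rfl⟩
      exact (Perm.mem_support.mp hq) (hfix i)
    have hc := Finset.card_le_card hsub
    rw [Finset.card_compl, Finset.card_map, Finset.card_univ, Fintype.card_fin, h9] at hc
    exact hc
  have := Cfsg.Agent.S0415.result G (by omega) hsharp
  omega

end Cfsg.Agent.Lib.Helper75.Miller
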