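import Mathlib
import Cfsg.Agent.Lib.Helper72.PQDefs
import Cfsg.Agent.Lib.Helper12.Ward5
import Cfsg.Agent.Lib.Helper26.FrobBasic

/-!
S4306 piece PQ-P6T (helper75 for helper72): the core configuration in non-faithful form, by
transfer to the quotient `N(K) / K`, `K = C_Q(M)`.
-/

set_option autoImplicit false
set_option linter.style.haveILetI false

namespace Cfsg.Agent.Lib.Helper75.PQ

open Subgroup
open scoped commutatorElement
open Cfsg.Agent.Lib.Helper72.PQ Cfsg.Agent.Lib.Helper12.Ward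

universe u

section
variable {Γ : Type u} [Group Γ]

theorem p6t_qm_comm (K : Subgroup Γ) (a b : ↥(normalizer (K : Set Γ))) :
    qm K a * qm K b = qm K b * qm K a ↔ (a : Γ) * b * (a : Γ)⁻¹ * (b : Γ)⁻¹ ∈ K := by
  have e : ((a * b * a⁻¹ * b⁻¹ : ↥(normalizer (K : Set Γ))) : Γ) =
      (a : Γ) * b * (a : Γ)⁻¹ * (b : Γ)⁻¹ := rfl
  rw [← e, ← qm_eq_one_iff, map_mul, map_mul, map_mul, map_inv, map_inv]
  constructor
  · intro h
    rw [h]
    group
  · intro h
    have e2 : qm K a * qm K b =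
        (qm K a * qm K b * (qm K a)⁻¹ * (qm K b)⁻¹) * (qm K b * qm K a) := by group
    rw [e2, h, one_mul]

theorem p6t_mem_qmap {K H : Subgroup Γ} {x : Γ} (hxN : x ∈ normalizer (K : Set Γ))
    (hx : x ∈ H) : qm K ⟨x, hxN⟩ ∈ qmap K H :=
  Subgroup.mem_map_of_mem _ (Subgroup.mem_subgroupOf.mpr hx)

theorem p6t_comm_le {H L N : Subgroup Γ} (hH : H ≤ N) (hL : L ≤ N) : ⁅H, L⁆ ≤ N := by
  rw [Subgroup.commutator_le]
  intro g₁ h₁ g₂ h₂
  rw [commutatorElement_def]
  exact N.mul_mem (N.mul_mem (N.mul_mem (hH h₁) (hL h₂)) (N.inv_mem (hH h₁))) (N.inv_mem (hL h₂))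

theorem p6t_qmap_comm {K H L : Subgroup Γ} (hH : H ≤ normalizer (K : Set Γ))
    (hL : L ≤ normalizer (K : Set Γ)) : qmap K ⁅H, L⁆ = ⁅qmap K H, qmap K L⁆ := by
  have hHL : ⁅H, L⁆ ≤ normalizer (K : Set Γ) := p6t_comm_le hH hL
  unfold qmap
  rw [← Subgroup.map_commutator]
  congr 1
  apply Subgroup.map_injective (normalizer (K : Set Γ)).subtype_injective
  rw [Subgroup.map_commutator, Subgroup.map_subgroupOf_eq_of_le hH,
    Subgroup.map_subgroupOf_eq_of_le hL, Subgroup.map_subgroupOf_eq_of_le hHL]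

theorem p6t_card_qmap {K D : Subgroup Γ} (hD : D ≤ normalizer (K : Set Γ)) :
    Nat.card (qmap K D) * Nat.card (D ⊓ K : Subgroup Γ) = Nat.card D := by
  have h1 := Cfsg.Agent.Lib.Helper26.frob_card_map_ker (qm K)
    (D.subgroupOf (normalizer (K : Set Γ)))
  have hker : (qm K).ker = K.subgroupOf (normalizer (K : Set Γ)) := by
    ext x
    rw [MonoidHom.mem_ker, qm_eq_one_iff, Subgroup.mem_subgroupOf]
  have hinf : D.subgroupOf (normalizer (K : Set Γ)) ⊓ (qm K).ker =
      (D ⊓ K).subgroupOf (normalizer (K : Set Γ)) := by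
    rw [hker]
    ext x
    simp only [Subgroup.mem_inf, Subgroup.mem_subgroupOf]
  rw [hinf, Cfsg.Agent.Lib.Helper1.card_subgroupOf_of_le (inf_le_left.trans hD),
    Cfsg.Agent.Lib.Helper1.card_subgroupOf_of_le hD] at h1
  exact h1

end

theorem p6t (h1 : P6CStmt.{u}) : P6Stmt.{u} := by
  intro Γ _ _ q r s ℓ M Q R₀ t hq hr hs hℓ ht hQq hMc hMr hM1 hRs hqr hqs hℓq hℓr hℓs hQM htM
    hRM hRQ htQ htR hMt hRt hQR hD hDt hDR hpow
  haveI : Fact q.Prime := ⟨hq⟩
  haveI : Fact r.Prime := ⟨hr⟩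
  haveI : Fact s.Prime := ⟨hs⟩
  haveI : Fact ℓ.Prime := ⟨hℓ⟩
  obtain ⟨K, hK⟩ : ∃ K : Subgroup Γ, K = cz Q M := ⟨_, rfl⟩
  rw [← hK] at hD hDt
  have hKmem : ∀ x, x ∈ K ↔ x ∈ Q ∧ ∀ m ∈ M, m * x = x * m := by
    intro x
    rw [hK]
    exact mem_cz
  have hKQ : K ≤ Q := fun x hx => ((hKmem x).mp hx).1
  have hnK : ∀ g, g ∈ normalizer (Q : Set Γ) → g ∈ normalizer (M : Set Γ) →
      g ∈ normalizer (K : Set Γ) := by
    intro g hgQ hgM
    rw [hK]
    unfold cz
    exact nz_inf hgQ (nz_centralizer hgM)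
  have hQK : Q ≤ normalizer (K : Set Γ) := fun y hy => hnK y (Subgroup.le_normalizer hy) (hQM hy)
  have hRK : R₀ ≤ normalizer (K : Set Γ) := fun x hx => hnK x (hRQ hx) (hRM hx)
  have htK : t ∈ normalizer (K : Set Γ) := hnK t htQ htM
  have hMK : M ≤ normalizer (K : Set Γ) := by
    intro m hm
    apply nz_of_conj_mem
    · intro k hk
      have h2 := ((hKmem k).mp hk).2 m hm
      have e : m * k * m⁻¹ = k := by
        rw [h2]
        group
      rw [e]
      exact hk
    · intro k hk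
      have h2 := ((hKmem k).mp hk).2 m hm
      have e : m⁻¹ * k * m = k := by
        rw [mul_assoc, ← h2]
        group
      rw [e]
      exact hk
  have hMp : IsPGroup r M := fun g => ⟨1, by rw [pow_one]; exact Subtype.ext (hMr g g.2)⟩
  have hMQ : ∀ x, x ∈ M → x ∈ Q → x = 1 := by
    intro x hxM hxQ
    have hd := IsPGroup.disjoint_of_ne r q (Ne.symm hqr) M Q hMp hQq
    exact (Subgroup.disjoint_def.mp hd) hxM hxQ
  have hRQ1 : ∀ x, x ∈ R₀ → x ∈ Q → x = 1 := by
    intro x hxR hxQ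
    have hd := IsPGroup.disjoint_of_ne s q (Ne.symm hqs) R₀ Q hRs hQq
    exact (Subgroup.disjoint_def.mp hd) hxR hxQ
  have hMK1 : ∀ x, x ∈ M → x ∈ K → x = 1 := fun x hxM hxK => hMQ x hxM (hKQ hxK)
  have hRK1 : ∀ x, x ∈ R₀ → x ∈ K → x = 1 := fun x hxR hxK => hRQ1 x hxR (hKQ hxK)
  have hDK : (⁅Q, Q⁆ : Subgroup Γ) ≤ normalizer (K : Set Γ) := p6t_comm_le hQK hQK
  obtain ⟨t', ht'⟩ : ∃ t' : QG K, t' = qm K ⟨t, htK⟩ := ⟨_, rfl⟩
  have hDbar : (⁅qmap K Q, qmap K Q⁆ : Subgroup (QG K)) = qmap K ⁅Q, Q⁆ :=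
    (p6t_qmap_comm hQK hQK).symm
  apply h1 (QG K) q r s ℓ (qmap K M) (qmap K Q) (qmap K R₀) t'
  exact
    { hq := hq
      hr := hr
      hs := hs
      hℓ := hℓ
      ht := by
        rw [ht']
        apply orderOf_eq_prime
        · rw [← map_pow]
          have h2 : (⟨t, htK⟩ : ↥(normalizer (K : Set Γ))) ^ ℓ = 1 :=
            Subtype.ext (by
              rw [Subgroup.coe_pow, Subgroup.coe_one]
              show t ^ ℓ = 1
              rw [← ht]
              exact pow_orderOf_eq_one t)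
          rw [h2, map_one]
        · intro h
          rw [qm_eq_one_iff] at h
          have htc := ((hKmem t).mp h).2
          apply hM1
          rw [Subgroup.eq_bot_iff_forall]
          intro m hm
          exact hMt m hm (htc m hm).symm
      hQq := (hQq.comap_subtype).map (qm K)
      hMc := by
        intro a ha b hb
        obtain ⟨x, hx, hxM, rfl⟩ := exists_of_mem_qmap ha
        obtain ⟨y, hy, hyM, rfl⟩ := exists_of_mem_qmap hb
        rw [← map_mul, ← map_mul]
        congr 1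
        exact Subtype.ext (hMc x hxM y hyM)
      hMr := by
        intro a ha
        obtain ⟨x, hx, hxM, rfl⟩ := exists_of_mem_qmap ha
        rw [← map_pow]
        have h2 : (⟨x, hx⟩ : ↥(normalizer (K : Set Γ))) ^ r = 1 := Subtype.ext (hMr x hxM)
        rw [h2, map_one]
      hM1 := by
        intro hbot
        apply hM1
        rw [Subgroup.eq_bot_iff_forall]
        intro m hm
        exact hMK1 m hm (le_of_qmap_eq_bot hMK hbot hm)
      hRs := (hRs.comap_subtype).map (qm K)
      hqr := hqr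
      hqs := hqs
      hℓq := hℓq
      hℓr := hℓr
      hℓs := hℓs
      hQM := qmap_le_normalizer hQM
      htM := by
        rw [ht']
        exact qm_mem_normalizer htK htM
      hRQ := qmap_le_normalizer hRQ
      htQ := by
        rw [ht']
        exact qm_mem_normalizer htK htQ
      htR := by
        rw [ht']
        exact qm_mem_normalizer htK htR
      hfaith := by
        intro a ha hcomm
        obtain ⟨y, hy, hyQ, rfl⟩ := exists_of_mem_qmap ha
        rw [qm_eq_one_iff]
        show y ∈ K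
        rw [hKmem]
        refine ⟨hyQ, fun m hm => ?_⟩
        have hmN := hMK hm
        have h2 := hcomm (qm K ⟨m, hmN⟩) (p6t_mem_qmap hmN hm)
        rw [p6t_qm_comm] at h2
        have h3 : y * m * y⁻¹ * m⁻¹ ∈ M := M.mul_mem (conj_mem_of_nz (hQM hyQ) hm) (M.inv_mem hm)
        have h4 := hMK1 _ h3 h2
        calc m * y = (y * m * y⁻¹ * m⁻¹)⁻¹ * (y * m) := by group
          _ = y * m := by rw [h4, inv_one, one_mul]
      hMt := by
        intro a ha hcomm
        obtain ⟨m, hmN, hm, rfl⟩ := exists_of_mem_qmap ha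
        rw [ht', p6t_qm_comm] at hcomm
        have h3 : t * m * t⁻¹ * m⁻¹ ∈ M := M.mul_mem (conj_mem_of_nz htM hm) (M.inv_mem hm)
        have h4 := hMK1 _ h3 hcomm
        have h5 : t * m = m * t := by
          calc t * m = (t * m * t⁻¹ * m⁻¹) * (m * t) := by group
            _ = m * t := by rw [h4, one_mul]
        have h6 := hMt m hm h5
        rw [qm_eq_one_iff]
        show m ∈ K
        rw [h6]
        exact K.one_mem
      hRt := by
        intro a ha hcomm
        obtain ⟨x, hxN, hx, rfl⟩ := exists_of_mem_qmap ha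
        rw [ht', p6t_qm_comm] at hcomm
        have h3 : t * x * t⁻¹ * x⁻¹ ∈ R₀ := R₀.mul_mem (conj_mem_of_nz htR hx) (R₀.inv_mem hx)
        have h4 := hRK1 _ h3 hcomm
        have h5 : t * x = x * t := by
          calc t * x = (t * x * t⁻¹ * x⁻¹) * (x * t) := by group
            _ = x * t := by rw [h4, one_mul]
        have h6 := hRt x hx h5
        rw [qm_eq_one_iff]
        show x ∈ K
        rw [h6]
        exact K.one_mem
      hQR := by rw [← p6t_qmap_comm hQK hRK, hQR]
      hD := by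
        rw [hDbar]
        have h2 := p6t_card_qmap hDK
        rw [hD] at h2
        exact Nat.eq_of_mul_eq_mul_right Nat.card_pos h2
      hDt := by
        intro d hd
        rw [hDbar] at hd
        obtain ⟨x, hx, hxD, rfl⟩ := exists_of_mem_qmap hd
        rw [ht', p6t_qm_comm]
        exact hDt x hxD
      hDR := by
        intro d hd a ha
        rw [hDbar] at hd
        obtain ⟨x, hx, hxD, rfl⟩ := exists_of_mem_qmap hd
        obtain ⟨y, hy, hyR, rfl⟩ := exists_of_mem_qmap ha
        rw [← map_mul, ← map_mul]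
        congr 1
        exact Subtype.ext (hDR x hxD y hyR)
      hpow := by
        intro a ha b hb
        obtain ⟨y, hy, hyQ, rfl⟩ := exists_of_mem_qmap ha
        obtain ⟨x, hx, hxR, rfl⟩ := exists_of_mem_qmap hb
        rw [← map_pow, ← map_mul, ← map_mul]
        congr 1
        exact Subtype.ext (hpow y hyQ x hxR) }

end Cfsg.Agent.Lib.Helper75.PQ
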