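import Mathlib
import Cfsg.Agent.Lib.Helper72.PQDefs
import Cfsg.Agent.Lib.Helper12.Ward5
import Cfsg.Agent.Lib.Helper55.FS
import Cfsg.Agent.Lib.Helper75.PQP6t

/-!
S4306 piece PQ-P6S (helper75 for helper72): the subgroup `E = [Q, t]` of the core configuration.
-/

set_option autoImplicit false
set_option linter.style.haveILetI false

namespace Cfsg.Agent.Lib.Helper75.PQ

open Subgroup
open scoped commutatorElement
open Cfsg.Agent.Lib.Helper72.PQ Cfsg.Agent.Lib.Helper12.Ward Cfsg.Agent.Lib.Helper55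

universe u

theorem p6s (h1 : P6AStmt.{u}) : P6SStmt.{u} := by
  intro Γ _ _ q r s ℓ M Q R₀ t hP
  obtain ⟨hA1, ⟨y₀, hy₀Q, hy₀⟩, -, -⟩ := h1 Γ q r s ℓ M Q R₀ t hP
  haveI : Fact q.Prime := ⟨hP.hq⟩
  haveI : Fact ℓ.Prime := ⟨hP.hℓ⟩
  obtain ⟨T, hT⟩ : ∃ T : Subgroup Γ, T = Subgroup.zpowers t := ⟨_, rfl⟩
  have htT : t ∈ T := by
    rw [hT]
    exact Subgroup.mem_zpowers t
  have hTcomm : ∀ c : Γ, t * c = c * t → ∀ x ∈ T, x * c = c * x := by
    intro c hc x hx
    rw [hT] at hx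
    obtain ⟨k, rfl⟩ := Subgroup.mem_zpowers_iff.mp hx
    have hcm : Commute t c := hc
    exact (hcm.zpow_left k).eq
  have hTQ : T ≤ normalizer (Q : Set Γ) := by
    rw [hT, Subgroup.zpowers_le]
    exact hP.htQ
  obtain ⟨D, hD⟩ : ∃ D : Subgroup Γ, D = ⁅Q, Q⁆ := ⟨_, rfl⟩
  obtain ⟨E, hE⟩ : ∃ E : Subgroup Γ, E = ⁅Q, T⁆ := ⟨_, rfl⟩
  obtain ⟨C₀, hC₀⟩ : ∃ C₀ : Subgroup Γ, C₀ = Q ⊓ centralizer (T : Set Γ) := ⟨_, rfl⟩
  have hEQ : E ≤ Q := by
    rw [hE]
    exact commutator_le_of_le_normalizer hTQ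
  have htE : t ∈ normalizer (E : Set Γ) := by
    rw [hE]
    exact nz_comm hP.htQ (Subgroup.le_normalizer htT)
  have hTE : T ≤ normalizer (E : Set Γ) := by
    rw [hT, Subgroup.zpowers_le]
    exact htE
  have hQD : Q ≤ normalizer (D : Set Γ) := by
    intro y hy
    rw [hD]
    exact nz_comm (Subgroup.le_normalizer hy) (Subgroup.le_normalizer hy)
  have htD : t ∈ normalizer (D : Set Γ) := by
    rw [hD]
    exact nz_comm hP.htQ hP.htQ
  have hTD : T ≤ normalizer (D : Set Γ) := by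
    rw [hT, Subgroup.zpowers_le]
    exact htD
  have hcardQ : ¬ ℓ ∣ Nat.card Q := by
    obtain ⟨k, hk⟩ := hP.hQq.exists_card_eq
    rw [hk]
    intro hdvd
    exact hP.hℓq ((Nat.prime_dvd_prime_iff_eq hP.hℓ hP.hq).mp (hP.hℓ.dvd_of_dvd_pow hdvd))
  have hTcard : Nat.card T = ℓ := by
    rw [hT, Nat.card_zpowers, hP.ht]
  have hTp : IsPGroup ℓ T := IsPGroup.of_card (n := 1) (by rw [hTcard, pow_one])
  have hQle : Q ≤ ⁅Q, T⁆ ⊔ (Q ⊓ centralizer (T : Set Γ)) :=
    coprime_le_commutator_sup_centralizer hcardQ hTp hTQ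
  have hEE : E = ⁅E, T⁆ := by
    rw [hE]
    exact commutator_eq_commutator_commutator hTQ hQle
  have hTC : ⁅T, C₀⁆ = ⊥ := by
    rw [Subgroup.commutator_comm T C₀, Subgroup.commutator_eq_bot_iff_le_centralizer, hC₀]
    exact inf_le_right
  have hDT : ⁅D, T⁆ = ⊥ := by
    rw [Subgroup.commutator_eq_bot_iff_le_centralizer]
    intro d hd
    rw [Subgroup.mem_centralizer_iff]
    intro x hx
    rw [hD] at hd
    exact hTcomm d (hP.hDt d hd) x hx
  have hEC : ⁅E, C₀⁆ = ⊥ := by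
    rw [hE]
    apply Subgroup.commutator_commutator_eq_bot_of_rotate
    · rw [hTC, Subgroup.commutator_bot_left]
    · rw [eq_bot_iff, ← hDT]
      apply Subgroup.commutator_mono _ le_rfl
      rw [hD]
      apply Subgroup.commutator_mono _ le_rfl
      rw [hC₀]
      exact inf_le_left
  have hECcomm : ∀ e ∈ E, ∀ c ∈ C₀, e * c = c * e := by
    intro e he c hc
    have h2 : E ≤ centralizer (C₀ : Set Γ) :=
      Subgroup.commutator_eq_bot_iff_le_centralizer.mp hEC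
    exact ((Subgroup.mem_centralizer_iff.mp (h2 he)) c hc).symm
  have hmemC₀ : ∀ c, c ∈ Q → t * c = c * t → c ∈ C₀ := by
    intro c hcQ hct
    rw [hC₀]
    refine Subgroup.mem_inf.mpr ⟨hcQ, ?_⟩
    rw [Subgroup.mem_centralizer_iff]
    intro x hx
    exact hTcomm c hct x hx
  have hdecomp : ∀ y ∈ Q, ∃ e ∈ E, ∃ c ∈ Q, t * c = c * t ∧ y = e * c := by
    intro y hy
    have hy' : y ∈ ((⁅Q, T⁆ ⊔ (Q ⊓ centralizer (T : Set Γ)) : Subgroup Γ) : Set Γ) := hQle hy
    rw [Subgroup.coe_mul_of_right_le_normalizer_left _ _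
      (inf_le_left.trans (Subgroup.normalizer_commutator_ge_left Q T))] at hy'
    obtain ⟨e, he, c, hc, rfl⟩ := Set.mem_mul.mp hy'
    refine ⟨e, ?_, c, hc.1, ?_, rfl⟩
    · rw [hE]
      exact he
    · exact Subgroup.mem_centralizer_iff.mp hc.2 t htT
  have hEnab : ∃ e ∈ E, ∃ e' ∈ E, e * e' ≠ e' * e := by
    by_contra hcon
    push Not at hcon
    have hEt : ∀ b ∈ E, t * b = b * t := hA1 E hEQ hcon htE
    have hET : ⁅E, T⁆ = ⊥ := by
      rw [Subgroup.commutator_eq_bot_iff_le_centralizer]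
      intro e he
      rw [Subgroup.mem_centralizer_iff]
      intro x hx
      exact hTcomm e (hEt e he) x hx
    have hEbot : E = ⊥ := by rw [hEE, hET]
    have hQC : ⁅Q, T⁆ = ⊥ := by
      rw [← hE]
      exact hEbot
    have hQle2 : Q ≤ centralizer (T : Set Γ) :=
      Subgroup.commutator_eq_bot_iff_le_centralizer.mp hQC
    exact hy₀ (Subgroup.mem_centralizer_iff.mp (hQle2 hy₀Q) t htT)
  have hEE' : ⁅E, E⁆ ≠ ⊥ := by
    intro hbot
    obtain ⟨e, he, e', he', hne⟩ := hEnab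
    have h2 : E ≤ centralizer (E : Set Γ) :=
      Subgroup.commutator_eq_bot_iff_le_centralizer.mp hbot
    exact hne (Subgroup.mem_centralizer_iff.mp (h2 he) e' he').symm
  have hEED : ⁅E, E⁆ ≤ D := by
    rw [hD]
    exact Subgroup.commutator_mono hEQ hEQ
  have hDcard : Nat.card D = q := by
    rw [hD]
    exact hP.hD
  have hEEeq : ⁅E, E⁆ = D := by
    apply Subgroup.eq_of_le_of_card_ge hEED
    have hdvd : Nat.card (⁅E, E⁆ : Subgroup Γ) ∣ Nat.card D := Subgroup.card_dvd_of_le hEED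
    rw [hDcard] at hdvd ⊢
    rcases (Nat.dvd_prime hP.hq).mp hdvd with h | h
    · exact absurd (Subgroup.card_eq_one.mp h) hEE'
    · exact h.ge
  have hDE : D ≤ E := by
    rw [← hEEeq]
    exact p6t_comm_le le_rfl le_rfl
  have hfix : ∀ e ∈ E, t * e = e * t → e ∈ D := by
    intro e he hte
    have hEN : E ≤ normalizer (D : Set Γ) := hEQ.trans hQD
    have heN : e ∈ normalizer (D : Set Γ) := hEN he
    have hab : ∀ v ∈ qmap D E, ∀ w ∈ qmap D E, v * w = w * v := by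
      intro v hv w hw
      obtain ⟨a, haN, haE, rfl⟩ := exists_of_mem_qmap hv
      obtain ⟨b, hbN, hbE, rfl⟩ := exists_of_mem_qmap hw
      rw [p6t_qm_comm]
      show a * b * a⁻¹ * b⁻¹ ∈ D
      apply hEED
      have h3 := Subgroup.commutator_mem_commutator haE hbE
      rwa [commutatorElement_def] at h3
    have hcop : (Nat.card (qmap D T)).Coprime (Nat.card (qmap D E)) := by
      have h2 : Nat.card (qmap D T) ∣ ℓ := by
        rw [← hTcard]
        exact Dvd.intro _ (p6t_card_qmap hTD)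
      have h3 : Nat.card (qmap D E) ∣ Nat.card Q :=
        (Dvd.intro _ (p6t_card_qmap hEN)).trans (Subgroup.card_dvd_of_le hEQ)
      obtain ⟨k, hk⟩ := hP.hQq.exists_card_eq
      rw [hk] at h3
      have h4 : Nat.Coprime ℓ (q ^ k) :=
        Nat.Coprime.pow_right _ ((Nat.coprime_primes hP.hℓ hP.hq).mpr hP.hℓq)
      exact Nat.Coprime.coprime_dvd_left h2 (Nat.Coprime.coprime_dvd_right h3 h4)
    have hgen : qmap D E ≤ ⁅qmap D E, qmap D T⁆ := by
      rw [← p6t_qmap_comm hEN hTD, ← hEE]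
    have key := comm_fix_trivial (qmap D E) (qmap D T) hab (qmap_le_normalizer hTE) hcop hgen
      (qm D ⟨e, heN⟩) (p6t_mem_qmap heN he) (by
        intro x hx
        obtain ⟨a, haN, haT, rfl⟩ := exists_of_mem_qmap hx
        rw [p6t_qm_comm]
        show a * e * a⁻¹ * e⁻¹ ∈ D
        have h5 : a * e = e * a := hTcomm e hte a haT
        rw [h5]
        have e2 : e * a * a⁻¹ * e⁻¹ = 1 := by group
        rw [e2]
        exact D.one_mem)
    exact (qm_eq_one_iff D _).mp key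
  refine ⟨E, hEQ, htE, ?_, hdecomp, ?_, ?_, hEnab⟩
  · intro e he c hc hct
    exact hECcomm e he c (hmemC₀ c hc hct)
  · rw [← hD]
    exact hDE
  · intro e he hte
    rw [← hD]
    exact hfix e he hte

end Cfsg.Agent.Lib.Helper75.PQ
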