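import Cfsg.Agent.Lib.Helper22.PTDefs
import Cfsg.Agent.Lib.Helper80.Twisted
import Cfsg.Agent.Lib.Helper88.PTZREG

/-!
Project PT (S4705, helper22), piece FINB: `|G| = |Z(G)| p (p - 1) (p - 2)`.
-/

set_option autoImplicit false

namespace Cfsg.Agent.Lib.Helper75.PT

open Cfsg Cfsg.Agent.Lib.Helper22.BFD Cfsg.Agent.Lib.Helper22.PT
open scoped ComplexConjugate

universe u

variable {G : Type u} [Group G] [Fintype G]

open Classical in
theorem finb_L1 (f : G → ℂ) :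
    ∑ τ : G, ∑ c : G, (if τ ^ 2 = 1 ∧ c ∈ Subgroup.center G then f τ else 0) =
      (Nat.card (Subgroup.center G) : ℂ) * ∑ τ : G, (if τ ^ 2 = 1 then f τ else 0) := by
  have hZ : Nat.card (Subgroup.center G) =
      (Finset.univ.filter (fun c : G => c ∈ Subgroup.center G)).card := by
    rw [Nat.card_eq_fintype_card]
    exact Fintype.card_of_subtype _ (by simp)
  rw [Finset.mul_sum]
  refine Finset.sum_congr rfl (fun τ _ => ?_)
  by_cases hτ : τ ^ 2 = 1
  · simp only [hτ, true_and, if_true]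
    rw [← Finset.sum_filter, Finset.sum_const, nsmul_eq_mul, hZ]
  · simp [hτ]

open Classical in
theorem finb_L2 (a b : ℂ) :
    ∑ τ : G, (if τ ^ 2 = 1 then (if τ = 1 then a else b) else 0) =
      a + (((Finset.univ.filter (fun τ : G => τ ^ 2 = 1)).card : ℂ) - 1) * b := by
  have h1 : ∀ τ : G, (if τ ^ 2 = 1 then (if τ = 1 then a else b) else 0) =
      (if τ = 1 then a - b else 0) + (if τ ^ 2 = 1 then b else 0) := by
    intro τ
    by_cases h : τ = 1
    · subst h; simp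
    · by_cases h2 : τ ^ 2 = 1
      · simp [h, h2]
      · simp [h, h2]
  rw [Finset.sum_congr rfl (fun τ _ => h1 τ), Finset.sum_add_distrib, Finset.sum_ite_eq',
    ← Finset.sum_filter, Finset.sum_const, nsmul_eq_mul]
  simp only [Finset.mem_univ, if_true]
  ring

open Classical in
/-- PIECE FINB -/
theorem finB (p : ℕ) [Fact p.Prime] (z : G) (ζ : G → ℂ) (h : Hyp G p z ζ)
    (hodd : Odd (Nat.card (Subgroup.center G))) (s : ℕ) (hs : Sq2 G p s)
    (hzero : ∀ g : G, ¬ p ∣ orderOf g → g ^ 2 ∉ Subgroup.center G → ζ g = 0 ∧ ζ (g ^ 2) = 0)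
    (hinv : ∀ τ : G, orderOf τ = 2 → ζ τ = -1)
    (hM2 : ∑ g : G, (if p ∣ orderOf g then 0 else ζ g * conj (ζ g)) =
      2 * (Nat.card G : ℂ) / p)
    (hM3B : ∑ g : G, (if p ∣ orderOf g then 0 else ζ (g ^ 2) * conj (ζ (g ^ s))) =
      -(((p : ℂ) - 2) * (Nat.card G : ℂ) / p))
    (hfinA : ∀ F : G → ℂ,
      (∀ g : G, ¬ p ∣ orderOf g → g ^ 2 ∉ Subgroup.center G → F g = 0) →
      ∑ g : G, (if p ∣ orderOf g then 0 else F g) =
        ∑ τ : G, ∑ c : G, (if τ ^ 2 = 1 ∧ c ∈ Subgroup.center G then F (τ * c) else 0)) :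
    Nat.card G = Nat.card (Subgroup.center G) * (p * (p - 1) * (p - 2)) := by
  have hp : p.Prime := Fact.out
  have hZp := Cfsg.Agent.Lib.Helper88.PT.zreg p z ζ h
  have hp5 := h.p5
  have hdeg := h.deg
  have hpC : (p : ℂ) ≠ 0 := Nat.cast_ne_zero.mpr hp.ne_zero
  have hp2C : (p : ℂ) - 2 ≠ 0 := by
    intro h0
    have h1 : (p : ℂ) = 2 := by linear_combination h0
    have h2 : (p : ℕ) = 2 := by exact_mod_cast h1
    omega
  have hζ1 : ζ 1 ≠ 0 := by rw [hdeg]; exact hp2C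
  obtain ⟨lam, hlam⟩ : ∃ lam : G → ℂ, lam = fun c => ζ c / ζ 1 := ⟨_, rfl⟩
  have hlamdef : ∀ c : G, lam c = ζ c / ζ 1 := fun c => by rw [hlam]
  have hmulc : ∀ c ∈ Subgroup.center G, ∀ g : G, ζ (g * c) = lam c * ζ g := by
    intro c hc g
    rw [hlamdef]
    exact Cfsg.Agent.Lib.Helper80.irr_mul_central (⟨ζ, h.irr⟩ : IrrCharacter G) hc g
  have hlam1 : lam 1 = 1 := by rw [hlamdef]; exact div_self hζ1
  have hlammul : ∀ c ∈ Subgroup.center G, ∀ c' : G, lam (c' * c) = lam c * lam c' := by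
    intro c hc c'
    have h1 := hmulc c hc c'
    rw [hlamdef (c' * c), h1, hlamdef c']
    ring
  have hlampow : ∀ c ∈ Subgroup.center G, ∀ n : ℕ, lam (c ^ n) = lam c ^ n := by
    intro c hc n
    induction n with
    | zero => rw [pow_zero, pow_zero, hlam1]
    | succ k ih => rw [pow_succ, hlammul c hc, ih, pow_succ]; ring
  have hlamnorm : ∀ c ∈ Subgroup.center G, lam c * conj (lam c) = 1 := by
    intro c hc
    have h1 : lam c ^ orderOf c = 1 := by rw [← hlampow c hc, pow_orderOf_eq_one, hlam1]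
    have h2 : ‖lam c‖ = 1 := Complex.norm_eq_one_of_pow_eq_one h1 (orderOf_pos c).ne'
    rw [Complex.mul_conj, Complex.normSq_eq_norm_sq, h2]
    simp
  have hA : ∀ τ : G, τ ^ 2 = 1 → ζ τ = if τ = 1 then (p : ℂ) - 2 else -1 := by
    intro τ hτ
    by_cases h1 : τ = 1
    · rw [if_pos h1, h1, hdeg]
    · rw [if_neg h1]
      exact hinv τ (orderOf_eq_prime hτ h1)
  have hcj1 : conj ((p : ℂ) - 2) = (p : ℂ) - 2 := by
    have e : ((p : ℂ) - 2) = (((p : ℝ) - 2 : ℝ) : ℂ) := by push_cast; rfl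
    rw [e, Complex.conj_ofReal]
  have hcj2 : conj (-1 : ℂ) = -1 := by simp
  have hF1 : ∀ τ c : G, τ ^ 2 = 1 → c ∈ Subgroup.center G →
      ζ (τ * c) * conj (ζ (τ * c)) = if τ = 1 then ((p : ℂ) - 2) ^ 2 else 1 := by
    intro τ c hτ hc
    rw [hmulc c hc τ, map_mul, hA τ hτ]
    have h3 := hlamnorm c hc
    by_cases h1 : τ = 1
    · simp only [h1, if_true]
      rw [hcj1]
      linear_combination ((p : ℂ) - 2) ^ 2 * h3
    · simp only [h1, if_false]
      rw [hcj2]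
      linear_combination h3
  have hF2 : ∀ τ c : G, τ ^ 2 = 1 → c ∈ Subgroup.center G →
      ζ ((τ * c) ^ 2) * conj (ζ ((τ * c) ^ s)) =
        if τ = 1 then ((p : ℂ) - 2) ^ 2 else -((p : ℂ) - 2) := by
    intro τ c hτ hc
    have hcomm : Commute τ c := Subgroup.mem_center_iff.mp hc τ
    have hsq : (τ * c) ^ 2 = 1 * c ^ 2 := by rw [hcomm.mul_pow, hτ]
    have hτs : τ ^ s = τ := by
      apply hs.fix
      intro q hq hqd
      left
      have h4 : q ∣ 2 := hqd.trans (orderOf_dvd_of_pow_eq_one hτ)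
      exact (Nat.prime_dvd_prime_iff_eq hq Nat.prime_two).mp h4
    have hcodd : Odd (orderOf c) := by
      have h1 : orderOf c ∣ Nat.card (Subgroup.center G) := by
        have h5 := orderOf_dvd_natCard (⟨c, hc⟩ : Subgroup.center G)
        rwa [Subgroup.orderOf_mk] at h5
      exact Odd.of_dvd_nat hodd h1
    have hcs : c ^ s = c ^ 2 := hs.sq c hcodd (hZp c hc)
    have hpow : (τ * c) ^ s = τ * c ^ 2 := by rw [hcomm.mul_pow, hτs, hcs]
    have hc2 : c ^ 2 ∈ Subgroup.center G := Subgroup.pow_mem _ hc 2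
    rw [hsq, hpow, hmulc _ hc2 1, hmulc _ hc2 τ, map_mul, hA τ hτ, hdeg]
    have h3 := hlamnorm _ hc2
    by_cases h1 : τ = 1
    · simp only [h1, if_true]
      rw [hcj1]
      linear_combination ((p : ℂ) - 2) ^ 2 * h3
    · simp only [h1, if_false]
      rw [hcj2]
      linear_combination (-((p : ℂ) - 2)) * h3
  have e1 := hfinA (fun g => ζ g * conj (ζ g)) (fun g hg hg2 => by
    show ζ g * conj (ζ g) = 0
    rw [(hzero g hg hg2).1, zero_mul])
  have e2 := hfinA (fun g => ζ (g ^ 2) * conj (ζ (g ^ s))) (fun g hg hg2 => by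
    show ζ (g ^ 2) * conj (ζ (g ^ s)) = 0
    rw [(hzero g hg hg2).2, zero_mul])
  beta_reduce at e1 e2
  have r1 : ∑ τ : G, ∑ c : G, (if τ ^ 2 = 1 ∧ c ∈ Subgroup.center G then
        ζ (τ * c) * conj (ζ (τ * c)) else 0) =
      ∑ τ : G, ∑ c : G, (if τ ^ 2 = 1 ∧ c ∈ Subgroup.center G then
        (if τ = 1 then ((p : ℂ) - 2) ^ 2 else 1) else 0) := by
    refine Finset.sum_congr rfl (fun τ _ => Finset.sum_congr rfl (fun c _ => ?_))
    by_cases hh : τ ^ 2 = 1 ∧ c ∈ Subgroup.center G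
    · rw [if_pos hh, if_pos hh, hF1 τ c hh.1 hh.2]
    · rw [if_neg hh, if_neg hh]
  have r2 : ∑ τ : G, ∑ c : G, (if τ ^ 2 = 1 ∧ c ∈ Subgroup.center G then
        ζ ((τ * c) ^ 2) * conj (ζ ((τ * c) ^ s)) else 0) =
      ∑ τ : G, ∑ c : G, (if τ ^ 2 = 1 ∧ c ∈ Subgroup.center G then
        (if τ = 1 then ((p : ℂ) - 2) ^ 2 else -((p : ℂ) - 2)) else 0) := by
    refine Finset.sum_congr rfl (fun τ _ => Finset.sum_congr rfl (fun c _ => ?_))
    by_cases hh : τ ^ 2 = 1 ∧ c ∈ Subgroup.center G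
    · rw [if_pos hh, if_pos hh, hF2 τ c hh.1 hh.2]
    · rw [if_neg hh, if_neg hh]
  rw [hM2, r1, finb_L1 (fun τ => if τ = 1 then ((p : ℂ) - 2) ^ 2 else 1), finb_L2] at e1
  rw [hM3B, r2, finb_L1 (fun τ => if τ = 1 then ((p : ℂ) - 2) ^ 2 else -((p : ℂ) - 2)),
    finb_L2] at e2
  have key : (Nat.card G : ℂ) = (Nat.card (Subgroup.center G) : ℂ) *
      ((p : ℂ) * ((p : ℂ) - 1) * ((p : ℂ) - 2)) := by
    have e3 : ((p : ℂ) - 2) * ((Nat.card G : ℂ) / p) = ((p : ℂ) - 2) *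
        ((Nat.card (Subgroup.center G) : ℂ) * (((p : ℂ) - 2) * ((p : ℂ) - 1))) := by
      linear_combination ((p : ℂ) - 2) * e1 + e2
    have e4 := mul_left_cancel₀ hp2C e3
    rw [div_eq_iff hpC] at e4
    rw [e4]
    ring
  have hp1 : 1 ≤ p := hp.one_le
  have hp2 : 2 ≤ p := hp.two_le
  have hfin : ((Nat.card G : ℕ) : ℂ) =
      ((Nat.card (Subgroup.center G) * (p * (p - 1) * (p - 2)) : ℕ) : ℂ) := by
    push_cast [Nat.cast_sub hp1, Nat.cast_sub hp2]
    exact key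
  exact_mod_cast hfin

end Cfsg.Agent.Lib.Helper75.PT
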