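import Cfsg.Agent.Lib.Helper96.PiDefs
import Cfsg.Agent.Lib.Helper96.PiGlueB
import Cfsg.Agent.Lib.Helper96.PiOmega
import Cfsg.Agent.Lib.Helper9.HeUNIPPOW

/-!
Project PI (S5989, helper96), piece EXASM: an isometry `T` of odd prime order `r` with
`m % blk < finrank ker (T - 1)` fixes a member of the class of `W₀`.
-/

set_option autoImplicit false
set_option linter.unusedSectionVars false
set_option linter.unusedVariables false

namespace Cfsg.Agent.Lib.Helper75.Pi

open Module Cfsg.Agent.Lib.Helper96.Sp Cfsg.Agent.Lib.Helper96.BG Cfsg.Agent.Lib.Helper96.Hy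
  Cfsg.Agent.Lib.Helper96.Pi Cfsg.Agent.Lib.Helper47

universe u

variable {F : Type u} [Field F] [Fintype F] {V : Type u} [AddCommGroup V] [Module F V]
  [FiniteDimensional F V] {B : LinearMap.BilinForm F V}

-- PIECE EXASM
theorem exists_fix_iso (hS : B.IsSymm) (h2 : (2 : F) ≠ 0) (hN : ND B ⊤) (r : ℕ) [Fact r.Prime]
    (hr2 : r ≠ 2) (hrq : ¬ r ∣ Fintype.card F) (hr0 : (r : F) ≠ 0) (hR : RFacts B r)
    (W₀ : Submodule F V) (hW₀ : ND B W₀) (m : ℕ) (hm : finrank F W₀ = m) (hmodd : Odd m)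
    (hmn : m < finrank F V)
    (hsplit : ∀ K WR : Submodule F V, ND B K → ND B WR → Orth B K WR →
      finrank F WR < finrank F W₀ → finrank F W₀ < finrank F K + finrank F WR →
      ∃ WK : Submodule F V, WK ≤ K ∧ ND B (WK ⊔ WR) ∧
        finrank F (WK ⊔ WR : Submodule F V) = finrank F W₀ ∧ Iso B (WK ⊔ WR) W₀)
    (T : Module.End F V) (hT : Isom B T) (hTr : T ^ r = 1)
    (hlt : m % blk (Fintype.card F) r < finrank F (LinearMap.ker (T - 1))) :
    ∃ W : Submodule F V, Mem B W₀ m W ∧ W.map T ≤ W := by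
  have hK : ND B (LinearMap.ker (T - 1)) :=
    Cfsg.Agent.Lib.Helper98.O72.nd_ker hS h2 hN T hT r hrq hr0 hTr
  have hRnd : ND B (LinearMap.range (T - 1)) :=
    Cfsg.Agent.Lib.Helper98.O72.nd_range hS h2 hN T hT r hrq hr0 hTr
  have hKR : Orth B (LinearMap.ker (T - 1)) (LinearMap.range (T - 1)) := orth_ker_range hT
  have hdim := LinearMap.finrank_range_add_finrank_ker (T - 1)
  have hRinv : (LinearMap.range (T - 1)).map T ≤ LinearMap.range (T - 1) := by
    rintro _ ⟨_, ⟨v, rfl⟩, rfl⟩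
    refine ⟨T v, ?_⟩
    simp only [LinearMap.sub_apply, Module.End.one_apply, map_sub]
  obtain ⟨c, hc⟩ : ∃ c : ℕ, c = blk (Fintype.card F) r := ⟨_, rfl⟩
  rw [← hc] at hlt
  have hcdvd : c ∣ finrank F (LinearMap.range (T - 1)) := by
    rw [hc]
    exact hR.blk_dvd T hT hTr _ le_rfl hRinv hRnd
  have hceven : Even c := by rw [hc]; exact blk_even _ _
  obtain ⟨b, hb⟩ : ∃ b : ℕ, b = min (m / c) (finrank F (LinearMap.range (T - 1)) / c) :=
    ⟨_, rfl⟩
  have hRdiv : c * (finrank F (LinearMap.range (T - 1)) / c) =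
      finrank F (LinearMap.range (T - 1)) := Nat.mul_div_cancel' hcdvd
  have hmdiv : c * (m / c) + m % c = m := Nat.div_add_mod m c
  have hb1 : c * b ≤ c * (m / c) := Nat.mul_le_mul_left c (by rw [hb]; exact min_le_left _ _)
  have hb2 : c * b ≤ finrank F (LinearMap.range (T - 1)) := by
    rw [← hRdiv]
    exact Nat.mul_le_mul_left c (by rw [hb]; exact min_le_right _ _)
  have hcb_even : Even (c * b) := hceven.mul_right b
  have hcb_lt : c * b < m := by
    have hne : c * b ≠ m := by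
      intro h
      rw [h] at hcb_even
      exact (Nat.not_even_iff_odd.mpr hmodd) hcb_even
    omega
  have hroom : m < finrank F (LinearMap.ker (T - 1)) + c * b := by
    rcases le_total (m / c) (finrank F (LinearMap.range (T - 1)) / c) with hle | hle
    · have hbeq : b = m / c := by rw [hb]; exact min_eq_left hle
      rw [hbeq]
      omega
    · have hbeq : b = finrank F (LinearMap.range (T - 1)) / c := by
        rw [hb]; exact min_eq_right hle
      rw [hbeq, hRdiv]
      omega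
  obtain ⟨WR, hWRR, hWRinv, hWRnd, hWRfin⟩ := hR.sub_blk T hT hTr b (by rw [← hc]; exact hb2)
  rw [← hc] at hWRfin
  have hKWR : Orth B (LinearMap.ker (T - 1)) WR := orth_mono hKR le_rfl hWRR
  obtain ⟨WK, hWKK, hWnd, hWfin, hWiso⟩ := hsplit (LinearMap.ker (T - 1)) WR hK hWRnd hKWR
    (by rw [hWRfin, hm]; exact hcb_lt) (by rw [hWRfin, hm]; exact hroom)
  refine ⟨WK ⊔ WR, ⟨by rw [hWfin, hm], hWnd, hWiso⟩, ?_⟩
  rw [Submodule.map_sup]
  apply sup_le_sup _ hWRinv
  rintro _ ⟨x, hx, rfl⟩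
  have hxK := hWKK hx
  rw [LinearMap.mem_ker, LinearMap.sub_apply, Module.End.one_apply, sub_eq_zero] at hxK
  rw [hxK]
  exact hx

end Cfsg.Agent.Lib.Helper75.Pi
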