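import Mathlib
import Cfsg.Agent.Lib.Helper91.PslU

/-!
# S5163, piece B1: the upper unitriangular matrices form a Sylow `p`-subgroup of `SL_n(K)`
-/

set_option autoImplicit false

namespace Cfsg.Agent.Lib.Helper75.PslB1

open Matrix Matrix.SpecialLinearGroup Cfsg.Agent.Lib.Helper91.PslU

/-- the upper unitriangular matrix with prescribed entries above the diagonal -/
def upMat (n : ℕ) (K : Type*) [Field K] (a : (j : Fin n) → Fin j → K) :
    Matrix (Fin n) (Fin n) K :=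
  fun i j => if h : (i : ℕ) < (j : ℕ) then a j ⟨i, h⟩ else if i = j then 1 else 0

theorem upMat_diag (n : ℕ) (K : Type*) [Field K] (a : (j : Fin n) → Fin j → K) (i : Fin n) :
    upMat n K a i i = 1 := by
  unfold upMat
  rw [dif_neg (lt_irrefl _), if_pos rfl]

theorem upMat_lower (n : ℕ) (K : Type*) [Field K] (a : (j : Fin n) → Fin j → K) (i j : Fin n)
    (hji : j < i) : upMat n K a i j = 0 := by
  unfold upMat
  have h1 : ¬ (i : ℕ) < (j : ℕ) := not_lt.2 (le_of_lt hji)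
  rw [dif_neg h1, if_neg (ne_of_gt hji)]

theorem upMat_det (n : ℕ) (K : Type*) [Field K] (a : (j : Fin n) → Fin j → K) :
    (upMat n K a).det = 1 := by
  have hT : (upMat n K a).BlockTriangular id := fun i j hji => upMat_lower n K a i j hji
  rw [Matrix.det_of_upperTriangular hT]
  exact Finset.prod_eq_one fun i _ => upMat_diag n K a i

/-- the entries above the diagonal -/
def entries (n : ℕ) (K : Type*) [Field K] (g : UU n K) : (j : Fin n) → Fin j → K :=
  fun j i => (g : SpecialLinearGroup (Fin n) K).1 ⟨i.val, i.isLt.trans j.isLt⟩ j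

theorem entries_bijective (n : ℕ) (K : Type*) [Field K] :
    Function.Bijective (entries n K) := by
  constructor
  · intro g g' h
    apply Subtype.ext
    apply Subtype.ext
    ext i j
    have hg := (mem_UU_iff n K g.1).1 g.2
    have hg' := (mem_UU_iff n K g'.1).1 g'.2
    rcases lt_trichotomy i j with hij | hij | hij
    · exact congrFun (congrFun h j) ⟨i.val, hij⟩
    · rw [hij, hg.2 j, hg'.2 j]
    · rw [hg.1 i j hij, hg'.1 i j hij]
  · intro a
    refine ⟨⟨⟨upMat n K a, upMat_det n K a⟩, (mem_UU_iff n K _).2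
      ⟨fun i j hji => upMat_lower n K a i j hji, fun i => upMat_diag n K a i⟩⟩, ?_⟩
    funext j i
    show upMat n K a ⟨i.val, i.isLt.trans j.isLt⟩ j = a j i
    unfold upMat
    rw [dif_pos i.isLt]

theorem card_UU (n : ℕ) (K : Type*) [Field K] [Fintype K] :
    Nat.card (UU n K) = Fintype.card K ^ (∑ i : Fin n, (i : ℕ)) := by
  rw [Nat.card_congr (Equiv.ofBijective _ (entries_bijective n K)), Nat.card_pi,
    ← Finset.prod_pow_eq_pow_sum]
  apply Finset.prod_congr rfl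
  intro j _
  rw [Nat.card_fun, Nat.card_eq_fintype_card, Nat.card_fin]

theorem pow_sub_pow_eq (q i k : ℕ) : q ^ (i + k) - q ^ i = q ^ i * (q ^ k - 1) := by
  rw [pow_add, Nat.mul_sub, mul_one]

theorem card_GL_factor (q n : ℕ) :
    ∏ i : Fin n, (q ^ n - q ^ (i : ℕ)) =
      q ^ (∑ i : Fin n, (i : ℕ)) * ∏ i : Fin n, (q ^ (n - (i : ℕ)) - 1) := by
  rw [← Finset.prod_pow_eq_pow_sum, ← Finset.prod_mul_distrib]
  apply Finset.prod_congr rfl
  intro i _
  have h1 := pow_sub_pow_eq q i (n - i)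
  rwa [Nat.add_sub_cancel' i.isLt.le] at h1

theorem not_dvd_prod (p q n : ℕ) (hp : p.Prime) (hpq : p ∣ q) (hq : 1 ≤ q) :
    ¬ p ∣ ∏ i : Fin n, (q ^ (n - (i : ℕ)) - 1) := by
  intro h
  obtain ⟨i, -, hi⟩ := (Prime.dvd_finsetProd_iff (Nat.prime_iff.1 hp) _).1 h
  have h1 : p ∣ q ^ (n - (i : ℕ)) := dvd_pow hpq (by have := i.isLt; omega)
  have h2 : 1 ≤ q ^ (n - (i : ℕ)) := Nat.one_le_pow _ _ hq
  have h3 : p ∣ q ^ (n - (i : ℕ)) - (q ^ (n - (i : ℕ)) - 1) := Nat.dvd_sub h1 hi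
  have h4 : q ^ (n - (i : ℕ)) - (q ^ (n - (i : ℕ)) - 1) = 1 := by omega
  rw [h4] at h3
  exact hp.one_lt.ne' (Nat.dvd_one.1 h3)

theorem UU_sylow (n : ℕ) (K : Type*) [Field K] [Fintype K] (p : ℕ) [Fact p.Prime] [CharP K p] :
    ∃ S₀ : Sylow p (SpecialLinearGroup (Fin n) K),
      (S₀ : Subgroup (SpecialLinearGroup (Fin n) K)) = UU n K := by
  have hp : p.Prime := Fact.out
  obtain ⟨f, -, hq⟩ := FiniteField.card K p
  have hUU : Nat.card (UU n K) = p ^ ((f : ℕ) * ∑ i : Fin n, (i : ℕ)) := by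
    rw [card_UU, hq, pow_mul]
  have hpg : IsPGroup p (UU n K) := IsPGroup.of_card hUU
  obtain ⟨P, hP⟩ := hpg.exists_le_sylow
  refine ⟨P, (Subgroup.eq_of_le_of_card_ge hP ?_).symm⟩
  obtain ⟨k, hk⟩ := IsPGroup.iff_card.1 P.isPGroup'
  have h1 : Nat.card P ∣ Nat.card (SpecialLinearGroup (Fin n) K) :=
    Subgroup.card_subgroup_dvd_card _
  have h2 : Nat.card (SpecialLinearGroup (Fin n) K) ∣ Nat.card (GL (Fin n) K) :=
    Subgroup.card_dvd_of_injective SpecialLinearGroup.toGL SpecialLinearGroup.toGL_injective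
  have h3 : Nat.card (GL (Fin n) K) = p ^ ((f : ℕ) * ∑ i : Fin n, (i : ℕ)) *
      ∏ i : Fin n, (Fintype.card K ^ (n - (i : ℕ)) - 1) := by
    rw [Matrix.card_GL_field, card_GL_factor]
    congr 1
    rw [hq, pow_mul]
  have h4 : p ^ k ∣ p ^ ((f : ℕ) * ∑ i : Fin n, (i : ℕ)) *
      ∏ i : Fin n, (Fintype.card K ^ (n - (i : ℕ)) - 1) := by
    rw [← hk, ← h3]
    exact h1.trans h2
  have hpq : p ∣ Fintype.card K := by
    rw [hq]
    exact dvd_pow_self p f.pos.ne'
  have hcop : Nat.Coprime (p ^ k) (∏ i : Fin n, (Fintype.card K ^ (n - (i : ℕ)) - 1)) :=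
    Nat.Coprime.pow_left k ((Nat.Prime.coprime_iff_not_dvd hp).2
      (not_dvd_prod p (Fintype.card K) n hp hpq Fintype.card_pos))
  have h5 : p ^ k ∣ p ^ ((f : ℕ) * ∑ i : Fin n, (i : ℕ)) := hcop.dvd_of_dvd_mul_right h4
  rw [hk, hUU]
  exact Nat.le_of_dvd (pow_pos hp.pos _) h5

end Cfsg.Agent.Lib.Helper75.PslB1
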