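import Mathlib

/-!
# Piece A2 of S0730 (helper75, for helper21)

A 2-group acting freely on an elementary abelian `p`-group of odd rank (`p` odd) is cyclic:
the number of subgroups of order `p` is odd, so the 2-group fixes one of them and embeds in its
(cyclic) automorphism group.
-/

set_option autoImplicit false
set_option linter.style.haveILetI false

namespace Cfsg.Agent.Lib.Helper75.S0730A2

/-- the subgroups of order `p` -/
abbrev Pts (K : Type*) [Group K] (p : ℕ) : Type _ := {P : Subgroup K // Nat.card P = p}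

/-- the action of `H` on the subgroups of order `p` -/
@[reducible] def ptsAction {H K : Type*} [Group H] [Group K] (p : ℕ) (φ : H →* MulAut K) :
    MulAction H (Pts K p) where
  smul h P := ⟨P.1.map (φ h).toMonoidHom, by
    rw [Subgroup.card_map_of_injective (φ h).injective]
    exact P.2⟩
  one_smul P := by
    apply Subtype.ext
    show P.1.map (φ 1).toMonoidHom = P.1
    rw [map_one]
    exact Subgroup.map_id P.1
  mul_smul g h P := by
    apply Subtype.ext
    show P.1.map (φ (g * h)).toMonoidHom = (P.1.map (φ h).toMonoidHom).map (φ g).toMonoidHom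
    rw [Subgroup.map_map, map_mul]
    rfl

theorem geom_aux (p : ℕ) (hp : 1 ≤ p) (n : ℕ) :
    (∑ i ∈ Finset.range n, p ^ i) * (p - 1) + 1 = p ^ n := by
  induction n with
  | zero => simp
  | succ n ih =>
    rw [Finset.sum_range_succ, add_mul, add_right_comm, ih, pow_succ]
    obtain ⟨q, rfl⟩ : ∃ q, p = q + 1 := ⟨p - 1, by omega⟩
    rw [Nat.add_sub_cancel]
    ring

theorem card_pts {K : Type*} [CommGroup K] [Finite K] {p f : ℕ} [Fact p.Prime]
    (hKp : ∀ x : K, x ^ p = 1) (hcard : Nat.card K = p ^ f) :
    Nat.card (Pts K p) * (p - 1) + 1 = p ^ f := by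
  classical
  have hp : p.Prime := Fact.out
  have hord : ∀ x : K, x ≠ 1 → orderOf x = p := by
    intro x hx
    have h1 : orderOf x ∣ p := orderOf_dvd_of_pow_eq_one (hKp x)
    rcases (Nat.dvd_prime hp).1 h1 with h | h
    · exact absurd (orderOf_eq_one_iff.1 h) hx
    · exact h
  let g : {x : K // x ≠ 1} → Pts K p := fun x =>
    ⟨Subgroup.zpowers x.1, by rw [Nat.card_zpowers, hord x.1 x.2]⟩
  have hfib : ∀ P : Pts K p, Nat.card {x : {x : K // x ≠ 1} // g x = P} = p - 1 := by
    intro P
    have e : {x : {x : K // x ≠ 1} // g x = P} ≃ {y : P.1 // y ≠ 1} :=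
      { toFun := fun x => ⟨⟨x.1.1, by
            have h1 : Subgroup.zpowers x.1.1 = P.1 := congrArg Subtype.val x.2
            rw [← h1]
            exact Subgroup.mem_zpowers _⟩, fun h => x.1.2 (congrArg Subtype.val h)⟩
        invFun := fun y => ⟨⟨y.1.1, fun h => y.2 (Subtype.ext h)⟩, by
            apply Subtype.ext
            show Subgroup.zpowers y.1.1 = P.1
            apply Subgroup.eq_of_le_of_card_ge
            · rw [Subgroup.zpowers_le]
              exact y.1.2
            · rw [Nat.card_zpowers, hord y.1.1 (fun h => y.2 (Subtype.ext h)), P.2]⟩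
        left_inv := fun x => rfl
        right_inv := fun y => rfl }
    rw [Nat.card_congr e]
    have h2 : Nat.card {y : P.1 // y ≠ 1} = Nat.card P.1 - 1 := by
      have : Fintype P.1 := Fintype.ofFinite _
      rw [Nat.card_eq_fintype_card, Nat.card_eq_fintype_card, Fintype.card_subtype_compl,
        Fintype.card_subtype_eq]
    rw [h2, P.2]
  have h3 : Nat.card {x : K // x ≠ 1} = p ^ f - 1 := by
    have : Fintype K := Fintype.ofFinite _
    rw [Nat.card_eq_fintype_card, Fintype.card_subtype_compl, Fintype.card_subtype_eq,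
      ← Nat.card_eq_fintype_card, hcard]
  have h4 : Nat.card {x : K // x ≠ 1} = Nat.card (Pts K p) * (p - 1) := by
    have : Fintype (Pts K p) := Fintype.ofFinite _
    rw [← Nat.card_congr (Equiv.sigmaFiberEquiv g), Nat.card_sigma]
    simp only [hfib]
    rw [Finset.sum_const, Finset.card_univ, smul_eq_mul, Nat.card_eq_fintype_card]
  have h5 : 1 ≤ p ^ f := Nat.one_le_pow _ _ hp.pos
  omega

theorem sylow_two_cyclic_of_odd_rank {H K : Type*} [Group H] [Finite H] [CommGroup K] [Finite K]
    {p f : ℕ} [Fact p.Prime] (hp2 : p ≠ 2) (hfo : Odd f) (hKp : ∀ x : K, x ^ p = 1)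
    (hcard : Nat.card K = p ^ f) (φ : H →* MulAut K)
    (hfree : ∀ (h : H) (k : K), k ≠ 1 → φ h k = k → h = 1) (T : Sylow 2 H) : IsCyclic T := by
  classical
  have hp : p.Prime := Fact.out
  have hpodd : Odd p := hp.odd_of_ne_two hp2
  -- the number of subgroups of order `p` is odd
  have hodd : Odd (Nat.card (Pts K p)) := by
    have h1 := card_pts hKp hcard
    have h2 := geom_aux p hp.pos f
    have h3 : Nat.card (Pts K p) = ∑ i ∈ Finset.range f, p ^ i := by
      have h4 : Nat.card (Pts K p) * (p - 1) = (∑ i ∈ Finset.range f, p ^ i) * (p - 1) := by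
        omega
      exact Nat.eq_of_mul_eq_mul_right (by have := hp.two_le; omega) h4
    rw [h3, Finset.odd_sum_iff_odd_card_odd]
    have h5 : (Finset.range f).filter (fun i => Odd (p ^ i)) = Finset.range f := by
      apply Finset.filter_true_of_mem
      intro i _
      exact hpodd.pow
    rw [h5, Finset.card_range]
    exact hfo
  letI := ptsAction p φ
  -- a fixed subgroup
  have hfix : (MulAction.fixedPoints (↥(T : Subgroup H)) (Pts K p)).Nonempty := by
    haveI : Fact (Nat.Prime 2) := ⟨Nat.prime_two⟩
    apply T.isPGroup'.nonempty_fixed_point_of_prime_not_dvd_card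
    intro h
    exact (Nat.not_even_iff_odd.2 hodd) (even_iff_two_dvd.2 h)
  obtain ⟨P0, hP0⟩ := hfix
  have hmem : ∀ (t : ↥(T : Subgroup H)) (x : K), x ∈ P0.1 → φ (t : H) x ∈ P0.1 := by
    intro t x hx
    have h1 : t • P0 = P0 := hP0 t
    have h2 : P0.1.map (φ (t : H)).toMonoidHom = P0.1 := congrArg Subtype.val h1
    rw [← h2]
    exact Subgroup.mem_map_of_mem _ hx
  let ρ : ↥(T : Subgroup H) →* MulAut ↥P0.1 :=
    { toFun := fun t =>
        { toFun := fun x => ⟨φ (t : H) x.1, hmem t x.1 x.2⟩
          invFun := fun x => ⟨φ ((t⁻¹ : ↥(T : Subgroup H)) : H) x.1, hmem t⁻¹ x.1 x.2⟩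
          left_inv := fun x => by
            apply Subtype.ext
            show φ ((t⁻¹ : ↥(T : Subgroup H)) : H) (φ (t : H) x.1) = x.1
            rw [Subgroup.coe_inv, map_inv, MulAut.inv_apply_self]
          right_inv := fun x => by
            apply Subtype.ext
            show φ (t : H) (φ ((t⁻¹ : ↥(T : Subgroup H)) : H) x.1) = x.1
            rw [Subgroup.coe_inv, map_inv, MulAut.apply_inv_self]
          map_mul' := fun x y => by
            apply Subtype.ext
            show φ (t : H) (x.1 * y.1) = φ (t : H) x.1 * φ (t : H) y.1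
            rw [map_mul] }
      map_one' := by
        apply MulEquiv.ext
        intro x
        apply Subtype.ext
        show φ ((1 : ↥(T : Subgroup H)) : H) x.1 = x.1
        rw [Subgroup.coe_one, map_one]
        rfl
      map_mul' := fun s t => by
        apply MulEquiv.ext
        intro x
        apply Subtype.ext
        show φ ((s * t : ↥(T : Subgroup H)) : H) x.1 = φ (s : H) (φ (t : H) x.1)
        rw [Subgroup.coe_mul, map_mul]
        rfl }
  have hρ : Function.Injective ρ := by
    rw [injective_iff_map_eq_one]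
    intro t ht
    obtain ⟨k, hk1⟩ : ∃ k : ↥P0.1, k ≠ 1 := by
      have h1 : 1 < Nat.card ↥P0.1 := by rw [P0.2]; exact hp.one_lt
      have : Nontrivial ↥P0.1 := (Finite.one_lt_card_iff_nontrivial).1 h1
      exact exists_ne 1
    have h2 : ρ t k = k := by rw [ht]; rfl
    have h3 : φ (t : H) k.1 = k.1 := congrArg Subtype.val h2
    have h4 := hfree (t : H) k.1 (fun h => hk1 (Subtype.ext h)) h3
    exact Subtype.ext h4
  haveI : IsCyclic ↥P0.1 := isCyclic_of_prime_card P0.2
  haveI : Fact (Nat.card ↥P0.1).Prime := ⟨by rw [P0.2]; exact hp⟩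
  haveI : IsCyclic (MulAut ↥P0.1) :=
    isCyclic_of_surjective (IsCyclic.mulAutMulEquiv ↥P0.1).symm
      (IsCyclic.mulAutMulEquiv ↥P0.1).symm.surjective
  exact isCyclic_of_injective ρ hρ

end Cfsg.Agent.Lib.Helper75.S0730A2
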