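import Mathlib
import Cfsg.Agent.Lib.Helper27.PslnCard
import Cfsg.Agent.Lib.Helper53.AutPSLDecomp

/-!
# Piece C of S0730 (helper75, for helper21)

A finite group with a normal subgroup of index 2 isomorphic to `PSL(2, F)`, `|F| = p ^ f` with
`p` and `f` odd, and with trivial centraliser of that subgroup, is isomorphic to `PGL(2, F)`.
-/

set_option autoImplicit false
set_option linter.style.haveILetI false

namespace Cfsg.Agent.Lib.Helper75.S0730C

open Matrix Cfsg.Agent.Lib.Helper53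

/-- the injective homomorphism `GL_2(F)/Z → Aut (PSL_2(F))` induced by `iota` -/
theorem exists_quot_hom' (F : Type*) [Field F] :
    ∃ ι : GL (Fin 2) F ⧸ Subgroup.center (GL (Fin 2) F) →*
      MulAut (Matrix.ProjectiveSpecialLinearGroup (Fin 2) F), Function.Injective ι ∧
      (∀ g : GL (Fin 2) F, (AutPSL.iota g :
        MulAut (Matrix.ProjectiveSpecialLinearGroup (Fin 2) F)) ∈ ι.range) ∧
      ∀ x, ∃ g : GL (Fin 2) F, ι x = AutPSL.iota g := by
  have hker : Subgroup.center (GL (Fin 2) F) ≤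
      (AutPSL.iota : GL (Fin 2) F →*
        MulAut (Matrix.ProjectiveSpecialLinearGroup (Fin 2) F)).ker := fun g hg =>
    MonoidHom.mem_ker.2 ((AutPSL.iota_eq_one_iff le_rfl g).2 hg)
  refine ⟨QuotientGroup.lift (Subgroup.center (GL (Fin 2) F))
    (AutPSL.iota : GL (Fin 2) F →* _) hker, ?_, fun g => ⟨QuotientGroup.mk g, rfl⟩, fun x => ?_⟩
  · rw [← MonoidHom.ker_eq_bot_iff, eq_bot_iff]
    intro x hx
    obtain ⟨g, rfl⟩ := QuotientGroup.mk_surjective x
    rw [MonoidHom.mem_ker, QuotientGroup.lift_mk] at hx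
    rw [Subgroup.mem_bot]
    exact (QuotientGroup.eq_one_iff g).2 ((AutPSL.iota_eq_one_iff le_rfl g).1 hx)
  · obtain ⟨g, rfl⟩ := QuotientGroup.mk_surjective x
    exact ⟨g, rfl⟩

/-- the injective homomorphism `PGL_2(F) → Aut (PSL_2(F))` induced by `iota` -/
theorem exists_pgl_hom' (F : Type*) [Field F] :
    ∃ ι : Matrix.ProjGenLinGroup (Fin 2) F →*
      MulAut (Matrix.ProjectiveSpecialLinearGroup (Fin 2) F), Function.Injective ι ∧
      (∀ g : GL (Fin 2) F, (AutPSL.iota g :
        MulAut (Matrix.ProjectiveSpecialLinearGroup (Fin 2) F)) ∈ ι.range) ∧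
      ∀ x, ∃ g : GL (Fin 2) F, ι x = AutPSL.iota g :=
  exists_quot_hom' F

theorem pgl_of_psl_index_two_odd {G : Type*} [Group G] [Finite G] {p f : ℕ} [Fact p.Prime]
    (hp2 : p ≠ 2) (hfo : Odd f) (F : Type) [Field F] [Fintype F] (hF : Fintype.card F = p ^ f)
    (h5 : 5 ≤ p ^ f) (M : Subgroup G) [M.Normal] (hidx : M.index = 2)
    (e : M ≃* Matrix.ProjectiveSpecialLinearGroup (Fin 2) F)
    (hcent : ∀ g : G, (∀ m ∈ M, g * m = m * g) → g = 1) :
    Nonempty (G ≃* Matrix.ProjGenLinGroup (Fin 2) F) := by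
  classical
  have hp : p.Prime := Fact.out
  have hchar : CharP F p := Cfsg.Agent.Lib.Helper27.PslOutInst.charP_of_card hF
  have hdec := (AutPSL.decomp_iff (n := 2) (F := F)).1
    (AutDec.decomp_two p (by rw [hF]; omega))
  -- the embedding of `PGL` into the automorphism group
  obtain ⟨ι, hι, hmemD, hιrep⟩ := exists_pgl_hom' F
  -- normality of the range
  have hconjΦ : ∀ (σ : F ≃+* F) (g : GL (Fin 2) F),
      (AutPSL.Phi σ : MulAut (Matrix.ProjectiveSpecialLinearGroup (Fin 2) F)) * AutPSL.iota g *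
        (AutPSL.Phi σ)⁻¹ = AutPSL.iota (GeneralLinearGroup.map (σ : F →+* F) g) := by
    intro σ g
    rw [AutPSL.Phi_mul_iota, mul_inv_cancel_right]
  have hconjΓ : ∀ g : GL (Fin 2) F,
      (AutPSL.Gam : MulAut (Matrix.ProjectiveSpecialLinearGroup (Fin 2) F)) * AutPSL.iota g *
        AutPSL.Gam⁻¹ = AutPSL.iota (AutPSL.gti g) := by
    intro g
    rw [AutPSL.Gam_mul_iota, mul_inv_cancel_right]
  have hnorm : ∀ (β : MulAut (Matrix.ProjectiveSpecialLinearGroup (Fin 2) F))
      (g : GL (Fin 2) F), β * AutPSL.iota g * β⁻¹ ∈ ι.range := by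
    intro β g
    obtain ⟨h, σ, hβ | hβ⟩ := hdec β
    · have h1 : β * AutPSL.iota g * β⁻¹ =
          AutPSL.iota (h * GeneralLinearGroup.map (σ : F →+* F) g * h⁻¹) := by
        rw [hβ, map_mul, map_mul, map_inv, ← hconjΦ]
        group
      rw [h1]
      exact hmemD _
    · have h1 : β * AutPSL.iota g * β⁻¹ =
          AutPSL.iota (h * GeneralLinearGroup.map (σ : F →+* F) (AutPSL.gti g) * h⁻¹) := by
        rw [hβ, map_mul, map_mul, map_inv, ← hconjΦ, ← hconjΓ]
        group
      rw [h1]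
      exact hmemD _
  haveI hDn : (ι.range).Normal := ⟨by
    rintro _ ⟨x, rfl⟩ β
    obtain ⟨g, hg⟩ := hιrep x
    rw [hg]
    exact hnorm β g⟩
  -- cardinalities
  have hodd : Odd (p ^ f) := (hp.odd_of_ne_two hp2).pow
  have hgcd : Nat.gcd 2 (p ^ f - 1) = 2 := by
    have h2 : 2 ∣ p ^ f - 1 := by
      obtain ⟨k, hk⟩ := hodd
      omega
    exact Nat.gcd_eq_left h2
  have h1 : Nat.card (Matrix.ProjGenLinGroup (Fin 2) F)
      = 2 * Nat.card (Matrix.ProjectiveSpecialLinearGroup (Fin 2) F) := by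
    have := Cfsg.Agent.Lib.Helper27.PslnCard.card_pgl_psl hF 2 (by norm_num)
    rw [hgcd] at this
    exact this
  have h2 : Nat.card (MulAut (Matrix.ProjectiveSpecialLinearGroup (Fin 2) F))
      = f * Nat.card (Matrix.ProjGenLinGroup (Fin 2) F) :=
    Cfsg.Agent.Lib.Helper27.PslnCard.card_aut_psl2 (p := p) (f := f) hF (by omega)
  have h3 : Nat.card G = 2 * Nat.card (Matrix.ProjectiveSpecialLinearGroup (Fin 2) F) := by
    rw [← M.index_mul_card, hidx, Nat.card_congr e.toEquiv]
  haveI : Finite (Matrix.ProjGenLinGroup (Fin 2) F) := by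
    unfold Matrix.ProjGenLinGroup
    infer_instance
  have hf0 : 0 < f := hfo.pos
  haveI : Finite (MulAut (Matrix.ProjectiveSpecialLinearGroup (Fin 2) F)) :=
    Nat.finite_of_card_ne_zero (by
      rw [h2]
      exact (Nat.mul_pos hf0 Nat.card_pos).ne')
  have hcardD : Nat.card ι.range = Nat.card (Matrix.ProjGenLinGroup (Fin 2) F) :=
    (Nat.card_congr (MonoidHom.ofInjective hι).toEquiv).symm
  have hindex : (ι.range).index = f := by
    have h4 := Subgroup.card_mul_index ι.range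
    rw [hcardD, h2, mul_comm] at h4
    exact Nat.eq_of_mul_eq_mul_right Nat.card_pos h4
  -- the conjugation map
  obtain ⟨γ, hγ⟩ : ∃ γ : G →* MulAut (Matrix.ProjectiveSpecialLinearGroup (Fin 2) F),
      ∀ (g : G) (x : Matrix.ProjectiveSpecialLinearGroup (Fin 2) F),
        γ g x = e (MulAut.conjNormal g (e.symm x)) :=
    ⟨(MulAut.congr e).toMonoidHom.comp (MulAut.conjNormal : G →* MulAut M), fun _ _ => rfl⟩
  have hγinj : Function.Injective γ := by
    rw [injective_iff_map_eq_one]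
    intro g hg
    apply hcent
    intro m hm
    have h5 : γ g (e ⟨m, hm⟩) = e ⟨m, hm⟩ := by rw [hg]; rfl
    rw [hγ, MulEquiv.symm_apply_apply] at h5
    have h6 := congrArg Subtype.val (e.injective h5)
    rw [MulAut.conjNormal_apply] at h6
    calc g * m = (g * m * g⁻¹) * g := by group
      _ = m * g := by rw [h6]
  have hγM : ∀ m ∈ M, γ m ∈ ι.range := by
    intro m hm
    obtain ⟨s, hs⟩ := QuotientGroup.mk_surjective (e ⟨m, hm⟩)
    have h7 : γ m = MulAut.conj (e ⟨m, hm⟩) := by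
      apply MulEquiv.ext
      intro x
      rw [hγ, MulAut.conj_apply]
      have h8 : MulAut.conjNormal m (e.symm x) = ⟨m, hm⟩ * e.symm x * ⟨m, hm⟩⁻¹ := by
        apply Subtype.ext
        rw [MulAut.conjNormal_apply]
        rfl
      rw [h8, map_mul, map_mul, MulEquiv.apply_symm_apply, map_inv]
    rw [h7, ← hs, AutPSL.conj_mk_eq_iota]
    exact hmemD _
  have hγD : ∀ g : G, γ g ∈ ι.range := by
    intro g
    have h9 : γ g ^ 2 ∈ ι.range := by
      rw [← map_pow, sq]
      exact hγM _ (Subgroup.mul_self_mem_of_index_two hidx g)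
    have h10 : γ g ^ f ∈ ι.range := by
      have := Subgroup.pow_index_mem ι.range (γ g)
      rwa [hindex] at this
    obtain ⟨j, hj⟩ := hfo
    have h12 : γ g ^ (2 * j + 1) = (γ g ^ 2) ^ j * γ g := by rw [pow_succ, pow_mul]
    have h11 : γ g = ((γ g ^ 2) ^ j)⁻¹ * γ g ^ f := by
      rw [hj, h12, inv_mul_cancel_left]
    rw [h11]
    exact ι.range.mul_mem (ι.range.inv_mem (ι.range.pow_mem h9 j)) h10
  have hcod : Function.Bijective (γ.codRestrict ι.range hγD) := by
    rw [Nat.bijective_iff_injective_and_card]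
    refine ⟨fun x y hxy => hγinj (congrArg Subtype.val hxy), ?_⟩
    rw [h3, hcardD, h1]
  exact ⟨(MulEquiv.ofBijective _ hcod).trans (MonoidHom.ofInjective hι).symm⟩

end Cfsg.Agent.Lib.Helper75.S0730C
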