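import Mathlib
import Cfsg.Agent.Lib.Helper72.S3Defs

/-!
# S4305, piece KIND: `t` inverts `R0`, and `R0`, `R0^f`, `R0^{f²}` are independent
-/

set_option autoImplicit false

namespace Cfsg.Agent.Lib.Helper75.S3F

open Cfsg.Agent.Lib.Helper72.S3F

universe u

section Gen

variable {Γ : Type*} [Group Γ]

/-- generic `[H, g]` -/
def kCm (H : Subgroup Γ) (g : Γ) : Subgroup Γ :=
  Subgroup.closure {x | ∃ u ∈ H, x = u⁻¹ * (g * u * g⁻¹)}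

/-- generic `C_R([H, g])` -/
def kR0 (H R : Subgroup Γ) (g : Γ) : Subgroup Γ :=
  R ⊓ Subgroup.centralizer (kCm H g : Set Γ)

theorem mem_kR0 {H R : Subgroup Γ} {g u : Γ} :
    u ∈ kR0 H R g ↔ u ∈ R ∧ ∀ y ∈ kCm H g, y * u = u * y := by
  unfold kR0
  rw [Subgroup.mem_inf, Subgroup.mem_centralizer_iff]
  rfl

theorem kCm_le (H : Subgroup Γ) (g : Γ) (hg : ∀ x ∈ H, g * x * g⁻¹ ∈ H) : kCm H g ≤ H := by
  unfold kCm
  rw [Subgroup.closure_le]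
  rintro x ⟨u, hu, rfl⟩
  exact H.mul_mem (H.inv_mem hu) (hg u hu)

theorem kCm_mul_le (H : Subgroup Γ) (a b : Γ) (hb : ∀ x ∈ H, b * x * b⁻¹ ∈ H) :
    kCm H (a * b) ≤ kCm H b ⊔ kCm H a := by
  unfold kCm
  rw [Subgroup.closure_le]
  rintro x ⟨u, hu, rfl⟩
  have e : u⁻¹ * (a * b * u * (a * b)⁻¹) =
      (u⁻¹ * (b * u * b⁻¹)) * ((b * u * b⁻¹)⁻¹ * (a * (b * u * b⁻¹) * a⁻¹)) := by group
  rw [e]
  exact Subgroup.mul_mem _ (Subgroup.mem_sup_left (Subgroup.subset_closure ⟨u, hu, rfl⟩))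
    (Subgroup.mem_sup_right (Subgroup.subset_closure ⟨b * u * b⁻¹, hb u hu, rfl⟩))

theorem kCm_conj_mem (H : Subgroup Γ) (g : Γ) {e : Γ} (he : e ∈ H) {y : Γ}
    (hy : y ∈ kCm H g) : e * y * e⁻¹ ∈ kCm H g := by
  unfold kCm at hy ⊢
  induction hy using Subgroup.closure_induction with
  | mem y hy =>
    obtain ⟨x, hx, rfl⟩ := hy
    have h1 : e * (x⁻¹ * (g * x * g⁻¹)) * e⁻¹ =
        ((x * e⁻¹)⁻¹ * (g * (x * e⁻¹) * g⁻¹)) * ((e⁻¹)⁻¹ * (g * e⁻¹ * g⁻¹))⁻¹ := by group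
    rw [h1]
    exact Subgroup.mul_mem _
      (Subgroup.subset_closure ⟨x * e⁻¹, H.mul_mem hx (H.inv_mem he), rfl⟩)
      (Subgroup.inv_mem _ (Subgroup.subset_closure ⟨e⁻¹, H.inv_mem he, rfl⟩))
  | one =>
    have : e * 1 * e⁻¹ = 1 := by group
    rw [this]
    exact Subgroup.one_mem _
  | mul y z _ _ ihy ihz =>
    have : e * (y * z) * e⁻¹ = (e * y * e⁻¹) * (e * z * e⁻¹) := by group
    rw [this]
    exact Subgroup.mul_mem _ ihy ihz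
  | inv y _ ihy =>
    have : e * y⁻¹ * e⁻¹ = (e * y * e⁻¹)⁻¹ := by group
    rw [this]
    exact Subgroup.inv_mem _ ihy

theorem kCm_map_conj (H : Subgroup Γ) (g a : Γ) (ha : ∀ x ∈ H, a * x * a⁻¹ ∈ H) {y : Γ}
    (hy : y ∈ kCm H g) : a * y * a⁻¹ ∈ kCm H (a * g * a⁻¹) := by
  unfold kCm at hy ⊢
  induction hy using Subgroup.closure_induction with
  | mem y hy =>
    obtain ⟨x, hx, rfl⟩ := hy
    have h1 : a * (x⁻¹ * (g * x * g⁻¹)) * a⁻¹ =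
        (a * x * a⁻¹)⁻¹ * ((a * g * a⁻¹) * (a * x * a⁻¹) * (a * g * a⁻¹)⁻¹) := by group
    rw [h1]
    exact Subgroup.subset_closure ⟨a * x * a⁻¹, ha x hx, rfl⟩
  | one =>
    have : a * 1 * a⁻¹ = 1 := by group
    rw [this]
    exact Subgroup.one_mem _
  | mul y z _ _ ihy ihz =>
    have : a * (y * z) * a⁻¹ = (a * y * a⁻¹) * (a * z * a⁻¹) := by group
    rw [this]
    exact Subgroup.mul_mem _ ihy ihz
  | inv y _ ihy =>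
    have : a * y⁻¹ * a⁻¹ = (a * y * a⁻¹)⁻¹ := by group
    rw [this]
    exact Subgroup.inv_mem _ ihy

/-- conjugating `C_R([H,g])` by an element normalising `R` and (its inverse) `H` -/
theorem kR0_conj (H R : Subgroup Γ) (g a : Γ) (haR : ∀ x ∈ R, a * x * a⁻¹ ∈ R)
    (haH : ∀ x ∈ H, a⁻¹ * x * a ∈ H) {u : Γ} (hu : u ∈ kR0 H R g) :
    a * u * a⁻¹ ∈ kR0 H R (a * g * a⁻¹) := by
  rw [mem_kR0] at hu ⊢
  refine ⟨haR u hu.1, fun y hy => ?_⟩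
  have h1 : a⁻¹ * y * a⁻¹⁻¹ ∈ kCm H (a⁻¹ * (a * g * a⁻¹) * a⁻¹⁻¹) :=
    kCm_map_conj H (a * g * a⁻¹) a⁻¹ (fun x hx => by rw [inv_inv]; exact haH x hx) hy
  have e : a⁻¹ * (a * g * a⁻¹) * a⁻¹⁻¹ = g := by group
  rw [e, inv_inv] at h1
  have h2 := hu.2 _ h1
  calc y * (a * u * a⁻¹) = a * ((a⁻¹ * y * a) * u) * a⁻¹ := by group
    _ = a * (u * (a⁻¹ * y * a)) * a⁻¹ := by rw [h2]
    _ = a * u * a⁻¹ * y := by group

/-- `C_R([H,g])` is normalised by `H` -/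
theorem kR0_normal (H R : Subgroup Γ) (g : Γ) (hnH : ∀ h ∈ H, ∀ x ∈ R, h * x * h⁻¹ ∈ R)
    {e : Γ} (he : e ∈ H) {u : Γ} (hu : u ∈ kR0 H R g) : e * u * e⁻¹ ∈ kR0 H R g := by
  rw [mem_kR0] at hu ⊢
  refine ⟨hnH e he u hu.1, fun y hy => ?_⟩
  have h1 : e⁻¹ * y * e⁻¹⁻¹ ∈ kCm H g := kCm_conj_mem H g (H.inv_mem he) hy
  rw [inv_inv] at h1
  have h2 := hu.2 _ h1
  calc y * (e * u * e⁻¹) = e * ((e⁻¹ * y * e) * u) * e⁻¹ := by group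
    _ = e * (u * (e⁻¹ * y * e)) * e⁻¹ := by rw [h2]
    _ = e * u * e⁻¹ * y := by group

/-- two of the subgroups `C_R([H,a])`, `C_R([H,b])` meet trivially when `[H, ab] R = H` -/
theorem kR0_inf (H R : Subgroup Γ) (a b : Γ) (hb : ∀ x ∈ H, b * x * b⁻¹ ∈ H)
    (hle : R ≤ H) (hcomm : ∀ x ∈ R, ∀ y ∈ R, x * y = y * x)
    (hF : kCm H (a * b) ⊔ R = H) (hcen : ∀ x ∈ H, (∀ y ∈ H, x * y = y * x) → x = 1)
    {u : Γ} (hua : u ∈ kR0 H R a) (hub : u ∈ kR0 H R b) : u = 1 := by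
  rw [mem_kR0] at hua hub
  apply hcen u (hle hua.1)
  have h1 : kCm H a ≤ Subgroup.centralizer ({u} : Set Γ) := by
    intro y hy
    rw [Subgroup.mem_centralizer_iff]
    intro h hh
    rw [Set.mem_singleton_iff] at hh
    rw [hh]
    exact (hua.2 y hy).symm
  have h2 : kCm H b ≤ Subgroup.centralizer ({u} : Set Γ) := by
    intro y hy
    rw [Subgroup.mem_centralizer_iff]
    intro h hh
    rw [Set.mem_singleton_iff] at hh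
    rw [hh]
    exact (hub.2 y hy).symm
  have h3 : R ≤ Subgroup.centralizer ({u} : Set Γ) := by
    intro y hy
    rw [Subgroup.mem_centralizer_iff]
    intro h hh
    rw [Set.mem_singleton_iff] at hh
    rw [hh]
    exact hcomm u hua.1 y hy
  have h4 : H ≤ Subgroup.centralizer ({u} : Set Γ) := by
    rw [← hF]
    exact sup_le ((kCm_mul_le H a b hb).trans (sup_le h2 h1)) h3
  intro y hy
  have h5 := h4 hy
  rw [Subgroup.mem_centralizer_iff] at h5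
  exact h5 u rfl

/-- independence of three subgroups of the form `C_R([H,a_i])` -/
theorem kR0_indep (H R : Subgroup Γ) (a₀ a₁ a₂ : Γ)
    (hY : kCm H a₀ ≤ H)
    (hnH : ∀ h ∈ H, ∀ x ∈ R, h * x * h⁻¹ ∈ R)
    (h01 : ∀ u, u ∈ kR0 H R a₀ → u ∈ kR0 H R a₁ → u = 1)
    (h02 : ∀ u, u ∈ kR0 H R a₀ → u ∈ kR0 H R a₂ → u = 1)
    (h12 : ∀ u, u ∈ kR0 H R a₁ → u ∈ kR0 H R a₂ → u = 1)
    {u₀ u₁ u₂ : Γ} (hu₀ : u₀ ∈ kR0 H R a₀) (hu₁ : u₁ ∈ kR0 H R a₁) (hu₂ : u₂ ∈ kR0 H R a₂)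
    (h : u₀ = u₁ * u₂) : u₀ = 1 := by
  have hu₁1 : u₁ = 1 := by
    apply h01 u₁ _ hu₁
    rw [mem_kR0]
    refine ⟨(mem_kR0.1 hu₁).1, fun y hy => ?_⟩
    have hyH : y ∈ H := hY hy
    have hy0 : y * u₀ = u₀ * y := (mem_kR0.1 hu₀).2 y hy
    have hc1 : u₁⁻¹ * (y * u₁ * y⁻¹) ∈ kR0 H R a₁ :=
      Subgroup.mul_mem _ (Subgroup.inv_mem _ hu₁) (kR0_normal H R a₁ hnH hyH hu₁)
    have hc2 : u₁⁻¹ * (y * u₁ * y⁻¹) ∈ kR0 H R a₂ := by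
      have e : u₁⁻¹ * (y * u₁ * y⁻¹) = u₂ * (y * u₂⁻¹ * y⁻¹) := by
        have h1 : y * (u₁ * u₂) = (u₁ * u₂) * y := by rw [← h]; exact hy0
        calc u₁⁻¹ * (y * u₁ * y⁻¹) = u₁⁻¹ * (y * (u₁ * u₂)) * u₂⁻¹ * y⁻¹ := by group
          _ = u₁⁻¹ * ((u₁ * u₂) * y) * u₂⁻¹ * y⁻¹ := by rw [h1]
          _ = u₂ * (y * u₂⁻¹ * y⁻¹) := by group
      rw [e]
      exact Subgroup.mul_mem _ hu₂ (kR0_normal H R a₂ hnH hyH (Subgroup.inv_mem _ hu₂))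
    have hc := h12 _ hc1 hc2
    calc y * u₁ = u₁ * (u₁⁻¹ * (y * u₁ * y⁻¹)) * y := by group
      _ = u₁ * y := by rw [hc, mul_one]
  rw [hu₁1, one_mul] at h
  apply h02 u₀ hu₀
  rw [h]
  exact hu₂

end Gen

/-- KIND -/
theorem kind (hf1 : F1Stmt.{u}) : KindStmt.{u} := by
  intro V _ _ H R f t hAct hMax hC
  have hF1 : kCm H f ⊔ R = H := hf1 V H R f t hAct hMax hC
  obtain ⟨hf3, ht2, htf⟩ := hAct.s3
  have hf3' : f * f * f = 1 := by rw [← hf3, pow_succ, pow_two]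
  have ht2' : t * t = 1 := by rw [← ht2, pow_two]
  have hfinv : f⁻¹ = f * f := inv_eq_of_mul_eq_one_right (by rw [← mul_assoc]; exact hf3')
  have htinv : t⁻¹ = t := inv_eq_of_mul_eq_one_right ht2'
  have hff : f⁻¹ * f⁻¹ = f := by
    rw [hfinv]
    calc f * f * (f * f) = f * (f * f * f) := by group
      _ = f := by rw [hf3', mul_one]
  -- normalisation facts
  have hfH := hAct.fH
  have htH := hAct.tH
  have hfH' : ∀ x ∈ H, f⁻¹ * x * f ∈ H := by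
    intro x hx
    have h1 := hfH _ (hfH x hx)
    have e : f * (f * x * f⁻¹) * f⁻¹ = f⁻¹ * x * f := by
      calc f * (f * x * f⁻¹) * f⁻¹ = (f * f) * x * (f⁻¹ * f⁻¹) := by group
        _ = f⁻¹ * x * f := by rw [hff, ← hfinv]
    rwa [e] at h1
  have htH' : ∀ x ∈ H, t⁻¹ * x * t ∈ H := by
    intro x hx
    have h1 := htH x hx
    rw [htinv] at h1 ⊢
    exact h1
  have ht1H : ∀ x ∈ H, (f * t * f⁻¹) * x * (f * t * f⁻¹)⁻¹ ∈ H := by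
    intro x hx
    have h1 := hfH _ (htH _ (hfH' x hx))
    have e : f * (t * (f⁻¹ * x * f) * t⁻¹) * f⁻¹ = (f * t * f⁻¹) * x * (f * t * f⁻¹)⁻¹ := by
      group
    rwa [e] at h1
  have ht2H : ∀ x ∈ H, (f * (f * t * f⁻¹) * f⁻¹) * x * (f * (f * t * f⁻¹) * f⁻¹)⁻¹ ∈ H := by
    intro x hx
    have h1 := hfH _ (ht1H _ (hfH' x hx))
    have e : f * ((f * t * f⁻¹) * (f⁻¹ * x * f) * (f * t * f⁻¹)⁻¹) * f⁻¹ =
        (f * (f * t * f⁻¹) * f⁻¹) * x * (f * (f * t * f⁻¹) * f⁻¹)⁻¹ := by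
      simp only [mul_inv_rev, inv_inv, mul_assoc]
    rwa [e] at h1
  -- the three products
  have p01 : t * (f * t * f⁻¹) = f := by
    calc t * (f * t * f⁻¹) = (t * f * t⁻¹) * (t * t) * f⁻¹ := by group
      _ = f⁻¹ * f⁻¹ := by rw [htf, ht2', mul_one]
      _ = f := hff
  have p12 : (f * t * f⁻¹) * (f * (f * t * f⁻¹) * f⁻¹) = f := by
    calc (f * t * f⁻¹) * (f * (f * t * f⁻¹) * f⁻¹) = f * (t * (f * t * f⁻¹)) * f⁻¹ := by group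
      _ = f := by rw [p01]; group
  have p20 : (f * (f * t * f⁻¹) * f⁻¹) * t = f := by
    calc (f * (f * t * f⁻¹) * f⁻¹) * t = f * f * (t * (f⁻¹ * f⁻¹) * t⁻¹) * (t * t) := by group
      _ = f * f * (t * f * t⁻¹) := by rw [hff, ht2', mul_one]
      _ = f := by rw [htf]; group
  -- pairwise intersections
  have h01 : ∀ u, u ∈ kR0 H R t → u ∈ kR0 H R (f * t * f⁻¹) → u = 1 := by
    intro u h0 h1
    exact kR0_inf H R t (f * t * f⁻¹) ht1H hMax.le hMax.comm (by rw [p01]; exact hF1)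
      hMax.cen h0 h1
  have h12 : ∀ u, u ∈ kR0 H R (f * t * f⁻¹) → u ∈ kR0 H R (f * (f * t * f⁻¹) * f⁻¹) →
      u = 1 := by
    intro u h1 h2
    exact kR0_inf H R (f * t * f⁻¹) (f * (f * t * f⁻¹) * f⁻¹) ht2H hMax.le hMax.comm
      (by rw [p12]; exact hF1) hMax.cen h1 h2
  have h02 : ∀ u, u ∈ kR0 H R t → u ∈ kR0 H R (f * (f * t * f⁻¹) * f⁻¹) → u = 1 := by
    intro u h0 h2
    exact kR0_inf H R (f * (f * t * f⁻¹) * f⁻¹) t htH hMax.le hMax.comm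
      (by rw [p20]; exact hF1) hMax.cen h2 h0
  -- independence
  have hindep : ∀ u₀ ∈ R0 H R t, ∀ u₁ ∈ R0 H R t, ∀ u₂ ∈ R0 H R t,
      u₀ = (f * u₁ * f⁻¹) * (f ^ 2 * u₂ * (f ^ 2)⁻¹) → u₀ = 1 := by
    intro u₀ hu₀ u₁ hu₁ u₂ hu₂ h
    have hu₀' : u₀ ∈ kR0 H R t := hu₀
    have hu₁' : u₁ ∈ kR0 H R t := hu₁
    have hu₂' : u₂ ∈ kR0 H R t := hu₂
    have hv₁ : f * u₁ * f⁻¹ ∈ kR0 H R (f * t * f⁻¹) := kR0_conj H R t f hMax.fR hfH' hu₁'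
    have hv₂ : f * (f * u₂ * f⁻¹) * f⁻¹ ∈ kR0 H R (f * (f * t * f⁻¹) * f⁻¹) :=
      kR0_conj H R _ f hMax.fR hfH' (kR0_conj H R t f hMax.fR hfH' hu₂')
    have e : f ^ 2 * u₂ * (f ^ 2)⁻¹ = f * (f * u₂ * f⁻¹) * f⁻¹ := by
      simp only [pow_two, mul_inv_rev, mul_assoc]
    rw [e] at h
    exact kR0_indep H R t (f * t * f⁻¹) (f * (f * t * f⁻¹) * f⁻¹) (kCm_le H t htH) hMax.nH
      h01 h02 h12 hu₀' hv₁ hv₂ h
  refine ⟨?_, hindep⟩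
  -- `t` inverts `R0`
  intro u hu
  have hu' : u ∈ kR0 H R t := hu
  have htu : t * u * t⁻¹ ∈ kR0 H R t := by
    have h1 := kR0_conj H R t t hMax.tR htH' hu'
    have e : t * t * t⁻¹ = t := by group
    rwa [e] at h1
  have huR : u ∈ R := (mem_kR0.1 hu').1
  have htuR : t * u * t⁻¹ ∈ R := hMax.tR u huR
  -- e := u * (t u t⁻¹)
  have heR0 : u * (t * u * t⁻¹) ∈ kR0 H R t := Subgroup.mul_mem _ hu' htu
  have heR : u * (t * u * t⁻¹) ∈ R := (mem_kR0.1 heR0).1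
  have het : t * (u * (t * u * t⁻¹)) * t⁻¹ = u * (t * u * t⁻¹) := by
    calc t * (u * (t * u * t⁻¹)) * t⁻¹ = (t * u * t⁻¹) * ((t * t) * u * (t * t)⁻¹) := by group
      _ = (t * u * t⁻¹) * u := by rw [ht2']; group
      _ = u * (t * u * t⁻¹) := hMax.comm _ htuR _ huR
  obtain ⟨e, he⟩ : ∃ e, e = u * (t * u * t⁻¹) := ⟨_, rfl⟩
  rw [← he] at heR0 heR het
  have he1R : f * e * f⁻¹ ∈ R := hMax.fR e heR
  have he2R : f * (f * e * f⁻¹) * f⁻¹ ∈ R := hMax.fR _ he1R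
  have hnR : e * (f * e * f⁻¹) * (f * (f * e * f⁻¹) * f⁻¹) ∈ R :=
    R.mul_mem (R.mul_mem heR he1R) he2R
  have hnf : f * (e * (f * e * f⁻¹) * (f * (f * e * f⁻¹) * f⁻¹)) * f⁻¹ =
      e * (f * e * f⁻¹) * (f * (f * e * f⁻¹) * f⁻¹) := by
    have e3 : f * (f * (f * e * f⁻¹) * f⁻¹) * f⁻¹ = e := by
      calc f * (f * (f * e * f⁻¹) * f⁻¹) * f⁻¹ = (f * f * f) * e * (f * f * f)⁻¹ := by group
        _ = e := by rw [hf3']; group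
    calc f * (e * (f * e * f⁻¹) * (f * (f * e * f⁻¹) * f⁻¹)) * f⁻¹
        = (f * e * f⁻¹) * (f * (f * e * f⁻¹) * f⁻¹) * (f * (f * (f * e * f⁻¹) * f⁻¹) * f⁻¹) := by
          group
      _ = ((f * e * f⁻¹) * (f * (f * e * f⁻¹) * f⁻¹)) * e := by rw [e3]
      _ = e * ((f * e * f⁻¹) * (f * (f * e * f⁻¹) * f⁻¹)) :=
          hMax.comm _ (R.mul_mem he1R he2R) _ heR
      _ = e * (f * e * f⁻¹) * (f * (f * e * f⁻¹) * f⁻¹) := by group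
  have hnt : t * (e * (f * e * f⁻¹) * (f * (f * e * f⁻¹) * f⁻¹)) * t⁻¹ =
      e * (f * e * f⁻¹) * (f * (f * e * f⁻¹) * f⁻¹) := by
    have e2form : f * (f * e * f⁻¹) * f⁻¹ = f⁻¹ * e * f := by
      calc f * (f * e * f⁻¹) * f⁻¹ = (f * f) * e * (f⁻¹ * f⁻¹) := by group
        _ = f⁻¹ * e * f := by rw [hff, ← hfinv]
    have t1 : t * (f * e * f⁻¹) * t⁻¹ = f * (f * e * f⁻¹) * f⁻¹ := by
      rw [e2form]
      calc t * (f * e * f⁻¹) * t⁻¹ = (t * f * t⁻¹) * (t * e * t⁻¹) * (t * f * t⁻¹)⁻¹ := by group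
        _ = f⁻¹ * e * f := by rw [htf, het, inv_inv]
    have t2 : t * (f * (f * e * f⁻¹) * f⁻¹) * t⁻¹ = f * e * f⁻¹ := by
      rw [e2form]
      calc t * (f⁻¹ * e * f) * t⁻¹ = (t * f * t⁻¹)⁻¹ * (t * e * t⁻¹) * (t * f * t⁻¹) := by group
        _ = f * e * f⁻¹ := by rw [htf, het, inv_inv]
    calc t * (e * (f * e * f⁻¹) * (f * (f * e * f⁻¹) * f⁻¹)) * t⁻¹
        = (t * e * t⁻¹) * (t * (f * e * f⁻¹) * t⁻¹) * (t * (f * (f * e * f⁻¹) * f⁻¹) * t⁻¹) := by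
          group
      _ = e * (f * (f * e * f⁻¹) * f⁻¹) * (f * e * f⁻¹) := by rw [het, t1, t2]
      _ = e * ((f * (f * e * f⁻¹) * f⁻¹) * (f * e * f⁻¹)) := by group
      _ = e * ((f * e * f⁻¹) * (f * (f * e * f⁻¹) * f⁻¹)) := by
          rw [hMax.comm _ he2R _ he1R]
      _ = e * (f * e * f⁻¹) * (f * (f * e * f⁻¹) * f⁻¹) := by group
  have hn1 : e * (f * e * f⁻¹) * (f * (f * e * f⁻¹) * f⁻¹) = 1 :=
    hAct.fpf _ (hMax.le hnR) hnf hnt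
  have he1 : e = 1 := by
    apply hindep e heR0 e⁻¹ (Subgroup.inv_mem _ heR0) e⁻¹ (Subgroup.inv_mem _ heR0)
    have h1 : e = (f * (f * e * f⁻¹) * f⁻¹)⁻¹ * (f * e * f⁻¹)⁻¹ := by
      calc e = e * (f * e * f⁻¹) * (f * (f * e * f⁻¹) * f⁻¹) *
            ((f * (f * e * f⁻¹) * f⁻¹)⁻¹ * (f * e * f⁻¹)⁻¹) := by group
        _ = (f * (f * e * f⁻¹) * f⁻¹)⁻¹ * (f * e * f⁻¹)⁻¹ := by rw [hn1, one_mul]
    have h2 : (f * (f * e * f⁻¹) * f⁻¹)⁻¹ * (f * e * f⁻¹)⁻¹ =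
        (f * e * f⁻¹)⁻¹ * (f * (f * e * f⁻¹) * f⁻¹)⁻¹ :=
      hMax.comm _ (R.inv_mem he2R) _ (R.inv_mem he1R)
    rw [h2] at h1
    have h3 : (f * e * f⁻¹)⁻¹ * (f * (f * e * f⁻¹) * f⁻¹)⁻¹ =
        (f * e⁻¹ * f⁻¹) * (f ^ 2 * e⁻¹ * (f ^ 2)⁻¹) := by
      simp only [pow_two, mul_inv_rev, inv_inv, mul_assoc]
    rw [h3] at h1
    exact h1
  rw [he1] at he
  exact eq_inv_of_mul_eq_one_right he.symm

end Cfsg.Agent.Lib.Helper75.S3F
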