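import Cfsg.Agent.Lib.Helper98.T73Defs
import Cfsg.Agent.Lib.Helper96.SpTIOdd
import Cfsg.Agent.Lib.Helper98.O72TIOdd

/-!
Project T73 (S5973, helper98), piece RTIODD: invariant totally isotropic subspaces of
`range (g - 1)` of dimension `i * b` (`i` odd), bridging to the bilinear-form libraries
(`Helper96.Sp` when `2 = 0`, `Helper98.O72` otherwise).
-/

set_option autoImplicit false

namespace Cfsg.Agent.Lib.Helper98.T73

open Cfsg.Agent.Lib.Helper47 Module Polynomial

universe u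

variable {F : Type u} [Field F] [Fintype F] {V : Type u} [AddCommGroup V] [Module F V]
  [FiniteDimensional F V] {Q : V → F} {B : V → V → F}

/-- RTIODD -/
theorem rti_odd (hQ : IsQuad Q B) (hnd : Nondeg B) (p : ℕ) [Fact p.Prime] [CharP F p]
    (r : ℕ) (hr : r.Prime) (hr2 : r ≠ 2) (hrp : r ≠ p) (g : Module.End F V) (hgQ : QI Q g)
    (hg : g ^ r = 1) (hodd : Odd (orderOf ((Fintype.card F : ℕ) : ZMod r))) (b : ℕ)
    (hb : 2 * (orderOf ((Fintype.card F : ℕ) : ZMod r) * b)
      ≤ finrank F (LinearMap.range (g - 1))) :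
    ∃ U : Submodule F V, U ≤ LinearMap.range (g - 1) ∧ U.map g ≤ U ∧
      (∀ x ∈ U, ∀ y ∈ U, B x y = 0) ∧
      finrank F U = orderOf ((Fintype.card F : ℕ) : ZMod r) * b := by
  have hB := hQ.form
  have hp : p.Prime := Fact.out
  obtain ⟨B', hB'⟩ : ∃ B' : LinearMap.BilinForm F V, ∀ x y, B' x y = B x y :=
    ⟨LinearMap.mk₂ F B hB.add_left (fun c x y => hB.smul_left c x y)
      (fun x y z => hB.add_right x y z) (fun c x y => hB.smul_right c x y), fun _ _ => rfl⟩
  have hND : Cfsg.Agent.Lib.Helper96.Sp.ND B' ⊤ :=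
    fun u _ h => hnd u (fun y => by rw [← hB']; exact h y Submodule.mem_top)
  have hIsom : Cfsg.Agent.Lib.Helper96.Sp.Isom B' g := by
    intro x y
    rw [hB', hB']
    exact hQ.isometry hQ g hgQ x y
  have : Fact r.Prime := ⟨hr⟩
  have hrq : ¬ r ∣ Fintype.card F := by
    obtain ⟨n, -, hn⟩ := FiniteField.card F p
    rw [hn]
    intro hdvd
    exact hrp ((Nat.prime_dvd_prime_iff_eq hr hp).mp (hr.dvd_of_dvd_pow hdvd))
  have hr0 : (r : F) ≠ 0 := by
    intro h0
    have hdvd := (CharP.cast_eq_zero_iff F p r).mp h0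
    exact hrp ((Nat.prime_dvd_prime_iff_eq hp hr).mp hdvd).symm
  by_cases h2 : (2 : F) = 0
  · have hA : B'.IsAlt := by
      intro x
      rw [hB', hQ.self, h2, zero_mul]
    obtain ⟨U, h1, h3, h4, h5⟩ := Cfsg.Agent.Lib.Helper96.Sp.exists_ti_inv_odd hA hND g hIsom
      r hr2 hrq hr0 hg hodd b hb
    exact ⟨U, h1, h3, fun x hx y hy => by rw [← hB']; exact h4 x hx y hy, h5⟩
  · have hS : B'.IsSymm := by
      rw [LinearMap.BilinForm.isSymm_def]
      intro x y
      rw [hB', hB']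
      exact sym_comm hB y x
    obtain ⟨U, h1, h3, h4, h5⟩ := Cfsg.Agent.Lib.Helper98.O72.exists_ti_inv_odd hS h2 hND g
      hIsom r hr2 hrq hr0 hg hodd b hb
    exact ⟨U, h1, h3, fun x hx y hy => by rw [← hB']; exact h4 x hx y hy, h5⟩

end Cfsg.Agent.Lib.Helper98.T73
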