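import Mathlib
import Cfsg.Prelude.Def_GeometricClasses
import Cfsg.Agent.Lib.Helper98.TDBase

/-!
S5979 piece TD-C2 (helper75 for helper98): over a finite field without small monic factors of
`X ^ r - 1` not vanishing at `1`, a matrix whose `r`-th power is a nonzero scalar is scalar.
-/

set_option autoImplicit false

namespace Cfsg.Agent.Lib.Helper98.TD

open Matrix Polynomial
open scoped Kronecker

universe u

theorem tdc2_root_one {F : Type*} [Field F] (r b : ℕ) (hb : 1 ≤ b)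
    (hC2 : ∀ g : F[X], g.Monic → g ∣ X ^ r - 1 → g.eval 1 ≠ 0 → g.natDegree ≤ b → g = 1)
    (ζ : F) (hζ : ζ ^ r = 1) : ζ = 1 := by
  by_contra hne
  have hd : (X - C ζ : F[X]) ∣ X ^ r - 1 := by
    rw [dvd_iff_isRoot]
    simp [hζ]
  have he : (X - C ζ : F[X]).eval 1 ≠ 0 := by
    simp only [eval_sub, eval_X, eval_C]
    exact sub_ne_zero.mpr (Ne.symm hne)
  have hdeg : (X - C ζ : F[X]).natDegree ≤ b := by
    rw [natDegree_X_sub_C]; exact hb
  have h1 := hC2 (X - C ζ) (monic_X_sub_C ζ) hd he hdeg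
  have h2 := congrArg Polynomial.natDegree h1
  rw [natDegree_X_sub_C, natDegree_one] at h2
  exact one_ne_zero h2

theorem tdc2_exists_root {F : Type*} [Field F] [Finite F] (r b : ℕ) (hr : (r : F) ≠ 0)
    (hb : 1 ≤ b)
    (hC2 : ∀ g : F[X], g.Monic → g ∣ X ^ r - 1 → g.eval 1 ≠ 0 → g.natDegree ≤ b → g = 1)
    (α : F) (hα : α ≠ 0) : ∃ c : F, c ≠ 0 ∧ c ^ r = α := by
  have hr0 : r ≠ 0 := by
    rintro rfl
    exact hr (by simp)
  have hinj : Function.Injective (fun x : F => x ^ r) := by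
    intro x y hxy
    have hxy' : x ^ r = y ^ r := hxy
    by_cases hy : y = 0
    · rw [hy, zero_pow hr0] at hxy'
      rw [hy]
      exact (pow_eq_zero_iff hr0).mp hxy'
    · have h1 : (x / y) ^ r = 1 := by rw [div_pow, hxy', div_self (pow_ne_zero _ hy)]
      have h2 := tdc2_root_one r b hb hC2 _ h1
      exact (div_eq_one_iff_eq hy).mp h2
  obtain ⟨c, hc⟩ := (Finite.injective_iff_surjective.mp hinj) α
  have hc' : c ^ r = α := hc
  refine ⟨c, ?_, hc'⟩
  rintro rfl
  exact hα (by rw [← hc']; exact zero_pow hr0)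

theorem scalar_of_pow_scalar {F : Type*} [Field F] [Finite F] (r b : ℕ) (hr : (r : F) ≠ 0) (hb : 1 ≤ b)
    (hC2 : ∀ g : F[X], g.Monic → g ∣ X ^ r - 1 → g.eval 1 ≠ 0 → g.natDegree ≤ b → g = 1)
    {m : ℕ} (hm : m ≤ b) (A : Matrix (Fin m) (Fin m) F) (α : F) (hα : α ≠ 0)
    (hA : A ^ r = α • (1 : Matrix (Fin m) (Fin m) F)) :
    ∃ c : F, A = c • (1 : Matrix (Fin m) (Fin m) F) := by
  rcases Nat.eq_zero_or_pos m with rfl | hmpos
  · exact ⟨0, Subsingleton.elim _ _⟩
  obtain ⟨m', rfl⟩ : ∃ m', m = m' + 1 := ⟨m - 1, by omega⟩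
  obtain ⟨c, hc0, hc⟩ := tdc2_exists_root r b hr hb hC2 α hα
  obtain ⟨A', hA'⟩ : ∃ A' : Matrix (Fin (m' + 1)) (Fin (m' + 1)) F, A' = c⁻¹ • A := ⟨_, rfl⟩
  have hA'r : A' ^ r = 1 := by
    rw [hA', _root_.smul_pow, hA, smul_smul, inv_pow, hc, inv_mul_cancel₀ hα, one_smul]
  have hAeq : A = c • A' := by rw [hA', smul_smul, mul_inv_cancel₀ hc0, one_smul]
  suffices h : A' = 1 by exact ⟨c, by rw [hAeq, h]⟩
  have hint : IsIntegral F A' := Matrix.isIntegral A'
  have hμm : (minpoly F A').Monic := minpoly.monic hint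
  have hμdvd : minpoly F A' ∣ X ^ r - 1 := by
    apply minpoly.dvd
    simp [hA'r]
  have hμdeg : (minpoly F A').natDegree ≤ b := by
    have h1 : minpoly F A' ∣ A'.charpoly := Matrix.minpoly_dvd_charpoly A'
    have h2 := Polynomial.natDegree_le_of_dvd h1 (Matrix.charpoly_monic A').ne_zero
    rw [Matrix.charpoly_natDegree_eq_dim, Fintype.card_fin] at h2
    omega
  have hsep : (X ^ r - 1 : F[X]).Separable := by
    have h1 := Polynomial.separable_X_pow_sub_C (1 : F) hr one_ne_zero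
    simpa using h1
  have hsq : Squarefree (minpoly F A') := Squarefree.squarefree_of_dvd hμdvd hsep.squarefree
  by_cases he : (minpoly F A').eval 1 = 0
  · have hd : X - C (1 : F) ∣ minpoly F A' := dvd_iff_isRoot.mpr he
    obtain ⟨h, hh⟩ := hd
    have hhm : h.Monic := Polynomial.Monic.of_mul_monic_left (monic_X_sub_C 1) (hh ▸ hμm)
    have hhd : h ∣ minpoly F A' := ⟨X - C 1, by rw [hh, mul_comm]⟩
    have hhe : h.eval 1 ≠ 0 := by
      intro h0
      obtain ⟨h', hh'⟩ := dvd_iff_isRoot.mpr h0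
      have h4 : (X - C (1 : F)) * (X - C 1) ∣ minpoly F A' := ⟨h', by rw [hh, hh', mul_assoc]⟩
      exact Polynomial.not_isUnit_X_sub_C 1 (hsq _ h4)
    have hh1 := hC2 h hhm (hhd.trans hμdvd) hhe
      ((Polynomial.natDegree_le_of_dvd hhd hμm.ne_zero).trans hμdeg)
    rw [hh1, mul_one] at hh
    have h3 := minpoly.aeval F A'
    rw [hh] at h3
    simp at h3
    exact sub_eq_zero.mp h3
  · have h1 := hC2 _ hμm hμdvd he hμdeg
    exact absurd h1 (minpoly.ne_one F A')

end Cfsg.Agent.Lib.Helper98.TD
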