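import Mathlib
import Cfsg.Agent.Lib.Helper44.UDDefs
import Cfsg.Agent.Lib.Helper44.UDDefs2

/-!
# S5655 piece T2 (helper75 for helper44): if every weight-2 isotropic vector is a transvection
centre of `Y ≤ GU_n(q)` (`q ≥ 3`, `n ≥ 4`) then `SU_n(q) ≤ Y`.  Glue from `PlaneStmt`.
-/

set_option autoImplicit false
set_option linter.unusedSectionVars false
set_option linter.unusedVariables false

namespace Cfsg.Agent.Lib.Helper44.UD

open Matrix Cfsg.Agent.Lib.Helper93 Cfsg.Agent.Lib.Helper18 Cfsg.Agent.Lib.Helper7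

section
variable {F : Type*} [Field F] [Fintype F] {q n : ℕ}

private theorem udt2_cen_map {Y : Subgroup (GL (Fin n) F)} (hY : Y ≤ Cfsg.GU n F q)
    {v : Fin n → F} (hv : Cen q Y v) {g : GL (Fin n) F} (hg : g ∈ Y) :
    Cen q Y ((g : Matrix (Fin n) (Fin n) F) *ᵥ v) := by
  have hpres : suPres q n (g : Matrix (Fin n) (Fin n) F) := hY hg
  refine ⟨by rw [hpres]; exact hv.1, fun c hc => ?_⟩
  exact MIn.conj ⟨g, hg, rfl⟩ (hv.2 c hc) (conj_transvection _ hpres v c)

private theorem udt2_cen_zero (Y : Subgroup (GL (Fin n) F)) : Cen q Y (0 : Fin n → F) := by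
  refine ⟨hf_zero_left n 0, fun c hc => ?_⟩
  have h : Cfsg.unitaryTransvection n q (0 : Fin n → F) c = 1 := by
    apply Matrix.mulVec_injective
    funext x
    rw [unitaryTransvection_mulVec, smul_zero, add_zero, Matrix.one_mulVec]
  rw [h]; exact MIn.one Y

private theorem udt2_fix (g : Matrix (Fin n) (Fin n) F) (u : Fin n → F)
    (h : ∀ c, u c ≠ 0 → g *ᵥ Pi.single c 1 = Pi.single c 1) : g *ᵥ u = u := by
  funext r
  have h1 : ∀ c, g r c * u c = (1 : Matrix (Fin n) (Fin n) F) r c * u c := by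
    intro c
    by_cases hc : u c = 0
    · rw [hc, mul_zero, mul_zero]
    · have h2 := congrFun (h c hc) r
      rw [Matrix.mulVec_single_one] at h2
      have h3 : g r c = (1 : Matrix (Fin n) (Fin n) F) r c := by
        rw [Matrix.one_apply, ← Pi.single_apply]
        exact h2
      rw [h3]
  calc (g *ᵥ u) r = ∑ c, g r c * u c := rfl
    _ = ∑ c, (1 : Matrix (Fin n) (Fin n) F) r c * u c := Finset.sum_congr rfl (fun c _ => h1 c)
    _ = ((1 : Matrix (Fin n) (Fin n) F) *ᵥ u) r := rfl
    _ = u r := by rw [Matrix.one_mulVec]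

private theorem udt2_caseA (h1 : PlaneStmt F q) (hF : Fintype.card F = q ^ 2)
    {Y : Subgroup (GL (Fin n) F)} (hY : Y ≤ Cfsg.GU n F q)
    (hall : ∀ (i j : Fin n) (ε : F), i ≠ j → ε ^ (q + 1) = -1 →
      Cen q Y (Pi.single i 1 + ε • Pi.single j 1))
    (v : Fin n → F) (hv : Cfsg.hermForm n F q v v = 0)
    (IH : ∀ v' : Fin n → F, Cfsg.hermForm n F q v' v' = 0 →
      {c : Fin n | v' c ≠ 0}.ncard < {c : Fin n | v c ≠ 0}.ncard → Cen q Y v')
    (i j : Fin n) (hij : i ≠ j) (hi : v i ≠ 0) (hj : v j ≠ 0)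
    (hne : v i ^ (q + 1) + v j ^ (q + 1) ≠ 0) : Cen q Y v := by
  classical
  have hfix : (v i ^ (q + 1) + v j ^ (q + 1)) ^ q = v i ^ (q + 1) + v j ^ (q + 1) := by
    rw [herm_add_pow hF, herm_norm_fixed hF, herm_norm_fixed hF]
  obtain ⟨α, hα0, hα⟩ := herm_norm_surj hF _ hne hfix
  have hab : (v i / α) ^ (q + 1) + (v j / α) ^ (q + 1) = 1 := by
    rw [div_pow, div_pow, ← add_div, hα]
    exact div_self hne
  obtain ⟨g, hgY, hgi, hgc⟩ := h1 hF n Y hY i j hij (fun ε hε => hall i j ε hij hε) _ _ hab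
  obtain ⟨u, hu⟩ : ∃ u : Fin n → F, u = Function.update (Function.update v i 0) j 0 := ⟨_, rfl⟩
  have hui : u i = 0 := by rw [hu, Function.update_of_ne hij, Function.update_self]
  have huj : u j = 0 := by rw [hu, Function.update_self]
  have huc : ∀ c, c ≠ i → c ≠ j → u c = v c := by
    intro c hci hcj
    rw [hu, Function.update_of_ne hcj, Function.update_of_ne hci]
  have hgu : (g : Matrix (Fin n) (Fin n) F) *ᵥ u = u := by
    apply udt2_fix
    intro c hc
    apply hgc
    · rintro rfl; exact hc hui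
    · rintro rfl; exact hc huj
  obtain ⟨v', hv'⟩ : ∃ v' : Fin n → F, v' = α • Pi.single i 1 + u := ⟨_, rfl⟩
  have hv'c : ∀ c, v' c = α * (if c = i then 1 else 0) + u c := by
    intro c
    rw [hv']
    simp only [Pi.add_apply, Pi.smul_apply, smul_eq_mul, Pi.single_apply]
  have hgv : (g : Matrix (Fin n) (Fin n) F) *ᵥ v' = v := by
    rw [hv', Matrix.mulVec_add, Matrix.mulVec_smul, hgi, hgu]
    funext c
    simp only [Pi.add_apply, Pi.smul_apply, smul_eq_mul, Pi.single_apply]
    by_cases hci : c = i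
    · rw [hci, if_pos rfl, if_neg hij, hui]; field_simp; ring
    · by_cases hcj : c = j
      · rw [hcj, if_neg (Ne.symm hij), if_pos rfl, huj]; field_simp; ring
      · rw [if_neg hci, if_neg hcj, huc c hci hcj]; ring
  have hpres : suPres q n (g : Matrix (Fin n) (Fin n) F) := hY hgY
  have hv'iso : Cfsg.hermForm n F q v' v' = 0 := by
    rw [← hpres v' v', hgv]; exact hv
  have hsub : {c : Fin n | v' c ≠ 0} ⊆ {c : Fin n | v c ≠ 0} := by
    intro c hc
    simp only [Set.mem_ofPred_eq] at hc ⊢
    by_cases hci : c = i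
    · rw [hci]; exact hi
    · by_cases hcj : c = j
      · rw [hcj]; exact hj
      · intro h0
        apply hc
        rw [hv'c, if_neg hci, huc c hci hcj, h0]; ring
  have hcard : {c : Fin n | v' c ≠ 0}.ncard < {c : Fin n | v c ≠ 0}.ncard := by
    apply Set.ncard_lt_ncard _ (Set.toFinite _)
    rw [Set.ssubset_iff_of_subset hsub]
    refine ⟨j, hj, ?_⟩
    simp only [Set.mem_ofPred_eq, not_not]
    rw [hv'c, if_neg (Ne.symm hij), huj]; ring
  have hfin := udt2_cen_map hY (IH v' hv'iso hcard) hgY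
  rwa [hgv] at hfin

private theorem udt2_mu (hF : Fintype.card F = q ^ 2) : ∃ t : F, t ^ (q + 1) = 1 ∧ t ≠ 1 := by
  obtain ⟨ξ, hξ⟩ := exists_not_fixed hF
  have hξ0 : ξ ≠ 0 := by
    rintro rfl
    exact hξ (zero_pow (herm_q_ne_zero hF))
  refine ⟨ξ ^ q / ξ, ?_, ?_⟩
  · rw [div_pow, pow_succ (ξ ^ q) q, herm_pow_pow hF, pow_succ ξ q, mul_comm ξ (ξ ^ q)]
    exact div_self (mul_ne_zero (pow_ne_zero q hξ0) hξ0)
  · intro h
    exact hξ ((div_eq_one_iff_eq hξ0).mp h)

private theorem udt2_fq (hF : Fintype.card F = q ^ 2) (hq : 3 ≤ q) :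
    ∃ a : F, a ^ q = a ∧ a ≠ 0 ∧ a ≠ 1 := by
  have hk := herm_card_ker hF
  have hu := herm_card_units hF
  have hne : (powMonoidHom (q + 1) : Fˣ →* Fˣ).ker ≠ ⊤ := by
    intro h
    rw [h, Subgroup.card_top, hu] at hk
    have h3 : (q - 1) * (q + 1) = 1 * (q + 1) := by rw [hk, one_mul]
    have h4 := Nat.eq_of_mul_eq_mul_right (by omega) h3
    omega
  obtain ⟨u, hu'⟩ : ∃ u : Fˣ, u ∉ (powMonoidHom (q + 1) : Fˣ →* Fˣ).ker := by
    by_contra hcon
    push Not at hcon
    exact hne ((Subgroup.eq_top_iff' _).mpr hcon)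
  refine ⟨(u : F) ^ (q + 1), herm_norm_fixed hF _, pow_ne_zero _ u.ne_zero, ?_⟩
  intro h
  apply hu'
  rw [MonoidHom.mem_ker, powMonoidHom_apply]
  apply Units.ext
  rw [Units.val_pow_eq_pow_val, h, Units.val_one]

private theorem udt2_caseB_field (hF : Fintype.card F = q ^ 2) (hq : 3 ≤ q) (h2 : (2 : F) = 0)
    (x y : F) (hx : x ≠ 0) (hν : x ^ (q + 1) = y ^ (q + 1)) :
    ∃ ε a : F, ε ^ (q + 1) = -1 ∧ a + a ^ q = 0 ∧
      (x + a * (x + y * ε ^ q)) ^ (q + 1) ≠ x ^ (q + 1) := by
  obtain ⟨a, haq, ha0, ha1⟩ := udt2_fq hF hq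
  obtain ⟨t, ht, ht1⟩ := udt2_mu hF
  have hneg : (-1 : F) = 1 := by linear_combination (-1 : F) * h2
  obtain ⟨ε, hε, hη⟩ : ∃ ε : F, ε ^ (q + 1) = 1 ∧ x + y * ε ^ q ≠ 0 := by
    by_cases hxy : x + y = 0
    · refine ⟨t, ht, ?_⟩
      have hy : y = x := by linear_combination hxy - x * h2
      rw [hy]
      intro h
      have h3 : x * (1 + t ^ q) = 0 := by linear_combination h
      rcases mul_eq_zero.mp h3 with h4 | h4
      · exact hx h4
      · have h5 : t ^ q = 1 := by linear_combination h4 - h2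
        apply ht1
        have h6 := herm_pow_pow hF t
        rw [h5, one_pow] at h6
        exact h6.symm
    · exact ⟨1, one_pow _, by rwa [one_pow, mul_one]⟩
  refine ⟨ε, a, by rw [hε, hneg], by rw [haq]; linear_combination a * h2, ?_⟩
  have hεq : ε ^ q * ε = 1 := by rw [← pow_succ]; exact hε
  have hηq : (x + y * ε ^ q) ^ q = x ^ q + y ^ q * ε := by
    rw [herm_add_pow hF, mul_pow, herm_pow_pow hF]
  have hexp : (x + a * (x + y * ε ^ q)) ^ q = x ^ q + a * (x ^ q + y ^ q * ε) := by
    rw [herm_add_pow hF, mul_pow, haq, hηq]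
  have hν' : x ^ q * x = y ^ q * y := by rw [← pow_succ, ← pow_succ]; exact hν
  have key : (x + a * (x + y * ε ^ q)) ^ (q + 1) - x ^ (q + 1)
      = a * (a + 1) * (x + y * ε ^ q) ^ (q + 1) := by
    rw [pow_succ (x + a * (x + y * ε ^ q)), hexp, pow_succ (x + y * ε ^ q), hηq, pow_succ x]
    linear_combination (-(a * y ^ q * y)) * hεq + a * hν'
  intro h
  have h0 : a * (a + 1) * (x + y * ε ^ q) ^ (q + 1) = 0 := by rw [← key, h, sub_self]
  rcases mul_eq_zero.mp h0 with h3 | h3
  · rcases mul_eq_zero.mp h3 with h4 | h4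
    · exact ha0 h4
    · exact ha1 (by linear_combination h4 - h2)
  · exact hη (pow_eq_zero_iff (Nat.succ_ne_zero q) |>.mp h3)

private theorem udt2_step (h1 : PlaneStmt F q) (hF : Fintype.card F = q ^ 2) (hq : 3 ≤ q)
    {Y : Subgroup (GL (Fin n) F)} (hY : Y ≤ Cfsg.GU n F q)
    (hall : ∀ (i j : Fin n) (ε : F), i ≠ j → ε ^ (q + 1) = -1 →
      Cen q Y (Pi.single i 1 + ε • Pi.single j 1))
    (v : Fin n → F) (hv : Cfsg.hermForm n F q v v = 0)
    (IH : ∀ v' : Fin n → F, Cfsg.hermForm n F q v' v' = 0 →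
      {c : Fin n | v' c ≠ 0}.ncard < {c : Fin n | v c ≠ 0}.ncard → Cen q Y v') :
    Cen q Y v := by
  classical
  by_cases hA : ∃ i j : Fin n, i ≠ j ∧ v i ≠ 0 ∧ v j ≠ 0 ∧ v i ^ (q + 1) + v j ^ (q + 1) ≠ 0
  · obtain ⟨i, j, hij, hi, hj, hne⟩ := hA
    exact udt2_caseA h1 hF hY hall v hv IH i j hij hi hj hne
  · push Not at hA
    by_cases h0 : v = 0
    · rw [h0]; exact udt2_cen_zero Y
    · obtain ⟨i, hi⟩ : ∃ i, v i ≠ 0 := by
        by_contra hcon
        push Not at hcon
        exact h0 (funext hcon)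
      by_cases h1' : ∃ j, j ≠ i ∧ v j ≠ 0
      · obtain ⟨j, hji, hj⟩ := h1'
        by_cases h2' : ∃ k, k ≠ i ∧ k ≠ j ∧ v k ≠ 0
        · obtain ⟨k, hki, hkj, hk⟩ := h2'
          have hij := hA i j (Ne.symm hji) hi hj
          have hik := hA i k (Ne.symm hki) hi hk
          have hjk := hA j k (Ne.symm hkj) hj hk
          have h2 : (2 : F) = 0 := by
            have h3 : (2 : F) * v i ^ (q + 1) = 0 := by linear_combination hij + hik - hjk
            rcases mul_eq_zero.mp h3 with h | h
            · exact h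
            · exact absurd (pow_eq_zero_iff (Nat.succ_ne_zero q) |>.mp h) hi
          have hν : v j ^ (q + 1) = v k ^ (q + 1) := by linear_combination hij - hik
          obtain ⟨ε, a, hε, ha, hne⟩ := udt2_caseB_field hF hq h2 (v j) (v k) hj hν
          have hcen := hall j k ε (Ne.symm hkj) hε
          obtain ⟨T, hTY, hTeq⟩ := hcen.2 a ha
          obtain ⟨η, hη⟩ : ∃ η : F, η = v j + v k * ε ^ q := ⟨_, rfl⟩
          have hform : Cfsg.hermForm n F q v (Pi.single j 1 + ε • Pi.single k 1) = η := by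
            rw [hf_add_right hF, hf_smul_right, hf_single_right hF, hf_single_right hF, hη]; ring
          obtain ⟨v', hv'⟩ : ∃ v' : Fin n → F, v' = (T : Matrix (Fin n) (Fin n) F) *ᵥ v :=
            ⟨_, rfl⟩
          have hv'c : ∀ c, v' c = v c + a * η *
              ((if c = j then 1 else 0) + ε * (if c = k then 1 else 0)) := by
            intro c
            rw [hv', hTeq, unitaryTransvection_mulVec, hform]
            simp only [Pi.add_apply, Pi.smul_apply, smul_eq_mul, Pi.single_apply]
          have hv'j : v' j = v j + a * η := by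
            rw [hv'c, if_pos rfl, if_neg (Ne.symm hkj)]; ring
          have hv'o : ∀ c, c ≠ j → c ≠ k → v' c = v c := by
            intro c hcj hck
            rw [hv'c, if_neg hcj, if_neg hck]; ring
          have hsupp : ∀ c, v' c ≠ 0 → v c ≠ 0 := by
            intro c hc
            by_cases hcj : c = j
            · rw [hcj]; exact hj
            · by_cases hck : c = k
              · rw [hck]; exact hk
              · rwa [hv'o c hcj hck] at hc
          have hsub : {c : Fin n | v' c ≠ 0} ⊆ {c : Fin n | v c ≠ 0} := fun c hc => hsupp c hc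
          have hpres : suPres q n (T : Matrix (Fin n) (Fin n) F) := hY hTY
          have hv'iso : Cfsg.hermForm n F q v' v' = 0 := by rw [hv', hpres]; exact hv
          have hcv' : Cen q Y v' := by
            by_cases hz : v' j = 0
            · apply IH v' hv'iso
              apply Set.ncard_lt_ncard _ (Set.toFinite _)
              rw [Set.ssubset_iff_of_subset hsub]
              refine ⟨j, hj, ?_⟩
              simp only [Set.mem_ofPred_eq, not_not]
              exact hz
            · refine udt2_caseA h1 hF hY hall v' hv'iso ?_ i j (Ne.symm hji) ?_ hz ?_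
              · intro v'' hv'' hlt
                exact IH v'' hv'' (lt_of_lt_of_le hlt (Set.ncard_le_ncard hsub (Set.toFinite _)))
              · rw [hv'o i (Ne.symm hji) (Ne.symm hki)]; exact hi
              · rw [hv'o i (Ne.symm hji) (Ne.symm hki), hv'j, hη]
                intro h
                apply hne
                linear_combination h - hij
          have hfin := udt2_cen_map hY hcv' (Y.inv_mem hTY)
          have hback : ((T⁻¹ : GL (Fin n) F) : Matrix (Fin n) (Fin n) F) *ᵥ v' = v := by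
            rw [hv', Matrix.mulVec_mulVec, ← Units.val_mul, inv_mul_cancel, Units.val_one,
              Matrix.one_mulVec]
          rwa [hback] at hfin
        · push Not at h2'
          have hsum := hA i j (Ne.symm hji) hi hj
          have hε : (v j / v i) ^ (q + 1) = -1 := by
            rw [div_pow, div_eq_iff (pow_ne_zero _ hi)]
            linear_combination hsum
          have hveq : v = v i • (Pi.single i 1 + (v j / v i) • Pi.single j 1) := by
            funext c
            simp only [Pi.add_apply, Pi.smul_apply, smul_eq_mul, Pi.single_apply]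
            by_cases hci : c = i
            · rw [hci, if_pos rfl, if_neg (Ne.symm hji)]; ring
            · by_cases hcj : c = j
              · rw [hcj, if_neg hji, if_pos rfl]; field_simp; ring
              · rw [if_neg hci, if_neg hcj, h2' c hci hcj]; ring
          rw [hveq]
          exact (hall i j _ (Ne.symm hji) hε).smul hF _
      · push Not at h1'
        exfalso
        have hval : Cfsg.hermForm n F q v v = v i ^ (q + 1) := by
          unfold Cfsg.hermForm
          rw [Finset.sum_eq_single i]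
          · rw [pow_succ, mul_comm]
          · intro c _ hc; rw [h1' c hc, zero_mul]
          · intro h; exact absurd (Finset.mem_univ i) h
        rw [hval] at hv
        exact hi (pow_eq_zero_iff (Nat.succ_ne_zero q) |>.mp hv)

end

theorem ud_t2 {F : Type*} [Field F] [Fintype F] (q : ℕ) (h1 : PlaneStmt F q) : T2Stmt F q := by
  classical
  intro hF hq n hn Y hY hall
  have key : ∀ m : ℕ, ∀ v : Fin n → F, Cfsg.hermForm n F q v v = 0 →
      {c : Fin n | v c ≠ 0}.ncard = m → Cen q Y v := by
    intro m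
    induction m using Nat.strong_induction_on with
    | _ m ih =>
      intro v hv hm
      have IH : ∀ v' : Fin n → F, Cfsg.hermForm n F q v' v' = 0 →
          {c : Fin n | v' c ≠ 0}.ncard < {c : Fin n | v c ≠ 0}.ncard → Cen q Y v' :=
        fun v' hv' hlt => ih _ (hm ▸ hlt) v' hv' rfl
      exact udt2_step h1 hF hq hY hall v hv IH
  exact su_le_of_cen hF hn (fun v hv => key _ v hv rfl)

end Cfsg.Agent.Lib.Helper44.UD
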