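import Mathlib

/-!
# UF-ORDARITH (piece of S5982, poster helper96)
-/

set_option autoImplicit false

namespace Cfsg.Agent.Lib.Helper75.Uf

theorem ord_arith (q₀ r k : ℕ) [Fact r.Prime] (hr2 : r ≠ 2) (hrq : ¬ r ∣ q₀)
    (hk : r ∣ (if Even k then q₀ ^ k + 1 else q₀ ^ k - 1)) :
    orderOf (((q₀ ^ 2 : ℕ) : ZMod r)) ∣ k ∧
      (-(q₀ : ZMod r)) ^ orderOf (((q₀ ^ 2 : ℕ) : ZMod r)) = -1 := by
  have hrp : r.Prime := Fact.out
  have hr3 : 2 < r := lt_of_le_of_ne hrp.two_le (Ne.symm hr2)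
  have hne : (1 : ZMod r) ≠ -1 := by
    have : Fact (2 < r) := ⟨hr3⟩
    exact fun h => ZMod.neg_one_ne_one h.symm
  have hq0 : q₀ ≠ 0 := by
    rintro rfl
    exact hrq (dvd_zero r)
  have hq1 : 1 ≤ q₀ ^ k := Nat.one_le_pow _ _ (Nat.pos_of_ne_zero hq0)
  -- s ^ k = -1
  have hsk : (-(q₀ : ZMod r)) ^ k = -1 := by
    by_cases hev : Even k
    · rw [if_pos hev] at hk
      have h1 : ((q₀ ^ k + 1 : ℕ) : ZMod r) = 0 := (ZMod.natCast_eq_zero_iff _ _).mpr hk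
      push_cast at h1
      rw [hev.neg_pow]
      exact eq_neg_of_add_eq_zero_left h1
    · rw [if_neg hev] at hk
      have h1 : ((q₀ ^ k - 1 : ℕ) : ZMod r) = 0 := (ZMod.natCast_eq_zero_iff _ _).mpr hk
      rw [Nat.cast_sub hq1] at h1
      push_cast at h1
      have hodd : Odd k := Nat.not_even_iff_odd.mp hev
      rw [hodd.neg_pow, sub_eq_zero.mp h1]
  have hs2 : ((q₀ ^ 2 : ℕ) : ZMod r) = (-(q₀ : ZMod r)) ^ 2 := by
    push_cast
    ring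
  rw [hs2]
  have hdvd : orderOf ((-(q₀ : ZMod r)) ^ 2) ∣ k := by
    apply orderOf_dvd_of_pow_eq_one
    rw [← pow_mul, mul_comm, pow_mul, hsk]
    ring
  refine ⟨hdvd, ?_⟩
  have hsq : ((-(q₀ : ZMod r)) ^ orderOf ((-(q₀ : ZMod r)) ^ 2)) ^ 2 = 1 := by
    rw [← pow_mul, mul_comm, pow_mul, pow_orderOf_eq_one]
  have hfac : ((-(q₀ : ZMod r)) ^ orderOf ((-(q₀ : ZMod r)) ^ 2) - 1) *
      ((-(q₀ : ZMod r)) ^ orderOf ((-(q₀ : ZMod r)) ^ 2) + 1) = 0 := by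
    linear_combination hsq
  rcases mul_eq_zero.mp hfac with h | h
  · exfalso
    have h1 : (-(q₀ : ZMod r)) ^ orderOf ((-(q₀ : ZMod r)) ^ 2) = 1 := sub_eq_zero.mp h
    obtain ⟨t, ht⟩ := hdvd
    have : (-(q₀ : ZMod r)) ^ k = 1 := by
      rw [ht, pow_mul, h1, one_pow]
    rw [hsk] at this
    exact hne this.symm
  · exact eq_neg_of_add_eq_zero_left h

end Cfsg.Agent.Lib.Helper75.Uf
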