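import Mathlib
import Cfsg.Agent.Lib.Helper22.W2Defs

/-! Project W2 (helper22; S4707): piece `LOC2`. From a Sylow `p`-subgroup `P` of order `p` whose
normalizer has order `2p` and does not centralize `P`: a generator `z` of `P` satisfies `Loc2`. -/

set_option autoImplicit false

namespace Cfsg.Agent.Lib.Helper75.W2

open Cfsg Cfsg.Agent.Lib.Helper22.W2
open scoped ComplexConjugate

universe u

variable {G : Type u} [Group G] [Fintype G]

/-- PIECE LOC2 -/
theorem loc2 (p : ℕ) [Fact p.Prime] (hp2 : p ≠ 2) (P : Sylow p G) (hP : Nat.card P = p)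
    (hN : Nat.card (Subgroup.normalizer ((P : Subgroup G) : Set G)) = 2 * p)
    (hnc : ∃ n ∈ Subgroup.normalizer ((P : Subgroup G) : Set G), ∃ x ∈ (P : Subgroup G),
      n * x ≠ x * n) :
    ∃ z : G, z ∈ (P : Subgroup G) ∧ Loc2 G p z := by
  classical
  have hp : p.Prime := Fact.out
  obtain ⟨N, hNdef⟩ : ∃ N : Subgroup G, N = Subgroup.normalizer ((P : Subgroup G) : Set G) :=
    ⟨_, rfl⟩
  rw [← hNdef] at hN hnc
  have hP' : Nat.card (P : Subgroup G) = p := hP
  -- a generator
  have hnt : Nontrivial (P : Subgroup G) := by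
    apply (Finite.one_lt_card_iff_nontrivial).mp
    rw [hP']
    exact hp.one_lt
  obtain ⟨⟨z, hzP⟩, hz1'⟩ := exists_ne (1 : (P : Subgroup G))
  have hz1 : z ≠ 1 := fun h => hz1' (Subtype.ext h)
  have hord : orderOf z = p := by
    have hdvd : orderOf z ∣ p := by
      have h3 := Subgroup.orderOf_dvd_natCard (P : Subgroup G) hzP
      rwa [hP'] at h3
    rcases (Nat.dvd_prime hp).mp hdvd with h | h
    · exact absurd (orderOf_eq_one_iff.mp h) hz1
    · exact h
  have hZP : Subgroup.zpowers z = (P : Subgroup G) := by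
    apply Subgroup.eq_of_le_of_card_ge
    · rw [Subgroup.zpowers_le]
      exact hzP
    · rw [hP', Nat.card_zpowers, hord]
  have hmemZ : ∀ x, x ∈ (P : Subgroup G) ↔ ∃ i : ℤ, z ^ i = x := by
    intro x
    rw [← hZP, Subgroup.mem_zpowers_iff]
  have hcomm_of : ∀ g : G, g * z = z * g → ∀ x ∈ (P : Subgroup G), g * x = x * g := by
    intro g hg x hx
    obtain ⟨i, rfl⟩ := (hmemZ x).mp hx
    exact (Commute.zpow_right (show Commute g z from hg) i).eq
  have hNmem : ∀ g, g ∈ N ↔ ∀ h, h ∈ (P : Subgroup G) ↔ g * h * g⁻¹ ∈ (P : Subgroup G) := by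
    intro g
    rw [hNdef]
    exact Subgroup.mem_normalizer_iff
  have hPN : (P : Subgroup G) ≤ N := by
    rw [hNdef]
    exact Subgroup.le_normalizer
  -- the centralizer
  obtain ⟨C, hCdef⟩ : ∃ C : Subgroup G, C = Subgroup.centralizer ({z} : Set G) := ⟨_, rfl⟩
  have hCmem : ∀ g, g ∈ C ↔ g * z = z * g := by
    intro g
    rw [hCdef, Subgroup.mem_centralizer_iff]
    constructor
    · intro h
      exact (h z rfl).symm
    · intro h y hy
      rw [Set.mem_singleton_iff.mp hy]
      exact h.symm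
  have hZC : (P : Subgroup G) ≤ C := by
    intro x hx
    rw [hCmem]
    obtain ⟨i, rfl⟩ := (hmemZ x).mp hx
    exact (Commute.zpow_left (Commute.refl z) i).eq
  have hCN : C ≤ N := by
    intro g hg
    rw [hNmem]
    have hg' := (hCmem g).mp hg
    intro h
    constructor
    · intro hh
      have h3 := hcomm_of g hg' h hh
      rw [h3, mul_inv_cancel_right]
      exact hh
    · intro hh
      have h3 := hcomm_of g hg' _ hh
      have h4 : g * h * g⁻¹ = h := by
        have h5 : g * (g * h * g⁻¹) = g * h := by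
          rw [h3]
          group
        exact mul_left_cancel h5
      rw [← h4]
      exact hh
  have hcardC : Nat.card C = p := by
    have h1 : p ∣ Nat.card C := by
      have h3 := Subgroup.card_dvd_of_le hZC
      rwa [hP'] at h3
    have h2 : Nat.card C ∣ 2 * p := by
      have h3 := Subgroup.card_dvd_of_le hCN
      rwa [hN] at h3
    obtain ⟨m, hm⟩ := h1
    rw [hm] at h2
    have hm2 : m ∣ 2 := by
      have h3 : p * m ∣ p * 2 := by rwa [mul_comm p 2]
      exact (Nat.mul_dvd_mul_iff_left hp.pos).mp h3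
    rcases (Nat.dvd_prime Nat.prime_two).mp hm2 with h | h
    · rw [hm, h, mul_one]
    · exfalso
      have hCNeq : C = N := by
        apply Subgroup.eq_of_le_of_card_ge hCN
        rw [hN, hm, h]
        omega
      obtain ⟨n, hn, x, hx, hnx⟩ := hnc
      rw [← hCNeq] at hn
      exact hnx (hcomm_of n ((hCmem n).mp hn) x hx)
  have hCP : C = (P : Subgroup G) := by
    symm
    apply Subgroup.eq_of_le_of_card_ge hZC
    rw [hcardC, hP']
  -- index two
  have hsqmem : ∀ c ∈ N, c * c ∈ (P : Subgroup G) := by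
    intro c hc
    have hidx : ((P : Subgroup G).subgroupOf N).index = 2 := by
      have h3 := Subgroup.card_mul_index ((P : Subgroup G).subgroupOf N)
      have h4 : Nat.card ((P : Subgroup G).subgroupOf N) = p := by
        rw [Nat.card_congr (Subgroup.subgroupOfEquivOfLe hPN).toEquiv, hP']
      rw [h4, hN] at h3
      have h5 : p * ((P : Subgroup G).subgroupOf N).index = p * 2 := by rw [h3, mul_comm]
      exact Nat.eq_of_mul_eq_mul_left hp.pos h5
    have h5 := Subgroup.mul_self_mem_of_index_two hidx (⟨c, hc⟩ : N)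
    rw [Subgroup.mem_subgroupOf] at h5
    exact h5
  -- conjugation by an element of the normalizer inverts or centralizes `z`
  have hA : ∀ c ∈ N, c * z * c⁻¹ = z ∨ c * z * c⁻¹ = z⁻¹ := by
    intro c hc
    have h1 : c * z * c⁻¹ ∈ (P : Subgroup G) := ((hNmem c).mp hc z).mp hzP
    obtain ⟨j, hj⟩ := (hmemZ _).mp h1
    have h2 : (c * c) * z = z * (c * c) := (hCmem _).mp (hZC (hsqmem c hc))
    have h3 : c * (c * z * c⁻¹) * c⁻¹ = z := by
      have h3' : c * (c * z * c⁻¹) * c⁻¹ = (c * c) * z * (c * c)⁻¹ := by group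
      rw [h3', h2, mul_inv_cancel_right]
    have h4 : z ^ (j * j) = z := by
      rw [zpow_mul, hj, conj_zpow, hj]
      exact h3
    have h5 : z ^ (j * j - 1) = 1 := by
      rw [zpow_sub, h4, zpow_one, mul_inv_cancel]
    have h6 : (p : ℤ) ∣ (j - 1) * (j + 1) := by
      have h7 := (orderOf_dvd_iff_zpow_eq_one).mpr h5
      rw [hord] at h7
      have e : j * j - 1 = (j - 1) * (j + 1) := by ring
      rwa [e] at h7
    rcases Int.Prime.dvd_mul' hp h6 with h | h
    · left
      have h7 : z ^ (j - 1) = 1 := by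
        apply (orderOf_dvd_iff_zpow_eq_one).mp
        rw [hord]
        exact h
      rw [← hj]
      have h8 : z ^ j = z ^ (j - 1) * z := by rw [← zpow_add_one, sub_add_cancel]
      rw [h8, h7, one_mul]
    · right
      have h7 : z ^ (j + 1) = 1 := by
        apply (orderOf_dvd_iff_zpow_eq_one).mp
        rw [hord]
        exact h
      rw [← hj]
      rw [zpow_add_one] at h7
      exact eq_inv_of_mul_eq_one_left h7
  refine ⟨z, hzP, ⟨hord, ?_, ?_, ?_⟩⟩
  · rw [← hCdef, hCP, hZP]
  · obtain ⟨n, hn, x, hx, hnx⟩ := hnc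
    refine ⟨n, ?_⟩
    rcases hA n hn with h | h
    · exfalso
      apply hnx
      exact hcomm_of n (mul_inv_eq_iff_eq_mul.mp h) x hx
    · exact h
  · intro k hk
    obtain ⟨c, hc⟩ := isConj_iff.mp hk
    have hcinvN : c⁻¹ ∈ N := by
      rw [hNdef]
      apply Subgroup.mem_normalizer_fintype
      intro h hh
      have hh' : h ∈ (P : Subgroup G) := hh
      obtain ⟨i, rfl⟩ := (hmemZ h).mp hh'
      show c⁻¹ * z ^ i * c⁻¹⁻¹ ∈ (P : Subgroup G)
      rw [← conj_zpow]
      have h3 : c⁻¹ * z * c⁻¹⁻¹ = z ^ k.val := by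
        conv_lhs => rw [← hc]
        group
      rw [h3]
      apply Subgroup.zpow_mem
      apply Subgroup.pow_mem
      exact hzP
    have hcN : c ∈ N := by
      have h3 := N.inv_mem hcinvN
      rwa [inv_inv] at h3
    have h4 : (c * z * c⁻¹) ^ k.val = z := by rw [conj_pow, hc]
    rcases hA c hcN with h | h
    · left
      rw [h] at h4
      have h5 : z ^ k.val = z ^ 1 := by rw [h4, pow_one]
      have h6 := pow_eq_pow_iff_modEq.mp h5
      rw [hord] at h6
      have h7 : ((k.val : ℕ) : ZMod p) = ((1 : ℕ) : ZMod p) :=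
        (ZMod.natCast_eq_natCast_iff _ _ _).mpr h6
      rw [ZMod.natCast_zmod_val, Nat.cast_one] at h7
      exact h7
    · right
      rw [h, inv_pow] at h4
      have h6 : z ^ k.val = z⁻¹ := inv_eq_iff_eq_inv.mp h4
      have h5 : z ^ (k.val + 1) = 1 := by
        rw [pow_succ, h6, inv_mul_cancel]
      have h8 := orderOf_dvd_iff_pow_eq_one.mpr h5
      rw [hord] at h8
      have h7 : ((k.val + 1 : ℕ) : ZMod p) = 0 := (ZMod.natCast_eq_zero_iff _ _).mpr h8
      rw [Nat.cast_add, ZMod.natCast_zmod_val, Nat.cast_one] at h7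
      exact eq_neg_of_add_eq_zero_left h7

end Cfsg.Agent.Lib.Helper75.W2
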